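/-
Berger's theorem: over a solvable quotient a quasi-primitive character is primitive.
-/
import Cfsg.Agent.Char.GoingDown2
import Cfsg.Agent.Grp.Primitive

set_option autoImplicit false

open Cfsg CL.Grp
open scoped ComplexConjugate commutatorElement

namespace CL.Char

universe u

section Grp

theorem relIndex_eq_card_map_quot {Q : Type*} [Group Q] (K X : Subgroup Q) [K.Normal] :
    K.relIndex X = Nat.card (X.map (QuotientGroup.mk' K)) := by
  rw [← Subgroup.relIndex_ker, QuotientGroup.ker_mk']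

theorem isCoatom_map_of_ker_le_of_surjective {Γ Q : Type*} [Group Γ] [Group Q] {f : Γ →* Q}
    (hf : Function.Surjective f) {H : Subgroup Γ} (hH : IsCoatom H) (h : f.ker ≤ H) : IsCoatom (H.map f) := by
  have h0 : (H.map f).comap f = H := Subgroup.comap_map_eq_self h
  refine ⟨fun e => hH.1 (by rw [← h0, e, Subgroup.comap_top]), fun X hX => ?_⟩
  rw [← Subgroup.map_comap_eq_self_of_surjective hf X,
    hH.2 _ (h0.ge.trans_lt ((Subgroup.comap_lt_comap_of_surjective hf).2 hX)), Subgroup.map_top_of_surjective f hf]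

theorem coreFree_structure {Q : Type*} [Group Q] [Finite Q] [Group.IsSolvable Q] {U : Subgroup Q}
    (hU : IsCoatom U) (hc : U.normalCore = ⊥) :
    ∃ K : Subgroup Q, K.Normal ∧ K ⊔ U = ⊤ ∧ K ⊓ U = ⊥ ∧ Subgroup.centralizer (K : Set Q) = K ∧
      ((Nat.card K).Prime ∨ ∃ M : Subgroup Q, M.Normal ∧ K < M ∧ (K.relIndex M).Coprime (Nat.card K)) := by
  have : Nontrivial Q := by
    by_contra h
    rw [not_nontrivial_iff_subsingleton] at h
    exact hU.1 (Subsingleton.elim _ _)
  obtain ⟨K, hK⟩ := exists_isMinNormal Q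
  have := hK.normal
  have := hK.isMulCommutative_of_isSolvable inferInstance
  obtain ⟨p, hp, hP, -⟩ := hK.exists_isPGroup inferInstance
  have h1 := isComplement'_of_coreFree hU hc hK.ne_bot
  have h2 := centralizer_eq_of_coreFree hU hc hK.ne_bot
  refine ⟨K, hK.normal, h1.sup_eq_top, h1.disjoint.eq_bot, h2, ?_⟩
  by_cases h3 : K = ⊤
  · refine Or.inl (hK.card_prime_of_le_center ?_)
    rw [← Subgroup.centralizer_univ, ← Subgroup.coe_top, ← h3, h2]
  right
  have : Nontrivial (Q ⧸ K) := QuotientGroup.nontrivial_iff.2 h3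
  obtain ⟨M, hM⟩ := exists_isMinNormal (Q ⧸ K)
  have := hM.normal
  obtain ⟨q, hq, hQ, -⟩ := hM.exists_isPGroup inferInstance
  have hf := QuotientGroup.mk'_surjective K
  have h4 : ¬ M.comap (QuotientGroup.mk' K) ≤ K := fun h => hM.ne_bot (by
    rw [← Subgroup.map_comap_eq_self_of_surjective hf M, Subgroup.map_eq_bot_iff, QuotientGroup.ker_mk']
    exact h)
  refine ⟨M.comap (QuotientGroup.mk' K), inferInstance,
    lt_of_le_not_ge (QuotientGroup.le_comap_mk' K M) h4, ?_⟩
  have := Fact.mk hp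
  have := Fact.mk hq
  have h5 : q ≠ p := by
    rintro rfl
    refine h4 ((hK.le_centralizer_of_isNilpotent ?_).trans h2.le)
    exact (hQ.comap_of_ker_isPGroup _ (by rwa [QuotientGroup.ker_mk'])).isNilpotent
  have h6 : K.relIndex (M.comap (QuotientGroup.mk' K)) = Nat.card M := by
    rw [relIndex_eq_card_map_quot, Subgroup.map_comap_eq_self_of_surjective hf]
  rw [h6]
  exact IsPGroup.coprime_card_of_ne q p h5 M K hQ hP

variable {G : Type*} [Group G]

theorem isSolvable_quotient_comap {Γ : Type*} [Group Γ] (f : Γ →* G) (N : Subgroup G) [N.Normal]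
    [Group.IsSolvable (G ⧸ N)] : Group.IsSolvable (Γ ⧸ N.comap f) :=
  Group.isSolvable_of_isSolvable_injective (f := QuotientGroup.map (N.comap f) N f le_rfl) (by
    rw [← MonoidHom.ker_eq_bot_iff, eq_bot_iff]
    intro x hx
    obtain ⟨g, rfl⟩ := QuotientGroup.mk_surjective x
    exact (QuotientGroup.eq_one_iff g).2 ((QuotientGroup.eq_one_iff (f g)).1 hx))

theorem core_structure [Finite G] {A H : Subgroup G} [A.Normal] [Group.IsSolvable (G ⧸ A)] (hH : IsCoatom H)
    (hAH : A ≤ H) (hc : ∀ N : Subgroup G, N.Normal → N ≤ H → N ≤ A) :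
    ∃ K : Subgroup G, K.Normal ∧ K ⊔ H = ⊤ ∧ K ⊓ H = A ∧ (∀ h ∈ H, (∀ k ∈ K, ⁅h, k⁆ ∈ A) → h ∈ A) ∧
      ((A.relIndex K).Prime ∨ ∃ M : Subgroup G, M.Normal ∧ K < M ∧ (K.relIndex M).Coprime (A.relIndex K)) := by
  let f := QuotientGroup.mk' A
  have hf : Function.Surjective f := QuotientGroup.mk'_surjective A
  have h0 : (H.map f).comap f = H := Subgroup.comap_map_eq_self (by rwa [QuotientGroup.ker_mk'])
  obtain ⟨K, h1, h2, h3, h4, h5⟩ := coreFree_structure (U := H.map f)
    (isCoatom_map_of_ker_le_of_surjective hf hH (by rwa [QuotientGroup.ker_mk'])) (by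
      rw [← Subgroup.map_comap_eq_self_of_surjective hf (Subgroup.normalCore _), Subgroup.map_eq_bot_iff,
        QuotientGroup.ker_mk']
      exact hc _ inferInstance ((Subgroup.comap_mono (Subgroup.normalCore_le _)).trans h0.le))
  have h6 : K.comap f ⊓ H = A := by
    rw [← h0, ← Subgroup.comap_inf, h3, MonoidHom.comap_bot, QuotientGroup.ker_mk']
  have h7 : A.relIndex (K.comap f) = Nat.card K := by
    rw [relIndex_eq_card_map_quot, Subgroup.map_comap_eq_self_of_surjective hf]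
  refine ⟨K.comap f, inferInstance, by rw [← h0, Subgroup.comap_sup_eq f _ _ hf, h2, Subgroup.comap_top], h6,
    fun h hh h8 => h6.le ⟨?_, hh⟩, h7 ▸ h5.imp id fun ⟨M, k1, k2, k3⟩ => ⟨M.comap f, inferInstance,
      (Subgroup.comap_lt_comap_of_surjective hf).2 k2, ?_⟩⟩
  · rw [← h4]
    intro x hx
    obtain ⟨k, rfl⟩ := hf x
    rw [eq_comm, ← commutatorElement_eq_one_iff_mul_comm, ← map_commutatorElement]
    exact (QuotientGroup.eq_one_iff _).2 (h8 k hx)
  · rwa [Subgroup.relIndex_comap, Subgroup.map_comap_eq_self_of_surjective hf]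

end Grp

section Hom

variable {G : Type*} [Group G]

/-- `χ` is homogeneous on every normal subgroup containing `L`. -/
def HomAbove (L : Subgroup G) (χ : G → ℂ) : Prop :=
  ∀ M : Subgroup G, M.Normal → L ≤ M →
    ∃ (θ : M → ℂ) (e : ℕ), IsIrrCharacter M θ ∧ (fun m : M => χ m) = (e : ℂ) • θ

theorem HomAbove.mono {L A : Subgroup G} {χ : G → ℂ} (h : HomAbove L χ) (hLA : L ≤ A) : HomAbove A χ :=
  fun M h1 h2 => h M h1 (hLA.trans h2)

theorem mem_charCenter_of_comp_eq_smul [Finite G] {H : Type*} [Group H] [Finite H] (f : H →* G) {χ : G → ℂ}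
    (hχ : IsIrrCharacter G χ) {θ : H → ℂ} (hθ : IsCharacter H θ) {e : ℂ} (h : (fun x => χ (f x)) = e • θ)
    {x : H} : x ∈ charCenter θ ↔ f x ∈ charCenter χ := by
  have h1 : χ 1 = e * θ 1 := by simpa using congrFun h 1
  have h2 : χ (f x) = e * θ x := congrFun h x
  have h3 : ‖e‖ ≠ 0 := norm_ne_zero_iff.2 (left_ne_zero_of_mul (h1 ▸ hχ.one_ne_zero))
  rw [hθ.mem_charCenter, hχ.isCharacter.mem_charCenter, h1, h2, norm_mul, norm_mul, mul_right_inj' h3]

theorem HomAbove.restrict [Finite G] {Z H : Subgroup G} [Z.Normal] {β : G → ℂ} (hβ : IsIrrCharacter G β)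
    (h : HomAbove Z β) (hZ : Z ≤ charCenter β) (hs : Z ⊔ H = ⊤) : HomAbove ⊥ (fun x : H => β x) := by
  intro N hN _
  have h1 : (Z ⊔ N.map H.subtype).Normal := normal_of_sup_le_normalizer hs
    (le_sup_left.trans Subgroup.le_normalizer)
    (le_trans (le_inf Subgroup.le_normalizer_of_normal (by
      conv_lhs => rw [← H.range_subtype, MonoidHom.range_eq_map]
      exact (Subgroup.map_mono (by rw [Subgroup.normalizer_eq_top])).trans
        (Subgroup.le_normalizer_map H.subtype)))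
      (Subgroup.normalizer_inf_normalizer_le_normalizer_sup _ _))
  obtain ⟨θ, e, hθ, he⟩ := h _ h1 le_sup_left
  let f : N →* (Z ⊔ N.map H.subtype : Subgroup G) := (H.subtype.comp N.subtype).codRestrict _
    fun x => Subgroup.mem_sup_right ⟨x, x.2, rfl⟩
  refine ⟨fun x => θ (f x), e, isIrrCharacter_comp_of_charCenter f hθ fun ⟨g, hg⟩ => ?_,
    funext fun x => congrFun he (f x)⟩
  obtain ⟨z, hz, _, ⟨x, hx, rfl⟩, rfl⟩ := (Subgroup.mem_sup_of_normal_left ..).1 hg
  exact ⟨⟨z, Subgroup.mem_sup_left hz⟩, (mem_charCenter_of_comp_eq_smul (Subgroup.subtype _) hβ hθ.isCharacter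
    he).2 (hZ hz), ⟨x, hx⟩, rfl⟩

end Hom

theorem CharCover.homAbove_factor {G : Type u} [Group G] [Finite G] {N : Subgroup G} [N.Normal] {θ : N → ℂ}
    (C : CharCover N θ) {χ : G → ℂ} {β : C.Γ → ℂ} (hβ : C.ι.range ≤ charKer β) (hβ1 : β 1 ≠ 0)
    (h : (fun x => χ (C.π x)) = β * C.ext) (hχ : HomAbove N χ) : HomAbove (N.comap C.π) β := by
  intro M hM hNM
  have := Fintype.ofFinite N
  obtain ⟨M', hM', hNM', rfl⟩ : ∃ M' : Subgroup G, M'.Normal ∧ N ≤ M' ∧ M = M'.comap C.π :=
    ⟨M.map C.π, hM.map _ C.π_surj,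
      (Subgroup.map_comap_eq_self_of_surjective C.π_surj N).ge.trans (Subgroup.map_mono hNM),
      (Subgroup.comap_map_eq_self ((C.ker_le_comap N).trans hNM)).symm⟩
  obtain ⟨μ, f, hμ, hf⟩ := hχ M' hM' hNM'
  obtain ⟨γ, h1, -, h2⟩ := C.factor_homogeneous hβ hβ1 h hNM' hμ hf
  exact ⟨γ, f, h1, h2⟩

/-- The statement proved by induction. -/
def BergerUpTo (n : ℕ) : Prop :=
  ∀ (G : Type u) [Group G] [Fintype G] (L : Subgroup G) [L.Normal], L.index < n → Group.IsSolvable (G ⧸ L) →
    ∀ χ : G → ℂ, IsIrrCharacter G χ → HomAbove L χ →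
      ∀ H : Subgroup G, H ≠ ⊤ → L ≤ H → ∀ ψ : H → ℂ, IsCharacter H ψ → indFun H ψ ≠ χ

theorem berger_linear {G : Type u} [Group G] [Fintype G] {A H : Subgroup G} [A.Normal]
    [Group.IsSolvable (G ⧸ A)] (ih : BergerUpTo.{u} A.index) (hH : IsCoatom H) (hAH : A ≤ H)
    (hc : ∀ N : Subgroup G, N.Normal → N ≤ H → N ≤ A) {χ : G → ℂ} (hχ : IsIrrCharacter G χ)
    (hhom : HomAbove A χ) (hA : A ≤ charCenter χ) {ψ : H → ℂ} (hψ : IsCharacter H ψ) : indFun H ψ ≠ χ := by
  intro hind
  obtain ⟨K, hK, h1, h2, h3, h4⟩ := core_structure hH hAH hc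
  have hAK : A ≤ K := h2 ▸ inf_le_left
  have := Fintype.ofFinite K
  have := Fintype.ofFinite H
  obtain ⟨ζ, f, hζ, hf⟩ := hhom K hK hAK
  have hf1 : χ 1 = f * ζ 1 := congrFun hf 1
  have hf0 : (f : ℂ) ≠ 0 := left_ne_zero_of_mul (hf1 ▸ hχ.one_ne_zero)
  have hHK : H.subgroupOf K = A.subgroupOf K := by rw [← h2, Subgroup.inf_subgroupOf_left]
  have hvan : ∀ k : K, (k : G) ∉ A → ζ k = 0 := fun k hk => by
    have h5 := congrFun (res_indFun_of_sup_eq_top (Or.inr hK) h1 hψ.isClassFunction) k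
    have : (H.subgroupOf K).Normal := hHK ▸ inferInstance
    rw [hind, indFun_eq_zero_of_not_mem _ (by rwa [hHK])] at h5
    exact (mul_eq_zero.1 ((congrFun hf k).symm.trans h5)).resolve_left hf0
  have hAζ : A.subgroupOf K ≤ charCenter ζ := fun x hx =>
    (mem_charCenter_of_comp_eq_smul K.subtype hχ hζ.isCharacter hf).2 (hA hx)
  have he : charDegree ζ ^ 2 = A.relIndex K := (hζ.charDegree_sq_le_index hAζ).2.2 hvan
  rcases h4 with h4 | ⟨M, hM, h4, h5⟩
  · rw [← he] at h4
    exact absurd h4.eq_one_of_pow (by decide)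
  obtain ⟨C⟩ := nonempty_charCover K hζ (invariant_of_res_eq_smul hχ.isClassFunction hf0 hf)
  obtain ⟨β, hβ, hβk, hβe⟩ := C.exists_irr_factor hχ
    (by rwa [hf, classInner_smul_left, hζ.classInner_self, mul_one])
  have hKβ := C.comap_le_charCenter_of_factor hβk hβe
  have hs : K.comap C.π ⊔ H.comap C.π = ⊤ := by
    rw [Subgroup.comap_sup_eq _ _ _ C.π_surj, h1, Subgroup.comap_top]
  have hβH := isIrrCharacter_restrict_of_charCenter (H.comap C.π) hβ
    (eq_top_iff.2 (hs.ge.trans (sup_le_sup_right hKβ _)))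
  have := Fintype.ofFinite (H.comap C.π)
  have hξ : IsCharacter (H.comap C.π) (fun x => conj (C.ext x)) := (C.ext_irr.isCharacter.restrict _).conj
  have hψ' := hψ.comp (C.πH H)
  have hprod : (fun x : H.comap C.π => conj (C.ext x)) * (fun x => ψ (C.πH H x)) = fun x : H.comap C.π => β x := by
    refine eq_of_classInner_ne_zero_of_one_eq (hξ.mul hψ') hβH ?_ ?_
    · rw [(hξ.mul hψ').classInner_comm hβH.isCharacter]
      refine ne_of_eq_of_ne (classInner_mul_left (fun x : H.comap C.π => β x) (fun x => C.ext x) _).symm ?_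
      have h6 : ((fun x : H.comap C.π => β x) * fun x : H.comap C.π => C.ext x) = fun x => χ (C.πH H x) :=
        funext fun x => (congrFun hβe x).symm
      rw [h6, classInner_comp_of_surjective (C.πH H) (C.πH_surj H) (fun x : H => χ x) ψ,
        ← frobenius_reciprocity' ψ hχ.isClassFunction, hind, hχ.classInner_self]
      exact one_ne_zero
    · have h6 := C.factor_one hβe
      have h7 : H.index = A.relIndex K := by
        refine Nat.eq_of_mul_eq_mul_left (Nat.pos_of_ne_zero (Subgroup.index_ne_zero_of_finite (H := K))) ?_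
        rw [mul_comm _ (A.relIndex K), Subgroup.relIndex_mul_index hAK, ← Subgroup.relIndex_mul_index hAH,
          ← Subgroup.relIndex_top_right K, ← h1, Subgroup.relIndex_sup_left, ← h2, Subgroup.inf_relIndex_right]
      rw [← hind, indFun_one, h7, ← he] at h6
      simp only [Pi.mul_apply, OneMemClass.coe_one, map_one, C.ext_one, ← C.base_one, ← hζ.cast_charDegree,
        Complex.conj_natCast] at h6 ⊢
      have h8 : (charDegree ζ : ℂ) ≠ 0 := by exact_mod_cast hζ.charDegree_pos.ne'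
      exact mul_right_cancel₀ h8 (by rw [← h6]; push_cast; ring)
  have hξ' := isIrrCharacter_of_mul hξ hψ' (hprod ▸ hβH)
  have := isSolvable_quotient_comap C.π A
  rcases homogeneous_or_induced ((M.comap C.π).subgroupOf (H.comap C.π)) hξ' with
    ⟨γ, b, hγ, -, hb⟩ | ⟨T, δ, h6, h7, h8, h9⟩
  swap
  · refine ih (H.comap C.π) ((A.comap C.π).subgroupOf _) ?_ (isSolvable_quotient_subgroupOf _ _) _ hβH
      (((C.homAbove_factor hβk hβ.one_ne_zero hβe (hhom.mono hAK)).restrict hβ hKβ hs).mono bot_le) T h7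
      ((Subgroup.subgroupOf_mono _ (Subgroup.comap_mono (hAK.trans h4.le))).trans h6) _
      (h8.isCharacter.mul (hψ'.restrict T)) (by rw [indFun_mul_res _ hψ'.isClassFunction, h9, hprod])
    rw [← Subgroup.relIndex, Subgroup.relIndex_comap, Subgroup.map_comap_eq_self_of_surjective C.π_surj,
      ← Subgroup.relIndex_mul_index hAH]
    exact lt_mul_of_one_lt_right (Nat.pos_of_ne_zero Subgroup.index_ne_zero_of_finite)
      (Subgroup.one_lt_index_of_ne_top hH.1)
  let j : (M.comap C.π).subgroupOf (H.comap C.π) →* G :=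
    C.π.comp ((Subgroup.subtype _).comp (Subgroup.subtype _))
  have hcen : ∀ x : (M.comap C.π).subgroupOf (H.comap C.π), x ∈ charCenter γ ↔
      ((x : H.comap C.π) : C.Γ) ∈ charCenter C.ext := fun x => by
    rw [mem_charCenter_of_comp_eq_smul (Subgroup.subtype _) hξ' hγ.isCharacter hb, hξ.mem_charCenter,
      C.ext_irr.isCharacter.mem_charCenter]
    simp
  have h6 : charDegree γ ∣ K.relIndex M := by
    refine (degree_dvd_index_of_le_charCenter hγ hγ.cast_charDegree.symm (Z := K.comap j) fun x hx => ?_).trans ?_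
    · obtain ⟨z, hz⟩ := C.exists_eq_ι_mul (x := ((x : H.comap C.π) : C.Γ)) hx
      rw [hcen, C.ext_irr.isCharacter.mem_charCenter, hz, C.ext_mul_ker, norm_mul, norm_monoidHom_apply,
        one_mul, C.ext_ι, C.ext_one, ← C.base_one]
      exact hζ.isCharacter.mem_charCenter.1 (hAζ (h2.le ⟨hx, (x : H.comap C.π).2⟩))
    · rw [Subgroup.index_comap]
      rw [relIndex_eq_card_map_quot, relIndex_eq_card_map_quot]
      refine Subgroup.card_dvd_of_le (Subgroup.map_mono ?_)
      rintro _ ⟨x, rfl⟩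
      exact x.2
  have h7 : charDegree γ ∣ A.relIndex K := by
    rw [← he]
    refine Dvd.dvd.pow ⟨b, ?_⟩ two_ne_zero
    have h8 := congrFun hb 1
    simp only [OneMemClass.coe_one, C.ext_one, ← C.base_one, ← hζ.cast_charDegree, Complex.conj_natCast,
      Pi.smul_apply, ← hγ.cast_charDegree, smul_eq_mul] at h8
    rw [mul_comm]
    exact_mod_cast h8
  obtain ⟨lam, rfl⟩ := hγ.isCharacter.exists_monoidHom_of_one
    (hγ.isCharacter.charDegree_eq_one_iff.1 (Nat.eq_one_of_dvd_coprimes h5 h6 h7))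
  refine h4.not_ge fun m hm => ?_
  obtain ⟨k, hk, s, hs, rfl⟩ := exists_mul_of_sup_eq_top (Or.inr hK) h1 m
  refine mul_mem hk (hAK (h3 s hs fun k' hk' => ?_))
  obtain ⟨x, rfl⟩ := C.π_surj s
  have h8 := (hcen ⟨⟨x, hs⟩, (M.mul_mem_cancel_left (h4.le hk)).1 hm⟩).1
    (hγ.isCharacter.mem_charCenter.2 (by rw [norm_monoidHom_apply, norm_monoidHom_apply]))
  have h9 := apply_eq_one_of_mem_charKer
    (commutator_mem_charKer_of_mem_charCenter C.ext_irr.isClassFunction h8 (C.ι ⟨k', hk'⟩))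
  rw [commutatorElement_def, C.ι_conj, ← map_inv C.ι, ← map_mul, C.ext_ι, C.ext_one, ← C.base_one] at h9
  by_contra h10
  exact hζ.one_ne_zero (h9.symm.trans (hvan _ h10))

theorem bergerUpTo (n : ℕ) : BergerUpTo.{u} n := by
  induction n with
  | zero => intro _ _ _ _ _ h; exact absurd h (Nat.not_lt_zero _)
  | succ n ih =>
  intro G _ _ L _ hL _ χ hχ hhom H₀ h1 h2 ψ₀ hψ₀ hind₀
  obtain ⟨H, hH, h3⟩ := (eq_top_or_exists_le_coatom H₀).resolve_left h1
  have := Fintype.ofFinite H
  obtain ⟨ψ, hψ, hind⟩ : ∃ ψ : H → ℂ, IsCharacter H ψ ∧ indFun H ψ = χ :=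
    ⟨_, isCharacter_indFun (hψ₀.comp (Subgroup.subgroupOfEquivOfLe h3).toMonoidHom),
      (indFun_trans h3 ψ₀).trans hind₀⟩
  have hLA : L ≤ H.normalCore := Subgroup.normal_le_normalCore.2 (h2.trans h3)
  have := isSolvable_quotient_of_le hLA
  have := Fintype.ofFinite H.normalCore
  obtain ⟨φ, a, hφ, ha⟩ := hhom _ inferInstance hLA
  have ha0 : (a : ℂ) ≠ 0 := left_ne_zero_of_mul ((congrFun ha 1).symm.trans_ne hχ.one_ne_zero)
  obtain ⟨C⟩ := nonempty_charCover _ hφ (invariant_of_res_eq_smul hχ.isClassFunction ha0 ha)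
  obtain ⟨β, hβ, hβk, hβe⟩ := C.exists_irr_factor hχ
    (by rwa [ha, classInner_smul_left, hφ.classInner_self, mul_one])
  obtain ⟨η, hη, h4⟩ := exists_char_eq_add_of_classInner_ne_zero (hχ.isCharacter.restrict H)
    (isIrrCharacter_of_indFun hψ (hind ▸ hχ))
    (by rw [← frobenius_reciprocity' ψ hχ.isClassFunction, hind, hχ.classInner_self]; exact one_ne_zero)
  have h5 := eq_smul_of_add_eq_smul (hψ.comp (Subgroup.inclusion H.normalCore_le))
    (hη.comp (Subgroup.inclusion H.normalCore_le)) hφ (c := a)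
    (by rw [← ha]; ext x; exact (congrFun h4 ⟨x, H.normalCore_le x.2⟩).symm)
  obtain ⟨γ, hγ, hγk, hγe⟩ := C.exists_char_factor_sub H.normalCore_le hψ fun x => congrFun h5 x
  have := isSolvable_quotient_comap C.π H.normalCore
  refine berger_linear (A := H.normalCore.comap C.π) (H := H.comap C.π) ?_
    (Subgroup.isCoatom_comap_of_surjective C.π_surj hH) (Subgroup.comap_mono H.normalCore_le)
    (fun N hN h6 => ?_) hβ (C.homAbove_factor hβk hβ.one_ne_zero hβe (hhom.mono hLA))
    (C.comap_le_charCenter_of_factor hβk hβe) hγ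
    (C.mul_ext_inj (C.range_le_charKer_indFun (C.range_le_comap H.normalCore_le) hγk) hβk
      (by rw [← C.factor_indFun hγe, hind, hβe]))
  · intro G' _ _ L' _ h6
    refine ih G' L' (h6.trans_le ?_)
    rw [C.index_comap]
    exact Nat.le_of_lt_succ ((Subgroup.index_antitone hLA).trans_lt hL)
  · have := hN.map _ C.π_surj
    exact Subgroup.map_le_iff_le_comap.1 (Subgroup.normal_le_normalCore.2 (Subgroup.map_le_iff_le_comap.2 h6))

/-- Berger's theorem relative to a normal subgroup with solvable quotient. -/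
theorem berger {G : Type*} [Group G] [Fintype G] (L : Subgroup G) [L.Normal] [hs : Group.IsSolvable (G ⧸ L)]
    {χ : G → ℂ} (hχ : IsIrrCharacter G χ) (h : HomAbove L χ) {H : Subgroup G} (h1 : H ≠ ⊤) (h2 : L ≤ H)
    {ψ : H → ℂ} (hψ : IsCharacter H ψ) : indFun H ψ ≠ χ :=
  bergerUpTo _ G L (Nat.lt_succ_self _) hs χ hχ h H h1 h2 ψ hψ

end CL.Char
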