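/-
Blichfeldt's theorem on elements whose eigenvalues lie within sixty degrees of one of them, and
Brauer's refinement of Burnside's `p^a q^b` theorem.
-/
import Cfsg.Agent.Char.Jordan
import Cfsg.Agent.Char.Linear
import Cfsg.Agent.Char.Burnside
import Cfsg.Agent.Blk.DefectNum

set_option autoImplicit false
set_option linter.style.haveILetI false

open Module Cfsg
open scoped ComplexConjugate InnerProductSpace

namespace CL.Char

variable {G : Type*} [Group G]

section

variable {E : Type*} [NormedAddCommGroup E] [InnerProductSpace ℂ E] {ρ : Representation ℂ G E}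
  [FiniteDimensional ℂ E] [Finite G]

/-- If all eigenvalues of `u` are at distance less than one from `c`, all conjugates of `u`
stabilize the `c`-eigenspace of `u`. -/
theorem conj_mem_eigenspace (hU : IsUnitaryRep ρ) {c : ℂ} (hc : ‖c‖ = 1) {u : G}
    (h : ∀ y, y ≠ 0 → ‖ρ u y - c • y‖ < ‖y‖) (g : G) {w : E}
    (hw : w ∈ Module.End.eigenspace (ρ u) c) :
    ρ (g⁻¹ * u * g) w ∈ Module.End.eigenspace (ρ u) c := by
  classical
  set W := Module.End.eigenspace (ρ u) c with hW
  have hmem : ∀ y, y ∈ W ↔ ρ u y = c • y := fun y => Module.End.mem_eigenspace_iff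
  haveI : ProperSpace E := FiniteDimensional.proper ℂ E
  have hcl : IsClosed (W : Set E) := W.closed_of_finiteDimensional
  have hne : (W : Set E).Nonempty := ⟨0, W.zero_mem⟩
  let b := Module.finBasis ℂ W
  let f : G → ℝ := fun x => ∑ j, Metric.infDist (ρ x (b j)) W
  have hf : ∀ x, (∀ j, ρ x (b j) ∈ W) → ∀ y ∈ W, ρ x y ∈ W := by
    intro x hx y hy
    have h1 : y = ∑ j, b.repr ⟨y, hy⟩ j • (b j : E) := by
      have := congrArg W.subtype (b.sum_repr ⟨y, hy⟩)
      rw [map_sum] at this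
      exact this.symm
    rw [h1, map_sum]
    exact W.sum_mem fun j _ => by rw [map_smul]; exact W.smul_mem _ (hx j)
  have hle : ∀ x j, ρ x (b j) ∉ W →
      Metric.infDist (ρ (x⁻¹ * u * x) (b j)) W < Metric.infDist (ρ x (b j)) W := by
    intro x j hj
    obtain ⟨w, hw, e⟩ := hcl.exists_infDist_eq_dist hne (ρ x (b j))
    refine (Metric.infDist_le_dist_of_mem (W.smul_mem c (b j).2)).trans_lt ?_
    rw [e, dist_eq_norm, dist_eq_norm, ← hU.norm_apply x, map_sub, rep_mul_apply, rep_mul_apply,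
      rep_apply_inv_apply, map_smul]
    have h1 := h (ρ x (b j) - w) (fun e => hj (by rw [sub_eq_zero.mp e]; exact hw))
    rwa [map_sub, (hmem w).mp hw, smul_sub, sub_sub_sub_cancel_right] at h1
  have hle' : ∀ x j, ρ x (b j) ∈ W → ρ (x⁻¹ * u * x) (b j) ∈ W := by
    intro x j hj
    rw [rep_mul_apply, rep_mul_apply, (hmem _).mp hj, map_smul, rep_inv_apply_apply]
    exact W.smul_mem c (b j).2
  by_contra hne'
  obtain ⟨x, ⟨⟨a, rfl⟩, hx⟩, hmin⟩ := Set.exists_min_image
    {x : G | (∃ a, x = a⁻¹ * u * a) ∧ ∃ j, ρ x (b j) ∉ W} f (Set.toFinite _)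
    ⟨g⁻¹ * u * g, ⟨g, rfl⟩, by
      by_contra h1
      push Not at h1
      exact hne' (hf _ h1 w hw)⟩
  set x := a⁻¹ * u * a with hxdef
  obtain ⟨j, hj⟩ := hx
  have h1 : f (x⁻¹ * u * x) < f x := by
    refine Finset.sum_lt_sum (fun i _ => ?_) ⟨j, Finset.mem_univ _, hle x j hj⟩
    by_cases hi : ρ x (b i) ∈ W
    · rw [Metric.infDist_zero_of_mem (hle' x i hi)]
      exact Metric.infDist_nonneg
    · exact (hle x i hi).le
  have h2 : ρ (x⁻¹ * u * x) (b j) ∈ W := by
    by_contra h2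
    exact absurd (hmin _ ⟨⟨x, rfl⟩, j, h2⟩) (not_le.mpr h1)
  have hno : NoOrth ρ x := by
    refine noOrth_of_norm_sub_lt hU hc fun y hy => ?_
    have h3 := h (ρ a y) (fun e => hy (by rw [← rep_inv_apply_apply ρ a y, e, map_zero]))
    rw [← hU.norm_apply a, map_sub, hxdef, rep_mul_apply, rep_mul_apply, rep_apply_inv_apply,
      map_smul]
    rw [hU.norm_apply a y] at h3
    linarith [norm_nonneg y]
  have h3 : ρ (x⁻¹ * u * x) (b j) - c • (b j : E) ∈ W := W.sub_mem h2 (W.smul_mem c (b j).2)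
  have h4 : ρ x (ρ (x⁻¹ * u * x) (b j) - c • (b j : E)) = ρ u (ρ x (b j)) - c • ρ x (b j) := by
    rw [map_sub, rep_mul_apply ρ (x⁻¹ * u), rep_mul_apply ρ x⁻¹, rep_apply_inv_apply, map_smul]
  have h5 := hno (ρ (x⁻¹ * u * x) (b j) - c • (b j : E)) (by
    rw [h4]
    generalize ρ (x⁻¹ * u * x) (b j) - c • (b j : E) = z at h3
    have h6 := hU u z (ρ x (b j))
    have h7 : c * conj c = 1 := by
      rw [Complex.mul_conj, Complex.normSq_eq_norm_sq, hc]
      simp
    rw [(hmem z).mp h3, inner_smul_left] at h6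
    rw [inner_sub_right, inner_smul_right, ← h6, ← mul_assoc, h7, one_mul, sub_self])
  rw [h5, map_zero, eq_comm, sub_eq_zero] at h4
  exact hj ((hmem _).mpr h4)

/-- **Blichfeldt**: an element whose conjugates generate an irreducible group and whose
eigenvalues are at distance less than one from one of them is a scalar. -/
theorem eq_smul_of_eigenvalues_near (hU : IsUnitaryRep ρ) [hirr : ρ.IsIrreducible] {ι : Type*}
    [Fintype ι] (b : OrthonormalBasis ι ℂ E) {u : G} (μ : ι → ℂ)
    (hb : ∀ i, ρ u (b i) = μ i • b i) (j : ι) (hμ : ∀ i, ‖μ i - μ j‖ < 1)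
    (hu : Subgroup.normalClosure ({u} : Set G) = ⊤) :
    ρ u = μ j • (LinearMap.id : E →ₗ[ℂ] E) := by
  have hj := b.orthonormal.ne_zero j
  have hc := hU.norm_eigenvalue hj (hb j)
  have h : ∀ y, y ≠ 0 → ‖ρ u y - μ j • y‖ < ‖y‖ := fun y hy => by
    simpa using norm_sub_smul_lt_of_eigen b _ μ hb (μ j) hμ hy
  set W := Module.End.eigenspace (ρ u) (μ j) with hW
  have hinv : ∀ g : G, ∀ w ∈ W, ρ g w ∈ W := by
    intro g
    have hg : g ∈ (Subgroup.normalClosure ({u} : Set G)).toSubmonoid := hu ▸ Subgroup.mem_top g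
    rw [Subgroup.normalClosure, Subgroup.closure_toSubmonoid_of_finite] at hg
    induction hg using Submonoid.closure_induction with
    | mem x hx =>
      intro w hw
      obtain ⟨a, ha, hx'⟩ := Group.mem_conjugatesOfSet_iff.mp hx
      obtain rfl : a = u := ha
      obtain ⟨k, rfl⟩ := isConj_iff.mp hx'
      have := conj_mem_eigenspace hU hc h k⁻¹ hw
      rwa [inv_inv] at this
    | one => intro w hw; simpa using hw
    | mul x y _ _ hx hy => intro w hw; rw [rep_mul_apply]; exact hx _ (hy w hw)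
  let U : Subrepresentation ρ := ⟨W, fun g w hw => hinv g w hw⟩
  rcases hirr.eq_bot_or_eq_top U with e | e
  · exfalso
    have : b j ∈ U := Module.End.mem_eigenspace_iff.mpr (hb j)
    rw [e] at this
    exact hj this
  · ext y
    have : y ∈ U := e ▸ trivial
    exact Module.End.mem_eigenspace_iff.mp this

end

/-- The box of length `π / 3` containing the argument of a complex number. -/
noncomputable def argBox6 (z : ℂ) : Fin 6 :=
  ⟨⌊(Real.pi - z.arg) / (Real.pi / 3)⌋₊, by
    have h := Complex.neg_pi_lt_arg z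
    have hpi := Real.pi_pos
    rw [Nat.floor_lt' (by norm_num), div_lt_iff₀ (by positivity)]
    push_cast
    linarith⟩

theorem norm_sub_lt_one_of_argBox6_eq {z w : ℂ} (hz : ‖z‖ = 1) (hw : ‖w‖ = 1)
    (h : argBox6 z = argBox6 w) : ‖z - w‖ < 1 := by
  have hpi := Real.pi_pos
  have h0 : ⌊(Real.pi - z.arg) / (Real.pi / 3)⌋₊ = ⌊(Real.pi - w.arg) / (Real.pi / 3)⌋₊ :=
    congrArg Fin.val h
  have hz0 : 0 ≤ (Real.pi - z.arg) / (Real.pi / 3) :=
    div_nonneg (sub_nonneg.mpr (Complex.arg_le_pi z)) (by positivity)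
  have hw0 : 0 ≤ (Real.pi - w.arg) / (Real.pi / 3) :=
    div_nonneg (sub_nonneg.mpr (Complex.arg_le_pi w)) (by positivity)
  have h1 := Nat.floor_le hz0
  have h2 := Nat.lt_floor_add_one ((Real.pi - z.arg) / (Real.pi / 3))
  have h3 := Nat.floor_le hw0
  have h4 := Nat.lt_floor_add_one ((Real.pi - w.arg) / (Real.pi / 3))
  rw [h0] at h1 h2
  rw [le_div_iff₀ (by positivity)] at h1 h3
  rw [div_lt_iff₀ (by positivity)] at h2 h4
  have h5 : |z.arg - w.arg| < Real.pi / 3 := by
    rw [abs_lt]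
    constructor <;> linarith
  have h6 : (z * conj w).re = Real.cos (z.arg - w.arg) := by
    have hz' : z ≠ 0 := by rintro rfl; simp at hz
    have hw' : w ≠ 0 := by rintro rfl; simp at hw
    rw [Real.cos_sub, Complex.cos_arg hz', Complex.cos_arg hw', Complex.sin_arg, Complex.sin_arg,
      hz, hw]
    simp
  have h7 : 1 / 2 < (z * conj w).re := by
    rw [h6, ← Real.cos_abs, ← Real.cos_pi_div_three]
    exact Real.cos_lt_cos_of_nonneg_of_le_pi (abs_nonneg _) (by linarith) h5
  refine lt_of_pow_lt_pow_left₀ 2 (by norm_num) ?_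
  rw [Complex.sq_norm, Complex.normSq_sub, Complex.normSq_eq_norm_sq, Complex.normSq_eq_norm_sq,
    hz, hw]
  linarith

/-- Dirichlet's pigeonhole argument for few roots of unity. -/
theorem exists_pow_near {S : Finset ℂ} (hS : ∀ z ∈ S, ‖z‖ = 1) {c : ℂ} (hc : c ∈ S) {p : ℕ}
    (hp : 6 ^ (S.card - 1) < p) : ∃ k, 0 < k ∧ k < p ∧ ∀ z ∈ S, ‖z ^ k - c ^ k‖ < 1 := by
  classical
  have hc0 : c ≠ 0 := fun e => by simpa [e] using hS c hc
  obtain ⟨m, m', hne, e⟩ := Fintype.exists_ne_map_eq_of_card_lt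
    (fun (m : Fin p) (z : S.erase c) => argBox6 ((z / c) ^ (m : ℕ))) (by
      simpa [Finset.card_erase_of_mem hc] using hp)
  wlog hlt : m < m' generalizing m m'
  · exact this m' m hne.symm e.symm (lt_of_le_of_ne (not_lt.mp hlt) hne.symm)
  refine ⟨m' - m, Nat.sub_pos_of_lt hlt, lt_of_le_of_lt (Nat.sub_le _ _) m'.2, fun z hz => ?_⟩
  by_cases hzc : z = c
  · simp [hzc]
  have h1 : ‖z / c‖ = 1 := by rw [norm_div, hS z hz, hS c hc, div_one]
  have h2 := norm_sub_lt_one_of_argBox6_eq (by rw [norm_pow, h1, one_pow])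
    (by rw [norm_pow, h1, one_pow]) (congrFun e ⟨z, Finset.mem_erase.mpr ⟨hzc, hz⟩⟩).symm
  have h3 : (z / c) ^ (m' : ℕ) - (z / c) ^ (m : ℕ) =
      (z / c) ^ (m : ℕ) * (c ^ ((m' : ℕ) - m))⁻¹ * (z ^ ((m' : ℕ) - m) - c ^ ((m' : ℕ) - m)) := by
    obtain ⟨k, hk⟩ := Nat.exists_eq_add_of_le (le_of_lt (show (m : ℕ) < m' from hlt))
    rw [hk, Nat.add_sub_cancel_left, pow_add, div_pow z c k]
    field_simp
  change ‖(z / c) ^ (m' : ℕ) - (z / c) ^ (m : ℕ)‖ < 1 at h2
  rwa [h3, norm_mul, norm_mul, norm_inv, norm_pow, norm_pow, h1, hS c hc, one_pow, one_pow,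
    inv_one, one_mul, one_mul] at h2

open CL.Blk in
/-- Counting the distinct eigenvalues of an element of order `p`. -/
theorem card_image_le_of_red {M : Ideal AlgInt} {p : ℕ} (hM : IsPModular p M) {n : ℕ}
    (hn : 0 < n) (μ : Fin n → ℂ) (hμ : ∀ i, μ i ^ p = 1) (g : ℕ)
    (hint : ∀ k, k < p → IsIntegral ℤ (g * (∑ i, μ i ^ k) / n))
    (hred : ∀ k, k < p → red M (g * (∑ i, μ i ^ k) / n) = g) (hg : 0 < g) :
    (Finset.univ.image μ).card ≤ g := by
  classical
  have hp := hM.1
  haveI := charP_resField hM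
  have key : ∀ ν ∈ Finset.univ.image μ, n ≤ (Finset.univ.filter (μ · = ν)).card * g := by
    intro ν hν
    obtain ⟨j, -, rfl⟩ := Finset.mem_image.mp hν
    set m := (Finset.univ.filter (μ · = μ j)).card with hm
    have hj0 : μ j ≠ 0 := fun e => by simpa [e, hp.ne_zero] using hμ j
    have hinv : (μ j)⁻¹ ^ p = 1 := by rw [inv_pow, hμ, inv_one]
    have h1 : ((p * m * g : ℕ) : ℂ) / n =
        ∑ k ∈ Finset.range p, g * (∑ i, μ i ^ k) / n * (μ j)⁻¹ ^ k := by
      have h2 : ∀ i, ∑ k ∈ Finset.range p, (μ i * (μ j)⁻¹) ^ k = if μ i = μ j then (p : ℂ) else 0 := by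
        intro i
        split_ifs with h
        · simp [h, hj0]
        · have h3 : μ i * (μ j)⁻¹ ≠ 1 := fun e => h (by rwa [mul_inv_eq_one₀ hj0] at e)
          rw [geom_sum_eq h3, mul_pow, hμ, hinv]
          simp
      have h3 : ∑ i, ∑ k ∈ Finset.range p, (μ i * (μ j)⁻¹) ^ k = p * m := by
        simp only [h2]
        rw [← Finset.sum_filter, Finset.sum_const, nsmul_eq_mul, mul_comm]
      push_cast
      rw [← h3, Finset.sum_comm, Finset.sum_mul, Finset.sum_div]
      refine Finset.sum_congr rfl fun k _ => ?_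
      simp only [mul_pow]
      rw [← Finset.sum_mul]
      ring
    have hroot : ∀ k, IsIntegral ℤ ((μ j)⁻¹ ^ k) := fun k =>
      (isIntegral_of_pow_eq_one hp.ne_zero hinv).pow k
    obtain ⟨d, hd⟩ : n ∣ p * m * g := dvd_of_isIntegral_div hn.ne' (by
      rw [h1]
      exact IsIntegral.sum _ fun k hk => (hint k (Finset.mem_range.mp hk)).mul (hroot k))
    have hn0 : (n : ℂ) ≠ 0 := by exact_mod_cast hn.ne'
    have h2 : red M (d : ℂ) = 0 := by
      have h3 : (d : ℂ) = ((p * m * g : ℕ) : ℂ) / n := by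
        rw [hd]
        push_cast
        field_simp
      rw [h3, h1, red_sum _ _ fun k hk =>
        mem_valRing_of_isIntegral M ((hint k (Finset.mem_range.mp hk)).mul (hroot k))]
      rw [Finset.sum_congr rfl (g := fun _ => (g : resField M)) fun k hk => by
        rw [red_mul (mem_valRing_of_isIntegral M (hint k (Finset.mem_range.mp hk)))
          (mem_valRing_of_isIntegral M (hroot k)), hred k (Finset.mem_range.mp hk),
          red_eq_one_of_pow_prime_pow_eq_one hM (k := 1)
            (by rw [pow_one, ← pow_mul, mul_comm, pow_mul, hinv, one_pow]), mul_one]]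
      simp
    rw [red_natCast, natCast_resField_eq_zero_iff hM] at h2
    obtain ⟨e, rfl⟩ := h2
    have h3 : m * g = n * e := Nat.eq_of_mul_eq_mul_left hp.pos (by rw [← mul_assoc, hd]; ring)
    have hm0 : 0 < m := Finset.card_pos.mpr ⟨j, by simp⟩
    exact Nat.le_of_dvd (Nat.mul_pos hm0 hg) ⟨e, h3⟩
  have h1 := Finset.card_eq_sum_card_image μ Finset.univ
  have h2 : (Finset.univ.image μ).card * n ≤ g * n := by
    rw [← smul_eq_mul]
    refine (Finset.card_nsmul_le_sum _ _ _ key).trans ?_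
    rw [← Finset.sum_mul, ← h1, mul_comm]
    simp
  exact Nat.le_of_mul_le_mul_right h2 hn

open CL.Blk in
/-- **Brauer's** refinement of Burnside's theorem. -/
theorem brauer_burnside [Finite G] [IsSimpleGroup G] {p q a b g₀ : ℕ} (hp : p.Prime)
    (hq : q.Prime) (ha : 0 < a) (hg : Nat.card G = p ^ a * q ^ b * g₀)
    (hne : Nat.card G ≠ p) : p < 6 ^ (g₀ - 1) := by
  classical
  haveI := Fact.mk hp
  haveI := Fintype.ofFinite G
  have hg0 : 0 < g₀ := Nat.pos_of_ne_zero fun e => by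
    rw [e, mul_zero] at hg
    exact Nat.card_pos.ne' hg
  have hpG : p ∣ Nat.card G := by
    rw [hg, mul_assoc]
    exact (dvd_pow_self p ha.ne').mul_right _
  obtain ⟨P⟩ : Nonempty (Sylow p G) := inferInstance
  -- a central element of order `p` of a Sylow subgroup
  obtain ⟨x, hx, hxC⟩ : ∃ x : G, orderOf x = p ∧ ∀ y ∈ (P : Subgroup G), y * x = x * y := by
    haveI : Nontrivial (P : Subgroup G) :=
      (Subgroup.nontrivial_iff_ne_bot _).mpr (P.ne_bot_of_dvd_card hpG)
    haveI := P.2.center_nontrivial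
    obtain ⟨z, hz⟩ := exists_prime_orderOf_dvd_card' p
      ((P.2.to_subgroup (Subgroup.center P)).card_eq_or_dvd.resolve_left Finite.one_lt_card.ne')
    refine ⟨z, by rw [Subgroup.orderOf_coe, Subgroup.orderOf_coe, hz], fun y hy => ?_⟩
    exact congrArg Subtype.val (Subgroup.mem_center_iff.mp z.2 ⟨y, hy⟩)
  have hidx : ∀ k : ℕ, (Subgroup.centralizer ({x ^ k} : Set G)).index ∣ (P : Subgroup G).index := by
    intro k
    refine Subgroup.index_dvd_of_le fun y hy => ?_
    rw [Subgroup.mem_centralizer_singleton_iff]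
    exact (Commute.pow_right (hxC y hy) k).eq
  have hPidx : (P : Subgroup G).index ∣ q ^ b * g₀ := by
    refine Nat.Coprime.dvd_of_dvd_mul_left (m := p ^ a) ?_ ?_
    · exact ((hp.coprime_iff_not_dvd.mpr P.not_dvd_index).pow_left a).symm
    · rw [← mul_assoc, ← hg]
      exact Subgroup.index_dvd_card _
  obtain ⟨M, hM⟩ := exists_isPModular' hp
  -- a non-principal character of the principal block of degree prime to `q`
  obtain ⟨χ, hχB, hχ1, hχq⟩ : ∃ χ : IrrCharacter G, χ ∈ principalBlock M G ∧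
      (χ : G → ℂ) ≠ (fun _ => 1) ∧ ¬ q ∣ charDegree (χ : G → ℂ) := by
    by_contra hcon
    push Not at hcon
    have h1 := block_orth hM (isPBlock_principal M) (g := x) (h := 1) (x := x) (y := 1)
      (isPPart_self hp ⟨1, by rw [hx, pow_one]⟩) (isPPart_one (by simpa using hp.ne_one))
      (fun h => hp.ne_one (by rw [← hx, isConj_one_left.mp h, orderOf_one]))
    let one : IrrCharacter G := ⟨fun _ => 1, isIrrCharacter_one⟩
    have h2 : one ∈ Finset.univ.filter (· ∈ principalBlock M G) := by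
      simp only [Finset.mem_filter, Finset.mem_univ, true_and]
      exact sameBlock_refl hM _
    rw [← Finset.add_sum_erase _ _ h2, inv_one] at h1
    have hq0 : (q : ℂ) ≠ 0 := by exact_mod_cast hq.ne_zero
    have h3 : ((1 : ℕ) : ℂ) / q = -∑ χ ∈ (Finset.univ.filter (· ∈ principalBlock M G)).erase one,
        (χ : G → ℂ) x * (χ : G → ℂ) 1 / q := by
      rw [← Finset.sum_div, ← neg_div, ← eq_neg_of_add_eq_zero_left h1]
      simp [one]
    refine hq.not_dvd_one (dvd_of_isIntegral_div hq.ne_zero ?_)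
    rw [h3]
    refine (IsIntegral.sum _ fun χ hχ => ?_).neg
    obtain ⟨h4, h5⟩ := Finset.mem_erase.mp hχ
    obtain ⟨d, hd⟩ := hcon χ (Finset.mem_filter.mp h5).2 (fun e => h4 (Subtype.ext e))
    rw [← χ.2.cast_charDegree, hd, Nat.cast_mul, mul_div_assoc, mul_div_cancel_left₀ _ hq0]
    exact (isChar_isIntegral χ.2.isCharacter x).mul (isIntegral_natCast d)
  obtain ⟨ρ, hU, hirr, hρ⟩ := exists_unitary_irr_rep χ.2
  obtain ⟨n, hn⟩ : ∃ n, charDegree (χ : G → ℂ) = n := ⟨_, rfl⟩
  have hn0 : 0 < n := hn ▸ χ.2.charDegree_pos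
  have hn0' : (n : ℂ) ≠ 0 := by exact_mod_cast hn0.ne'
  have hχn : (χ : G → ℂ) 1 = n := hn ▸ χ.2.cast_charDegree.symm
  rw [hn] at hχq
  obtain ⟨bs, μ, hb⟩ := hU.exists_orthonormal_eigenbasis_single (n := n) (by simp [hn]) x
  have hbk : ∀ (k : ℕ) i, ρ (x ^ k) (bs i) = μ i ^ k • bs i := by
    intro k i
    induction k with
    | zero => simp
    | succ k ih => rw [pow_succ, rep_mul_apply, hb, map_smul, ih, smul_smul, pow_succ']
  have hμ : ∀ i, μ i ^ p = 1 := by
    intro i
    have h1 := hbk p i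
    rw [← hx, pow_orderOf_eq_one, map_one, Module.End.one_apply, hx] at h1
    have h2 : (μ i ^ p - 1) • bs i = 0 := by rw [sub_smul, ← h1, one_smul, sub_self]
    exact sub_eq_zero.mp ((smul_eq_zero.mp h2).resolve_right (bs.orthonormal.ne_zero i))
  have htr : ∀ k : ℕ, ∑ i, μ i ^ k = (χ : G → ℂ) (x ^ k) := by
    intro k
    rw [← hρ, Representation.character, LinearMap.trace_eq_sum_inner _ bs]
    refine Finset.sum_congr rfl fun i _ => ?_
    rw [hbk, inner_smul_right, inner_self_eq_norm_sq_to_K, bs.orthonormal.1 i]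
    simp
  have hint : ∀ k : ℕ, IsIntegral ℤ (g₀ * (χ : G → ℂ) (x ^ k) / n) := by
    intro k
    obtain ⟨d, hd⟩ := (hidx k).trans hPidx
    have h1 : IsIntegral ℤ ((q ^ b : ℕ) * (g₀ * (χ : G → ℂ) (x ^ k) / n)) := by
      have h2 := (isIntegral_natCast (R := ℤ) (B := ℂ) d).mul (isIrr_isIntegral_central χ.2 (x ^ k))
      have h3 : ((q ^ b : ℕ) : ℂ) * (g₀ * (χ : G → ℂ) (x ^ k) / n) =
          d * ((Subgroup.centralizer ({x ^ k} : Set G)).index * (χ : G → ℂ) (x ^ k) /
            (χ : G → ℂ) 1) := by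
        rw [hχn, ← mul_div_assoc, ← mul_assoc, ← Nat.cast_mul, hd]
        push_cast
        ring
      rwa [h3]
    have h2 : IsIntegral ℤ ((n : ℂ) * (g₀ * (χ : G → ℂ) (x ^ k) / n)) := by
      rw [mul_div_cancel₀ _ hn0']
      exact (isIntegral_natCast g₀).mul (isChar_isIntegral χ.2.isCharacter _)
    have hcop : IsCoprime ((q ^ b : ℕ) : ℤ) (n : ℤ) :=
      Nat.isCoprime_iff_coprime.mpr ((hq.coprime_iff_not_dvd.mpr hχq).pow_left b)
    obtain ⟨s, t, hst⟩ := hcop
    have h3 := ((isIntegral_intCast (R := ℤ) (B := ℂ) s).mul h1).add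
      ((isIntegral_intCast (R := ℤ) (B := ℂ) t).mul h2)
    have h4 : (s : ℂ) * ((q ^ b : ℕ) : ℂ) + t * n = 1 := by exact_mod_cast hst
    rwa [← mul_assoc, ← mul_assoc, ← add_mul, h4, one_mul] at h3
  have hcard : (Finset.univ.image μ).card ≤ g₀ := by
    refine card_image_le_of_red hM hn0 μ hμ g₀ (fun k _ => by rw [htr]; exact hint k)
      (fun k _ => ?_) hg0
    rw [htr]
    have h1 := (sameBlock_iff_red hM (χ := ⟨fun _ => 1, isIrrCharacter_one⟩) (ψ := χ)).mp hχB
      (x ^ k)
    set I := (Subgroup.centralizer ({x ^ k} : Set G)).index with hI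
    have hI0 : (I : resField M) ≠ 0 := by
      rw [Ne, natCast_resField_eq_zero_iff hM]
      exact fun h => P.not_dvd_index (h.trans (hidx k))
    have h2 : (I : ℂ) * (g₀ * (χ : G → ℂ) (x ^ k) / n) = g₀ * centralChar (χ : G → ℂ) (x ^ k) := by
      rw [centralChar, hχn]
      ring
    have h3 := congrArg (red M) h2
    rw [red_mul (natCast_mem (valRing M) _) (mem_valRing_of_isIntegral M (hint k)),
      red_mul (natCast_mem (valRing M) _) (irr_centralChar_mem_valRing χ _), ← h1, red_natCast,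
      red_natCast] at h3
    apply mul_left_cancel₀ hI0
    rw [h3, mul_comm]
    simp only [centralChar, mul_one, div_one, red_natCast]
    rfl
  by_contra hlt
  have hlt' : 6 ^ ((Finset.univ.image μ).card - 1) < p := by
    refine lt_of_le_of_ne ((Nat.pow_le_pow_right (by norm_num) (by omega)).trans
      (not_lt.mp hlt)) fun e => ?_
    have h1 := e ▸ hp
    have h2 := h1.eq_one_of_pow
    rw [h2] at h1
    norm_num at h1
  let j : Fin n := ⟨0, hn0⟩
  obtain ⟨k, hk0, hkp, hk⟩ := exists_pow_near (S := Finset.univ.image μ) (c := μ j)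
    (fun z hz => by
      obtain ⟨i, -, rfl⟩ := Finset.mem_image.mp hz
      exact hU.norm_eigenvalue (bs.orthonormal.ne_zero i) (hb i))
    (Finset.mem_image_of_mem _ (Finset.mem_univ j)) hlt'
  have hxk : x ^ k ≠ 1 := pow_ne_one_of_lt_orderOf hk0.ne' (hx ▸ hkp)
  have hncl : Subgroup.normalClosure ({x ^ k} : Set G) = ⊤ :=
    (Subgroup.normalClosure_normal.eq_bot_or_eq_top).resolve_left fun e =>
      hxk (Subgroup.mem_bot.mp (e ▸ Subgroup.subset_normalClosure (Set.mem_singleton _)))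
  have hsc := eq_smul_of_eigenvalues_near hU bs (fun i => μ i ^ k) (hbk k) j
    (fun i => hk _ (Finset.mem_image_of_mem _ (Finset.mem_univ i))) hncl
  have hcen : x ^ k ∈ Subgroup.center G := by
    rw [← χ.2.charCenter_eq_center (χ.2.charKer_eq_bot_of_simple hχ1), ← hρ,
      mem_charCenter_character]
    exact ⟨_, hsc⟩
  exact hne ((Nat.prime_dvd_prime_iff_eq hp (prime_card_of_mem_center hxk hcen)).mp hpG).symm

end CL.Char
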