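import Cfsg.Agent.Char.CN2
import Cfsg.Agent.Loc.Thompson1
import Cfsg.Agent.Transfer.Control

/-!
CN-groups III: in a minimal simple CN-group of odd order the Sylow subgroups are TI-sets and no subgroup is a
three-step group.  (The Thompson subgroup of a Sylow subgroup of a three-step group of odd order is normal.)
-/

set_option autoImplicit false

open Cfsg CL.Grp
open scoped Pointwise commutatorElement

namespace CL.CN

variable {G : Type*} [Group G]

theorem arith_three_step {p n : ℕ} (hp : 1 < p) (hpo : Odd p) (hn : 1 < n) (hno : Odd n) (h1 : p ∣ n - 1)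
    (h2 : n ∣ p ^ 2 - 1) : False := by
  obtain ⟨k, hk⟩ := h1
  obtain ⟨m, hm⟩ := h2
  have hn' : n = 1 + p * k := by omega
  have hp2 : 1 ≤ p ^ 2 := Nat.one_le_pow _ _ (by omega)
  have hm' : p ^ 2 = (1 + p * k) * m + 1 := by rw [← hn']; omega
  have hk1 : 1 ≤ k := by
    rcases k with _ | k
    · omega
    · omega
  have h3 : p ∣ m + 1 := by
    have : p ∣ (m + 1) + p * (k * m) := ⟨p, by rw [← sq, hm']; ring⟩
    exact (Nat.dvd_add_left (dvd_mul_right p _)).mp this
  obtain ⟨l, hl⟩ := h3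
  have hl1 : 1 ≤ l := by
    rcases l with _ | l
    · omega
    · omega
  have h4 : p = l + k * m := by
    have : p * p = p * (l + k * m) := by rw [mul_add, ← hl, ← sq, hm']; ring
    exact Nat.eq_of_mul_eq_mul_left (by omega) this
  have hkl : k = 1 := by
    by_contra hne
    have hk2 : 2 ≤ k := by omega
    have : p ≤ m + 1 := by rw [hl]; exact Nat.le_mul_of_pos_right _ hl1
    nlinarith
  rw [hkl, mul_one] at hn'
  obtain ⟨a, ha⟩ := hpo
  obtain ⟨b, hb⟩ := hno
  omega

section ThreeStep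

variable [Finite G] {p : ℕ} [hp : Fact p.Prime]

theorem isThreeStepGroup_of_dvd_index [Group.IsSolvable G] (hCN : IsCNGroup G) (h1 : pCore p G ≠ ⊥)
    (h2 : p ∣ (pCore p G).index) : IsThreeStepGroup p G := by
  have hd : p ∣ Nat.card (pCore p G) :=
    (pCore_isPGroup p G).card_eq_or_dvd.resolve_left fun h => h1 (Subgroup.card_eq_one.mp h)
  have hnh : ¬ (Nat.card (fittingSubgroup G)).Coprime (fittingSubgroup G).index := by
    intro h
    obtain ⟨P⟩ : Nonempty (Sylow p G) := inferInstance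
    have h3 : ¬ p ∣ (fittingSubgroup G).index := fun h4 =>
      hp.out.ne_one (Nat.eq_one_of_dvd_coprimes h (hd.trans (Subgroup.card_dvd_of_le (pCore_le_fittingSubgroup p))) h4)
    have h4 : (P : Subgroup G) ≤ fittingSubgroup G :=
      le_of_coprime_index (coprime_card_of_isPGroup P.isPGroup' ((Nat.Prime.coprime_iff_not_dvd hp.out).mpr h3).symm)
    exact P.not_dvd_index (h2.trans (Subgroup.index_dvd_of_le (le_pCore_of_le_fittingSubgroup P.isPGroup' h4)))
  obtain ⟨q, hq, h3, h4⟩ := (fitting_hall_or_isPGroup hCN).resolve_left hnh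
  have hpq : q = p := by
    by_contra hne
    haveI := Fact.mk hq
    have h5 : pCore p G ≤ pCore q G := h3 ▸ pCore_le_fittingSubgroup p
    have h6 := IsPGroup.disjoint_of_ne p q (Ne.symm hne) _ _ (pCore_isPGroup p G) (pCore_isPGroup q G)
    exact h1 (h6.eq_bot_of_le h5)
  subst hpq
  exact isThreeStepGroup_of_not_hall hCN hq h3 h1 hnh

omit [Finite G] hp in
/-- a `p`-element of `O A` lies in `O`. -/
theorem mem_of_mem_sup_of_coprime {O A : Subgroup G} [O.Normal] (hA : (Nat.card A).Coprime p) {x : G}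
    (hx : x ∈ O ⊔ A) (hxp : ∃ k, x ^ p ^ k ∈ O) : x ∈ O := by
  obtain ⟨k, hk⟩ := hxp
  obtain ⟨o, ho, a, ha, rfl⟩ := (mem_sup_iff_of_le_normalizer (Subgroup.le_normalizer_of_normal (K := A))).mp hx
  have h1 : ((o * a : G) : G ⧸ O) = (a : G ⧸ O) := by
    rw [QuotientGroup.mk_mul, (QuotientGroup.eq_one_iff o).mpr ho, one_mul]
  rw [← QuotientGroup.eq_one_iff] at hk ⊢
  rw [QuotientGroup.mk_pow, h1] at hk
  rw [h1]
  have h2 : orderOf (a : G ⧸ O) ∣ Nat.card A :=
    (orderOf_map_dvd (QuotientGroup.mk' O) a).trans (Subgroup.orderOf_dvd_natCard A ha)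
  exact orderOf_eq_one_iff.mp (Nat.eq_one_of_dvd_coprimes (Nat.Coprime.pow_right k hA) h2 (orderOf_dvd_of_pow_eq_one hk))

/-- In a three-step group of odd order, `J(S) ≤ O_p(G)` for every `p`-subgroup `S ≥ O_p(G)`. -/
theorem thompson_le_pCore_of_threeStep (hp2 : p ≠ 2) (h : IsThreeStepGroup p G) {S : Subgroup G}
    (hS : pCore p G ≤ S) : thompsonSubgroupOf p S ≤ pCore p G := by
  obtain ⟨hO1, A, hA1, hAc, hAodd, hAcop, hN, -, -, hfpf, hout⟩ := h
  set O := pCore p G with hO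
  have hOp : IsPGroup p O := pCore_isPGroup p G
  rw [CL.Loc.thompsonSubgroupOf_le_iff]
  intro B hB
  have hBea := CL.Loc.meaIn_ea hB
  by_contra hBO
  obtain ⟨y, hyB, hyO⟩ := SetLike.not_le_iff_exists.mp hBO
  have hnot : ∀ b ∈ B, b ∉ O → b ∉ O ⊔ A := fun b hb hbO h =>
    hbO (mem_of_mem_sup_of_coprime hAcop h ⟨1, by rw [pow_one, hBea.2 b hb]; exact O.one_mem⟩)
  let π := QuotientGroup.mk' O
  have hcopOA : (Nat.card O).Coprime (Nat.card A) := coprime_card_of_isPGroup hOp hAcop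
  have hinj : ∀ a ∈ A, π a = 1 → a = 1 := by
    intro a ha h
    have h3 : a ∈ O ⊓ A := ⟨(QuotientGroup.eq_one_iff a).mp h, ha⟩
    rw [(Subgroup.disjoint_of_coprime_natCard hcopOA).eq_bot] at h3
    exact Subgroup.mem_bot.mp h3
  have hmapA : (O ⊔ A).map π = A.map π := by
    rw [Subgroup.map_sup, (Subgroup.map_eq_bot_iff O).mpr (QuotientGroup.ker_mk' O).ge, bot_sup_eq]
  haveI hAn : (A.map π).Normal := hmapA ▸ hN.map π (QuotientGroup.mk'_surjective O)
  have hcardA : Nat.card (A.map π) = Nat.card A :=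
    CL.Loc.card_map_of_inf_ker (by
      rw [QuotientGroup.ker_mk', inf_comm]; exact (Subgroup.disjoint_of_coprime_natCard hcopOA).eq_bot)
  have hA1' : A.map π ≠ ⊥ := fun h => hA1 (Subgroup.card_eq_one.mp (by rw [← hcardA, h, Subgroup.card_bot]))
  have hBf : ∀ b ∈ B.map π, b ≠ 1 → A.map π ⊓ Subgroup.centralizer {b} = ⊥ := by
    rintro _ ⟨b, hb, rfl⟩ hb1
    refine fpf_of_eq_one ?_
    rintro _ ⟨a, ha, rfl⟩ hc
    by_contra ha1
    refine hout b (hnot b hb fun h => hb1 ((QuotientGroup.eq_one_iff b).mpr h)) a ha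
      (fun h => ha1 (by rw [h, map_one])) ((QuotientGroup.eq_one_iff _).mp ?_)
    change π (b * a * b⁻¹ * a⁻¹) = 1
    simp only [map_mul, map_inv]
    rw [← hc]
    group
  have hBq := CL.Loc.ea_map hBea π
  have hBc : IsCyclic (B.map π) := isCyclic_of_fpf hA1' Subgroup.le_normalizer_of_normal hBf (Or.inl hBq.1)
  have hBcard : Nat.card (B.map π) = p := by
    obtain ⟨g, hg⟩ := hBc.exists_generator
    have h1 := orderOf_eq_card_of_forall_mem_zpowers hg
    have h2 : g ^ p = 1 := Subtype.ext (hBq.2 g g.2)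
    rcases (Nat.dvd_prime hp.out).mp (orderOf_dvd_of_pow_eq_one h2) with h | h
    · have h3 := Subgroup.card_eq_one.mp (h1 ▸ h)
      have h4 : π y ∈ B.map π := Subgroup.mem_map_of_mem π hyB
      rw [h3] at h4
      exact absurd ((QuotientGroup.eq_one_iff y).mp h4) hyO
    · exact h1 ▸ h
  have hdvd1 : p ∣ Nat.card A - 1 := by
    have := card_dvd_card_sub_one_of_fpf Subgroup.le_normalizer_of_normal hBf
    rwa [hcardA, hBcard] at this
  have hBO' : Nat.card B = Nat.card (O ⊓ B : Subgroup G) * p := by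
    have := card_inf_mul_relIndex O B
    rw [← card_map_mk', hBcard] at this
    exact this.symm
  -- the group `V = Ω₁(Z(O))`
  set V := omegaOne p (O ⊓ Subgroup.centralizer (O : Set G)) with hV
  have hVZ : V ≤ O ⊓ Subgroup.centralizer (O : Set G) := CL.Loc.omegaOne_le _
  have hVea : IsElementaryAbelian p V :=
    CL.Loc.ea_omegaOne (inf_le_right.trans (Subgroup.centralizer_le inf_le_left))
  haveI hVn : V.Normal := CL.Loc.omegaOne_normal _
  have hV1 : V ≠ ⊥ := by
    refine CL.Loc.omegaOne_ne_bot ((hOp.to_le inf_le_left).card_eq_or_dvd.resolve_left fun h => ?_)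
    exact inf_centralizer_ne_bot_of_isNilpotent hOp.isNilpotent hO1 (Subgroup.card_eq_one.mp h)
  have hW : IsElementaryAbelian p (O ⊓ B ⊔ V : Subgroup G) :=
    CL.Loc.ea_sup (CL.Loc.ea_mono hBea inf_le_right) hVea fun o ho v hv => ((hVZ hv).2 o ho.1).symm
  have hWc := CL.Loc.meaIn_card_le hB (sup_le (inf_le_left.trans hS) ((hVZ.trans inf_le_left).trans hS)) hW
  have hWm := card_sup_mul_card_inf_of_normal (O ⊓ B) V
  have hidx : (Subgroup.centralizer {y}).relIndex V ≤ p := by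
    have h1 : Nat.card (O ⊓ B ⊓ V : Subgroup G) ≤ Nat.card (Subgroup.centralizer {y} ⊓ V : Subgroup G) :=
      Subgroup.card_le_of_le fun v hv =>
        ⟨Subgroup.mem_centralizer_singleton_iff.mpr (CL.Loc.ea_mul_comm hBea hv.1.2 hyB), hv.2⟩
    have h2 := card_inf_mul_relIndex (Subgroup.centralizer {y}) V
    have h3 : 0 < Nat.card (O ⊓ B : Subgroup G) := Nat.card_pos
    have h4 : 0 < Nat.card (Subgroup.centralizer {y} ⊓ V : Subgroup G) := Nat.card_pos
    have h5 : Nat.card V ≤ p * Nat.card (Subgroup.centralizer {y} ⊓ V : Subgroup G) := by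
      refine Nat.le_of_mul_le_mul_left ?_ h3
      rw [← hWm, ← mul_assoc, ← hBO']
      exact Nat.mul_le_mul hWc h1
    rw [← h2, mul_comm p] at h5
    exact Nat.le_of_mul_le_mul_left h5 h4
  obtain ⟨⟨a, ha⟩, ha1⟩ := Subgroup.ne_bot_iff_exists_ne_one.mp hA1
  have ha1' : a ≠ 1 := fun h => ha1 (Subtype.ext h)
  have hidx' : (Subgroup.centralizer {a * y * a⁻¹}).relIndex V ≤ p := by
    have h1 : Subgroup.centralizer {a * y * a⁻¹} = MulAut.conj a • Subgroup.centralizer {y} := by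
      ext g
      rw [mem_conj_smul_iff, Subgroup.mem_centralizer_singleton_iff, Subgroup.mem_centralizer_singleton_iff]
      constructor
      · intro h
        calc a⁻¹ * g * a * y = a⁻¹ * (g * (a * y * a⁻¹)) * a := by group
          _ = y * (a⁻¹ * g * a) := by rw [h]; group
      · intro h
        calc g * (a * y * a⁻¹) = a * (a⁻¹ * g * a * y) * a⁻¹ := by group
          _ = a * y * a⁻¹ * g := by rw [h]; group
    have h2 : MulAut.conj a • V = V := (conj_smul_eq_self_iff a V).mpr (Subgroup.le_normalizer_of_normal (K := ⊤) trivial)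
    rw [h1, ← h2, relIndex_conj_smul]
    exact hidx
  have hinf : Subgroup.centralizer {y} ⊓ Subgroup.centralizer {a * y * a⁻¹} ⊓ V = ⊥ := by
    rw [eq_bot_iff]
    rintro v ⟨⟨h1, h2⟩, hv⟩
    replace h1 := Subgroup.mem_centralizer_singleton_iff.mp h1
    replace h2 := Subgroup.mem_centralizer_singleton_iff.mp h2
    have hc : y⁻¹ * a * y⁻¹⁻¹ * a⁻¹ ∉ O :=
      hout y⁻¹ (hnot _ (B.inv_mem hyB) fun h => hyO (O.inv_mem_iff.mp h)) a ha ha1'
    have hc' : y⁻¹ * a * y⁻¹⁻¹ * a⁻¹ ∈ O ⊔ A :=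
      Subgroup.mul_mem _ (hN.conj_mem a (Subgroup.mem_sup_right ha) _) (Subgroup.mem_sup_right (A.inv_mem ha))
    obtain ⟨o, ho, a', ha', he⟩ := (mem_sup_iff_of_le_normalizer (Subgroup.le_normalizer_of_normal (K := A))).mp hc'
    have ha1'' : a' ≠ 1 := fun h => hc (by rw [he, h, mul_one]; exact ho)
    refine Subgroup.mem_bot.mpr (fpf_eq_one (hfpf a' ha' ha1'') (hVZ hv).1 ?_)
    have h3 : o * v = v * o := (hVZ hv).2 o ho
    have h4 : v * (o * a') = (o * a') * v := by
      rw [← he]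
      calc v * (y⁻¹ * a * y⁻¹⁻¹ * a⁻¹) = y⁻¹ * (y * v) * y⁻¹ * (a * y * a⁻¹) := by group
        _ = y⁻¹ * (v * (a * y * a⁻¹)) := by rw [← h1]; group
        _ = _ := by rw [h2]; group
    calc v * a' = o⁻¹ * (o * v) * a' := by group
      _ = o⁻¹ * (v * (o * a')) := by rw [h3]; group
      _ = a' * v := by rw [h4]; group
  have hVle : Nat.card V ≤ p ^ 2 := by
    have h1 := card_inf_mul_relIndex (Subgroup.centralizer {y} ⊓ Subgroup.centralizer {a * y * a⁻¹}) V
    rw [hinf, Subgroup.card_bot, one_mul] at h1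
    rw [← h1, sq]
    exact Subgroup.relIndex_inf_le.trans (Nat.mul_le_mul hidx hidx')
  have hdvd2 : Nat.card A ∣ Nat.card V - 1 :=
    card_dvd_card_sub_one_of_fpf Subgroup.le_normalizer_of_normal fun a ha ha1 =>
      eq_bot_iff.mpr ((inf_le_inf_right _ (hVZ.trans inf_le_left)).trans (hfpf a ha ha1).le)
  obtain ⟨n, hn⟩ := CL.Loc.ea_card_eq_pow hVea
  have hn2 : n ≤ 2 := (Nat.pow_le_pow_iff_right hp.out.one_lt).mp (hn ▸ hVle)
  have hdvd3 : Nat.card A ∣ p ^ 2 - 1 := by
    rw [hn] at hdvd2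
    interval_cases n
    · exact absurd (Subgroup.card_eq_one.mp hn) hV1
    · exact hdvd2.trans (by simpa using Nat.sub_one_dvd_pow_sub_one p 2)
    · exact hdvd2
  exact arith_three_step hp.out.one_lt (hp.out.odd_of_ne_two hp2)
    ((Subgroup.one_lt_card_iff_ne_bot A).mpr hA1) hAodd hdvd1 hdvd3

/-- In a three-step group, a `p`-subgroup normalised by a nontrivial `p'`-element lies in `O_p(G)`. -/
theorem le_pCore_of_threeStep (h : IsThreeStepGroup p G) {E : Subgroup G} (hE : IsPGroup p E) {a : G} (ha1 : a ≠ 1)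
    (hap : (orderOf a).Coprime p) (haE : a ∈ Subgroup.normalizer (E : Set G)) : E ≤ pCore p G := by
  obtain ⟨hO1, A, hA1, hAc, hAodd, hAcop, hN, -, ⟨n, hn⟩, hfpf, hout⟩ := h
  set O := pCore p G with hO
  have hOp : IsPGroup p O := pCore_isPGroup p G
  have hpow : ∀ x ∈ E, ∃ k, x ^ p ^ k ∈ O := fun x hx => by
    obtain ⟨k, hk⟩ := hE ⟨x, hx⟩
    exact ⟨k, by rw [show x ^ p ^ k = 1 from congrArg Subtype.val hk]; exact O.one_mem⟩
  intro x hx
  by_contra hxO
  have hxOA : x ∉ O ⊔ A := fun h => hxO (mem_of_mem_sup_of_coprime hAcop h (hpow x hx))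
  have haOA : a ∈ O ⊔ A := by
    have : Subgroup.zpowers a ≤ O ⊔ A :=
      le_of_coprime_index (by rw [Nat.card_zpowers, hn]; exact Nat.Coprime.pow_right n hap)
    exact this (Subgroup.mem_zpowers a)
  obtain ⟨o, ho, a', ha', he⟩ := (mem_sup_iff_of_le_normalizer (Subgroup.le_normalizer_of_normal (K := A))).mp haOA
  have ha1' : a' ≠ 1 := by
    rintro rfl
    rw [mul_one] at he
    obtain ⟨k, hk⟩ := IsPGroup.iff_orderOf.mp hOp ⟨a, he ▸ ho⟩
    rw [← Subgroup.orderOf_coe] at hk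
    exact ha1 (orderOf_eq_one_iff.mp (Nat.Coprime.eq_one_of_dvd (Nat.Coprime.pow_right k hap) (hk ▸ dvd_rfl)))
  have hc1 : x * a * x⁻¹ * a⁻¹ ∈ E := by
    have := (Subgroup.mem_normalizer_iff.mp haE x⁻¹).mp (E.inv_mem hx)
    simpa only [mul_assoc] using E.mul_mem hx this
  have hc2 : x * a * x⁻¹ * a⁻¹ ∈ O ⊔ A := Subgroup.mul_mem _ (hN.conj_mem a haOA x) (Subgroup.inv_mem _ haOA)
  have hc3 : x * a * x⁻¹ * a⁻¹ ∈ O := mem_of_mem_sup_of_coprime hAcop hc2 (hpow _ hc1)
  refine hout x hxOA a' ha' ha1' ?_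
  rw [← QuotientGroup.eq_one_iff] at hc3 ⊢
  have h1 : (a : G ⧸ O) = (a' : G ⧸ O) := by
    rw [he, QuotientGroup.mk_mul, (QuotientGroup.eq_one_iff o).mpr ho, one_mul]
  simp only [QuotientGroup.mk_mul, QuotientGroup.mk_inv] at hc3 ⊢
  rwa [h1] at hc3

omit [Finite G] hp in
theorem exists_coprime_of_threeStep (h : IsThreeStepGroup p G) : ∃ a : G, a ≠ 1 ∧ (orderOf a).Coprime p := by
  obtain ⟨-, A, hA1, -, -, hAcop, -⟩ := h
  obtain ⟨⟨a, ha⟩, ha1⟩ := Subgroup.ne_bot_iff_exists_ne_one.mp hA1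
  exact ⟨a, fun h => ha1 (Subtype.ext h), Nat.Coprime.coprime_dvd_left (Subgroup.orderOf_dvd_natCard A ha) hAcop⟩

omit [Finite G] hp in
theorem dvd_index_pCore_of_threeStep (h : IsThreeStepGroup p G) : p ∣ (pCore p G).index := by
  obtain ⟨-, A, -, -, -, -, -, hne, ⟨n, hn⟩, -⟩ := h
  rcases n with _ | n
  · exact absurd (Subgroup.index_eq_one.mp hn) hne
  · exact (dvd_pow_self p (Nat.succ_ne_zero n)).trans (hn ▸ Subgroup.index_dvd_of_le le_sup_left)

theorem not_le_commutator_of_threeStep (h : IsThreeStepGroup p G) {P : Subgroup G} (hP : ¬ p ∣ P.index) :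
    ¬ P ≤ commutator G := by
  obtain ⟨-, A, -, -, -, -, hN, hne, ⟨n, hn⟩, -⟩ := h
  set N := pCore p G ⊔ A
  intro hle
  let π := QuotientGroup.mk' N
  have hπ : Function.Surjective π := QuotientGroup.mk'_surjective N
  have hQ : IsPGroup p (G ⧸ N) := IsPGroup.of_card hn
  haveI := hQ.isNilpotent
  haveI : Nontrivial (G ⧸ N) := QuotientGroup.nontrivial_iff.mpr hne
  have h1 : P.map π = ⊤ := by
    rw [← Subgroup.index_eq_one]
    have h2 : (P.map π).index ∣ p ^ n := hn ▸ Subgroup.index_dvd_card _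
    exact Nat.eq_one_of_dvd_coprimes (Nat.Coprime.pow_right n ((Nat.Prime.coprime_iff_not_dvd hp.out).mpr hP).symm)
      (Subgroup.index_map_dvd P hπ) h2
  have h2 : P.map π ≤ commutator (G ⧸ N) := by
    refine (Subgroup.map_mono hle).trans ?_
    rw [commutator_def, Subgroup.map_commutator]
    exact Subgroup.commutator_mono le_top le_top
  exact (Group.IsSolvable.commutator_lt_top_of_nontrivial (G ⧸ N)).ne (eq_top_iff.mpr (h1 ▸ h2))

end ThreeStep

section MinSimple

theorem minSimple_not_isSolvable (hG : IsMinSimpleOddOrder G) : ¬ Group.IsSolvable G := by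
  haveI := hG.2.1
  intro h
  exact hG.2.2.1 ⟨⟨IsSimpleGroup.comm_iff_isSolvable.mpr h⟩⟩

theorem minSimple_normalizer_ne_top (hG : IsMinSimpleOddOrder G) {X : Subgroup G} (h1 : X ≠ ⊥) (h2 : X ≠ ⊤) :
    Subgroup.normalizer (X : Set G) ≠ ⊤ := fun h =>
  (hG.2.1.eq_bot_or_eq_top_of_normal X (Subgroup.normalizer_eq_top_iff.mp h)).elim h1 h2

theorem minSimple_ne_top_of_isSolvable (hG : IsMinSimpleOddOrder G) {X : Subgroup G} (h : Group.IsSolvable X) :
    X ≠ ⊤ := by
  rintro rfl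
  exact minSimple_not_isSolvable hG (Group.isSolvable_of_surjective (f := (⊤ : Subgroup G).subtype)
    fun g => ⟨⟨g, trivial⟩, rfl⟩)

theorem minSimple_ne_top_of_isNilpotent (hG : IsMinSimpleOddOrder G) {X : Subgroup G} (h : Group.IsNilpotent X) :
    X ≠ ⊤ :=
  minSimple_ne_top_of_isSolvable hG inferInstance

theorem minSimple_commutator (hG : IsMinSimpleOddOrder G) : commutator G = ⊤ := by
  refine (hG.2.1.eq_bot_or_eq_top_of_normal _ inferInstance).resolve_left fun h => hG.2.2.1 ⟨⟨fun a b => ?_⟩⟩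
  have : ⁅a, b⁆ ∈ commutator G := Subgroup.commutator_mem_commutator (Subgroup.mem_top a) (Subgroup.mem_top b)
  rw [h] at this
  exact commutatorElement_eq_one_iff_mul_comm.mp this

variable [Finite G] {p : ℕ} [hp : Fact p.Prime]

omit [Finite G] in
theorem minSimple_ne_two (hG : IsMinSimpleOddOrder G) {X : Subgroup G} (hX : IsPGroup p X) (h1 : X ≠ ⊥) : p ≠ 2 := by
  rintro rfl
  have := (hX.card_eq_or_dvd.resolve_left fun h => h1 (Subgroup.card_eq_one.mp h)).trans X.card_subgroup_dvd_card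
  exact (Nat.not_even_iff_odd.mpr hG.1) (even_iff_two_dvd.mpr this)

theorem threeStep_local (hG : IsMinSimpleOddOrder G) (hCN : IsCNGroup G) {L : Subgroup G} (hL : L ≠ ⊤)
    (h1 : pCoreOf p L ≠ ⊥) (h2 : p ∣ (pCoreOf p L).relIndex L) : IsThreeStepGroup p L := by
  haveI := hG.2.2.2 L hL
  refine isThreeStepGroup_of_dvd_index (isCN_subgroup hCN L) (fun h => h1 (by rw [pCoreOf_def, h, Subgroup.map_bot])) ?_
  rwa [← pCoreOf_subgroupOf]

theorem dvd_relIndex_of_lt {D S L : Subgroup G} (hS : IsPGroup p S) (hDS : D < S) (hSL : S ≤ L) :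
    p ∣ D.relIndex L := by
  have h1 : p ∣ D.relIndex S := by
    obtain ⟨n, hn⟩ := hS.index (D.subgroupOf S)
    rcases n with _ | n
    · exact absurd (Subgroup.relIndex_eq_one.mp hn) hDS.not_ge
    · exact (dvd_pow_self p (Nat.succ_ne_zero n)).trans (dvd_of_eq hn.symm)
  exact h1.trans (Dvd.intro _ (Subgroup.relIndex_mul_relIndex D S L hDS.le hSL))

/-- Key step: if `E = O_p(N(E))` is not Sylow in `N(E)`, then the Sylow subgroups of `N(E)` are Sylow in `G` and have
the same Thompson subgroup as `E`. -/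
theorem thompson_eq_of_radical (hG : IsMinSimpleOddOrder G) (hCN : IsCNGroup G) {E : Subgroup G} (hE1 : E ≠ ⊥)
    (hE : pCoreOf p (Subgroup.normalizer (E : Set G)) = E) {R : Subgroup G} (hR : IsPGroup p R) (hER : E < R) :
    thompsonSubgroupOf p R = thompsonSubgroupOf p E := by
  set M := Subgroup.normalizer (E : Set G) with hM
  have hEp : IsPGroup p E := hR.to_le hER.le
  have hp2 : p ≠ 2 := minSimple_ne_two hG hEp hE1
  have hMtop : M ≠ ⊤ := minSimple_normalizer_ne_top hG hE1 (minSimple_ne_top_of_isNilpotent hG hEp.isNilpotent)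
  have hES : E < R ⊓ M := lt_inf_normalizer_of_isPGroup hR hER
  have hSp : IsPGroup p (R ⊓ M : Subgroup G) := hR.to_inf_left
  have hM3 : IsThreeStepGroup p M :=
    threeStep_local hG hCN hMtop (hE.symm ▸ hE1) (hE.symm ▸ dvd_relIndex_of_lt hSp hES inf_le_right)
  have hJS : thompsonSubgroupOf p (R ⊓ M) ≤ E := by
    have h1 := thompson_le_pCore_of_threeStep hp2 hM3 (S := (R ⊓ M).subgroupOf M)
      (by rw [← pCoreOf_subgroupOf, hE]; exact Subgroup.comap_mono hES.le)
    rw [← CL.Loc.thompsonSubgroupOf_subgroupOf (inf_le_right : R ⊓ M ≤ M), ← hE]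
    exact Subgroup.map_mono h1
  have hJ : thompsonSubgroupOf p E = thompsonSubgroupOf p (R ⊓ M) := CL.Loc.thompsonSubgroupOf_eq_of_le hJS hES.le
  set J := thompsonSubgroupOf p E with hJdef
  have hJE : J ≤ E := CL.Loc.thompsonSubgroupOf_le E
  have hJ1 : J ≠ ⊥ := CL.Loc.thompsonSubgroupOf_ne_bot_of_isPGroup hEp hE1
  set L := Subgroup.normalizer (J : Set G) with hL
  have hML : M ≤ L := CL.Loc.normalizer_le_normalizer_thompsonSubgroupOf E
  have hEM : E ≤ M := Subgroup.le_normalizer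
  have hLtop : L ≠ ⊤ :=
    minSimple_normalizer_ne_top hG hJ1 (minSimple_ne_top_of_isNilpotent hG (hEp.to_le hJE).isNilpotent)
  have hJO : J ≤ pCoreOf p L := le_pCoreOf Subgroup.le_normalizer le_rfl (hEp.to_le hJE)
  have hOE : pCoreOf p L ≤ E := by
    by_contra hne
    have hLO := le_normalizer_pCoreOf p L
    have hU : IsPGroup p (E ⊔ pCoreOf p L : Subgroup G) :=
      hEp.to_sup_of_normal_right' (pCoreOf_isPGroup p L) ((hEM.trans hML).trans hLO)
    have h1 : E < E ⊔ pCoreOf p L := left_lt_sup.mpr hne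
    have h2 := lt_inf_normalizer_of_isPGroup hU h1
    have h3 : (E ⊔ pCoreOf p L) ⊓ M ≤ pCoreOf p M :=
      le_pCoreOf inf_le_right (le_normalizer_inf (le_normalizer_sup' le_rfl (hML.trans hLO)) Subgroup.le_normalizer)
        hU.to_inf_left
    exact h2.not_ge (h3.trans hE.le)
  have hL3 : IsThreeStepGroup p L :=
    threeStep_local hG hCN hLtop (fun h => hJ1 (eq_bot_iff.mpr (h ▸ hJO)))
      (dvd_relIndex_of_lt hSp (lt_of_le_of_lt hOE hES) (inf_le_right.trans hML))
  have hEO : E ≤ pCoreOf p L := by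
    obtain ⟨⟨a, ha⟩, ha1, hap⟩ := exists_coprime_of_threeStep hM3
    have h1 := le_pCore_of_threeStep hL3 (E := E.subgroupOf L) (hEp.comap_subtype) (a := ⟨a, hML ha⟩)
      (fun h => ha1 (Subtype.ext (congrArg (Subtype.val : L → G) h)))
      (by rwa [← Subgroup.orderOf_coe] at hap ⊢)
      (Subgroup.mem_normalizer_iff.mpr fun x => (Subgroup.mem_normalizer_iff.mp ha x))
    rw [← Subgroup.map_subgroupOf_eq_of_le (hEM.trans hML)]
    exact Subgroup.map_mono h1
  have hLM : L ≤ M := by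
    have := le_normalizer_pCoreOf p L
    rwa [le_antisymm hOE hEO] at this
  have hRM : R ≤ M := by
    by_contra hne
    have h1 : R ⊓ M < R := inf_lt_left.mpr hne
    have h2 := lt_inf_normalizer_of_isPGroup hR h1
    refine h2.not_ge (inf_le_inf_left _ (le_trans ?_ hLM))
    rw [hL, hJ]
    exact CL.Loc.normalizer_le_normalizer_thompsonSubgroupOf _
  rw [hJ, inf_eq_left.mpr hRM]

theorem thompson_eq_of_inf_ne_bot (hG : IsMinSimpleOddOrder G) (hCN : IsCNGroup G) (P Q : Sylow p G)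
    (h : (P : Subgroup G) ⊓ Q ≠ ⊥) : thompsonSubgroupOf p (P : Subgroup G) = thompsonSubgroupOf p (Q : Subgroup G) := by
  induction' hn : ((P : Subgroup G) ⊓ Q).index using Nat.strong_induction_on with n ih generalizing P Q
  have ih' : ∀ P' Q' : Sylow p G, (P : Subgroup G) ⊓ Q < (P' : Subgroup G) ⊓ Q' →
      thompsonSubgroupOf p (P' : Subgroup G) = thompsonSubgroupOf p (Q' : Subgroup G) := fun P' Q' hlt =>
    ih _ (hn ▸ Subgroup.index_strictAnti hlt) P' Q' (fun h' => h (eq_bot_iff.mpr (h' ▸ hlt.le))) rfl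
  by_cases hPQ : P = Q
  · rw [hPQ]
  set E := (P : Subgroup G) ⊓ Q with hE
  set M := Subgroup.normalizer (E : Set G) with hM
  have hlt : ∀ P' Q' : Sylow p G, P' ≠ Q' → (P' : Subgroup G) ⊓ Q' < P' := fun P' Q' hne =>
    inf_lt_left.mpr fun hle => hne (Sylow.ext (P'.is_maximal' Q'.isPGroup' hle).symm)
  have hstep : ∀ P' : Sylow p G, E < P' → ∃ R : Sylow p G, IsSylowIn p ((R : Subgroup G) ⊓ M) M ∧ E < (P' : Subgroup G) ⊓ R := by
    intro P' hP'
    obtain ⟨S, hS, hle⟩ := exists_isSylowIn_ge (P'.isPGroup'.to_inf_left (K := M)) inf_le_right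
    obtain ⟨R, hR⟩ := hS.exists_sylow_inf_eq
    refine ⟨R, hR ▸ hS, lt_of_lt_of_le (lt_inf_normalizer_of_isPGroup P'.isPGroup' hP') (le_inf inf_le_left ?_)⟩
    exact hle.trans (hR ▸ inf_le_left)
  obtain ⟨R, hR, hER⟩ := hstep P (hlt P Q hPQ)
  obtain ⟨R', hR', hER'⟩ := hstep Q (by rw [hE, inf_comm]; exact hlt Q P (Ne.symm hPQ))
  rw [ih' P R hER, ih' Q R' hER']
  have hle : E ≤ (R : Subgroup G) ⊓ R' := le_inf (hER.le.trans inf_le_right) (hER'.le.trans inf_le_right)
  rcases hle.eq_or_lt with heq | hlt'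
  · have hrad : pCoreOf p M = E := by
      refine le_antisymm ?_ (le_pCoreOf Subgroup.le_normalizer le_rfl P.isPGroup'.to_inf_left)
      rw [heq]
      exact le_inf
        ((hR.le_of_normalized (pCoreOf_isPGroup p M) (pCoreOf_le p M) (le_normalizer_pCoreOf p M)).trans inf_le_left)
        ((hR'.le_of_normalized (pCoreOf_isPGroup p M) (pCoreOf_le p M) (le_normalizer_pCoreOf p M)).trans inf_le_left)
    rw [thompson_eq_of_radical hG hCN h hrad R.isPGroup' (lt_of_lt_of_le hER inf_le_right),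
      thompson_eq_of_radical hG hCN h hrad R'.isPGroup' (lt_of_lt_of_le hER' inf_le_right)]
  · exact ih' R R' hlt'

/-- Sylow subgroups of a minimal simple CN-group of odd order are TI-sets. -/
theorem sylow_eq_of_inf_ne_bot (hG : IsMinSimpleOddOrder G) (hCN : IsCNGroup G) (P Q : Sylow p G)
    (h : (P : Subgroup G) ⊓ Q ≠ ⊥) : P = Q := by
  have hP1 : (P : Subgroup G) ≠ ⊥ := fun h' => h (by rw [h', bot_inf_eq])
  set J := thompsonSubgroupOf p (P : Subgroup G) with hJ
  have hJP : J ≤ P := CL.Loc.thompsonSubgroupOf_le _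
  have hJ1 : J ≠ ⊥ := CL.Loc.thompsonSubgroupOf_ne_bot_of_isPGroup P.isPGroup' hP1
  set M := Subgroup.normalizer (J : Set G) with hM
  have hMtop : M ≠ ⊤ :=
    minSimple_normalizer_ne_top hG hJ1 (minSimple_ne_top_of_isNilpotent hG (P.isPGroup'.to_le hJP).isNilpotent)
  have hPM : (P : Subgroup G) ≤ M := CL.Loc.le_normalizer_thompsonSubgroupOf _
  have hQM : (Q : Subgroup G) ≤ M := by
    rw [hM, hJ, thompson_eq_of_inf_ne_bot hG hCN P Q h]
    exact CL.Loc.le_normalizer_thompsonSubgroupOf _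
  have hfus := CL.Transfer.commutator_inf_eq_of_fusion P M hPM fun x hx g hg => by
    by_cases hx1 : x = 1
    · exact ⟨1, M.one_mem, by simp [hx1]⟩
    refine ⟨g, ?_, rfl⟩
    have h1 := thompson_eq_of_inf_ne_bot hG hCN P (g • P) fun h' => by
      have : g * x * g⁻¹ ∈ (P : Subgroup G) ⊓ (g • P : Sylow p G) :=
        ⟨hg, (mem_sylow_smul_iff g _ P).mpr (by simpa [mul_assoc] using hx)⟩
      rw [h'] at this
      exact hx1 (by simpa using this)
    rw [Sylow.coe_subgroup_smul, ← CL.Loc.conj_smul_thompsonSubgroupOf] at h1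
    exact (conj_smul_eq_self_iff g J).mp h1.symm
  rw [minSimple_commutator hG, top_inf_eq] at hfus
  have hPc : (P : Subgroup G).subgroupOf M ≤ commutator M := by
    intro x hx
    have h1 : (x : G) ∈ ⁅M, M⁆ := (hfus.le hx).1
    rw [← Subgroup.map_subtype_commutator] at h1
    obtain ⟨y, hy, hyx⟩ := h1
    rwa [← Subtype.ext hyx]
  have hJO : J ≤ pCoreOf p M := le_pCoreOf Subgroup.le_normalizer le_rfl (P.isPGroup'.to_le hJP)
  have hnd : ¬ p ∣ (pCoreOf p M).relIndex M := fun hd =>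
    not_le_commutator_of_threeStep (threeStep_local hG hCN hMtop (fun h => hJ1 (eq_bot_iff.mpr (h ▸ hJO))) hd)
      (isSylowIn_of_le P hPM).not_dvd hPc
  have hO : IsSylowIn p (pCoreOf p M) M := ⟨pCoreOf_le p M, pCoreOf_isPGroup p M, hnd⟩
  have key : ∀ R : Sylow p G, (R : Subgroup G) ≤ M → (R : Subgroup G) = pCoreOf p M := fun R hR =>
    hO.eq_of_le R.isPGroup' ((isSylowIn_of_le R hR).le_of_normalized (pCoreOf_isPGroup p M) (pCoreOf_le p M)
      (le_normalizer_pCoreOf p M)) hR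
  exact Sylow.ext ((key P hPM).trans (key Q hQM).symm)

/-- A subgroup `L` with `O_p(L) ≠ 1` has a normal Sylow `p`-subgroup. -/
theorem not_dvd_relIndex_pCoreOf (hG : IsMinSimpleOddOrder G) (hCN : IsCNGroup G) {L : Subgroup G}
    (h1 : pCoreOf p L ≠ ⊥) : ¬ p ∣ (pCoreOf p L).relIndex L := by
  obtain ⟨S, hS⟩ := exists_isSylowIn p L
  have hOS : ∀ T, IsSylowIn p T L → pCoreOf p L ≤ T := fun T hT =>
    hT.le_of_normalized (pCoreOf_isPGroup p L) (pCoreOf_le p L) (le_normalizer_pCoreOf p L)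
  have hn : L ≤ Subgroup.normalizer (S : Set G) := by
    intro g hg
    have hS' := hS.conj_smul_of_mem hg
    obtain ⟨P, hP⟩ := hS.exists_sylow_inf_eq
    obtain ⟨Q, hQ⟩ := hS'.exists_sylow_inf_eq
    have := sylow_eq_of_inf_ne_bot hG hCN P Q fun h => h1 (eq_bot_iff.mpr (h ▸
      le_inf ((hOS _ hS).trans (hP ▸ inf_le_left)) ((hOS _ hS').trans (hQ ▸ inf_le_left))))
    rw [← conj_smul_eq_self_iff, ← hQ, ← this, hP]
  rw [le_antisymm (hOS S hS) (le_pCoreOf hS.le hn hS.isPGroup)]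
  exact hS.not_dvd

omit hp in
/-- In a minimal simple CN-group of odd order, `F(L)` is a Hall subgroup of every proper subgroup `L`. -/
theorem fitting_hall_of_ne_top (hG : IsMinSimpleOddOrder G) (hCN : IsCNGroup G) {L : Subgroup G} (hL : L ≠ ⊤) :
    (Nat.card (fittingSubgroup L)).Coprime (fittingSubgroup L).index := by
  haveI := hG.2.2.2 L hL
  refine (fitting_hall_or_threeStep (isCN_subgroup hCN L)).resolve_right ?_
  rintro ⟨q, hq, h⟩
  haveI := Fact.mk hq
  refine not_dvd_relIndex_pCoreOf hG hCN (p := q) (L := L) (fun h' => h.1 ?_) ?_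
  · rw [← pCoreOf_subgroupOf, h', Subgroup.bot_subgroupOf]
  · have := dvd_index_pCore_of_threeStep h
    rwa [← pCoreOf_subgroupOf] at this

end MinSimple

end CL.CN
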