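import Cfsg.Agent.Char.CN3
import Cfsg.Agent.Grp.FrobKernel
import Cfsg.Agent.S0087

/-!
CN-groups IV: maximal nilpotent subgroups of a minimal simple CN-group of odd order are TI Frobenius kernels of
their normalisers, which are the maximal subgroups; they partition the group up to conjugacy.
-/

set_option autoImplicit false

open Cfsg CL.Grp
open scoped Pointwise commutatorElement

namespace CL.CN

universe u

variable {G : Type*} [Group G] [Finite G]

theorem commutator_le_of_isComplement'_of_isCyclic {X : Type*} [Group X] {F E : Subgroup X} [F.Normal]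
    (h : F.IsComplement' E) (hE : IsCyclic E) : commutator X ≤ F := by
  have h1 : IsCyclic (X ⧸ F) := h.symm.QuotientMulEquiv.isCyclic.mpr hE
  rw [commutator_def, Subgroup.commutator_le]
  intro a _ b _
  rw [← QuotientGroup.eq_one_iff]
  letI := h1.commGroup
  change QuotientGroup.mk' F ⁅a, b⁆ = 1
  rw [map_commutatorElement, commutatorElement_eq_one_iff_mul_comm]
  exact h1.commGroup.mul_comm _ _

/-- a proper subgroup `L` has `L' ≤ F(L)` and `C_L(x) ≤ F(L)` for `1 ≠ x ∈ F(L)`. -/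
theorem fitting_structure (hG : IsMinSimpleOddOrder G) (hCN : IsCNGroup G) {L : Subgroup G} (hL : L ≠ ⊤) :
    commutator L ≤ fittingSubgroup L ∧
      ∀ x ∈ fittingSubgroup L, x ≠ 1 → Subgroup.centralizer {x} ≤ fittingSubgroup L := by
  haveI := hG.2.2.2 L hL
  rcases subsingleton_or_nontrivial L with h | h
  · exact ⟨fun x _ => by rw [Subsingleton.elim x 1]; exact Subgroup.one_mem _,
      fun x _ hx => absurd (Subsingleton.elim x 1) hx⟩
  have h1 := fittingSubgroup_ne_bot L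
  obtain ⟨E, hE, hEn, hfpf⟩ :=
    exists_compl_of_fitting_hall (isCN_subgroup hCN L) (fitting_hall_of_ne_top hG hCN hL) h1
  have hodd : Odd (Nat.card E) :=
    Odd.of_dvd_nat hG.1 ((Subgroup.card_subgroup_dvd_card E).trans (Subgroup.card_subgroup_dvd_card L))
  exact ⟨commutator_le_of_isComplement'_of_isCyclic hE
    (isCyclic_of_fpf_of_odd h1 Subgroup.le_normalizer_of_normal hfpf hEn hodd),
    fun x hx hx1 => centralizer_le_of_fpf hE hfpf hx hx1⟩

theorem commutator_le_fittingOf (hG : IsMinSimpleOddOrder G) (hCN : IsCNGroup G) {L : Subgroup G} (hL : L ≠ ⊤) :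
    ⁅L, L⁆ ≤ fittingOf L := by
  rw [← Subgroup.map_subtype_commutator]
  exact Subgroup.map_mono (fitting_structure hG hCN hL).1

theorem mem_fittingOf_of_commute (hG : IsMinSimpleOddOrder G) (hCN : IsCNGroup G) {L : Subgroup G} (hL : L ≠ ⊤)
    {x y : G} (hx : x ∈ fittingOf L) (hx1 : x ≠ 1) (hy : y ∈ L) (hc : y * x = x * y) : y ∈ fittingOf L := by
  obtain ⟨x', hx', rfl⟩ := hx
  exact ⟨⟨y, hy⟩, (fitting_structure hG hCN hL).2 x' hx' (fun h => hx1 (by rw [h]; rfl))
    (Subgroup.mem_centralizer_singleton_iff.mpr (Subtype.ext hc)), rfl⟩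

theorem not_isThreeStepGroup (hG : IsMinSimpleOddOrder G) (hCN : IsCNGroup G) (H : Subgroup G) (p : ℕ) :
    ¬ IsThreeStepGroup p H := by
  rintro ⟨hO1, A, hA1, -, -, -, hN, hne, -, hfpf, hout⟩
  by_cases hH : H = ⊤
  · subst hH
    haveI := hG.2.1
    haveI : IsSimpleGroup (⊤ : Subgroup G) := Subgroup.topEquiv.isSimpleGroup
    rcases IsSimpleGroup.eq_bot_or_eq_top_of_normal (pCore p (⊤ : Subgroup G)) inferInstance with h | h
    · exact hO1 h
    · exact hne (by rw [h, top_sup_eq])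
  obtain ⟨x, -, hx⟩ := SetLike.exists_of_lt (lt_top_iff_ne_top.mpr hne)
  obtain ⟨⟨a, ha⟩, ha1⟩ := Subgroup.ne_bot_iff_exists_ne_one.mp hA1
  have ha1' : a ≠ 1 := fun h => ha1 (Subtype.ext h)
  have hc := hout x hx a ha ha1'
  have hc' : x * a * x⁻¹ * a⁻¹ ∈ pCore p H ⊔ A :=
    Subgroup.mul_mem _ (hN.conj_mem a (Subgroup.mem_sup_right ha) _) (Subgroup.mem_sup_right (A.inv_mem ha))
  have hcF : x * a * x⁻¹ * a⁻¹ ∈ fittingSubgroup H :=
    (fitting_structure hG hCN hH).1 (Subgroup.commutator_mem_commutator (Subgroup.mem_top x) (Subgroup.mem_top a))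
  obtain ⟨o, ho, a', ha', he⟩ := (mem_sup_iff_of_le_normalizer (Subgroup.le_normalizer_of_normal (K := A))).mp hc'
  have ha1'' : a' ≠ 1 := fun h => hc (by rw [he, h, mul_one]; exact ho)
  obtain ⟨k, -, hk⟩ := CL.Char.exists_conj_eq_mul_of_fpf (pCore p H) a'
    (fun n hn hc => fpf_eq_one (hfpf a' ha' ha1'') hn hc) o ho
  have ha'F : a' ∈ fittingSubgroup H := by
    have := Subgroup.Normal.conj_mem inferInstance _ hcF k⁻¹
    rw [he, ← hk] at this
    simpa [mul_assoc] using this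
  obtain ⟨⟨v, hv⟩, hv1⟩ := Subgroup.ne_bot_iff_exists_ne_one.mp
    (inf_centralizer_ne_bot_of_isNilpotent (fittingSubgroup_isNilpotent H) hO1)
  exact hv1 (Subtype.ext (fpf_eq_one (hfpf a' ha' ha1'') hv.1 (hv.2 a' ha'F).symm))

namespace IsMaxNilp

variable {H K : Subgroup G}

theorem eq_of_inf_ne_bot (hG : IsMinSimpleOddOrder G) (hCN : IsCNGroup G) (hH : IsMaxNilp H) (hK : IsMaxNilp K)
    (h : H ⊓ K ≠ ⊥) : H = K := by
  by_cases h1 : ∀ p : ℕ, p.Prime → ¬ IsPGroup p H
  · exact (hH.2 K hK.1 (hK.le_of_inf_ne_bot hCN hH.1 h1 h)).symm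
  by_cases h2 : ∀ p : ℕ, p.Prime → ¬ IsPGroup p K
  · exact hK.2 H hH.1 (hH.le_of_inf_ne_bot hCN hK.1 h2 (inf_comm H K ▸ h))
  push Not at h1 h2
  obtain ⟨p, hp, hHp⟩ := h1
  obtain ⟨q, hq, hKq⟩ := h2
  haveI := Fact.mk hp
  haveI := Fact.mk hq
  have hpq : p = q := by
    by_contra hne
    exact h (IsPGroup.disjoint_of_ne p q hne _ _ hHp hKq).eq_bot
  subst hpq
  obtain ⟨P, hP⟩ := hHp.exists_le_sylow
  obtain ⟨Q, hQ⟩ := hKq.exists_le_sylow
  have hP' := hH.2 P P.isPGroup'.isNilpotent hP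
  have hQ' := hK.2 Q Q.isPGroup'.isNilpotent hQ
  rw [← hP', ← hQ'] at h ⊢
  rw [sylow_eq_of_inf_ne_bot hG hCN P Q h]

theorem mem_normalizer (hG : IsMinSimpleOddOrder G) (hCN : IsCNGroup G) (hH : IsMaxNilp H) {g x : G} (hx : x ∈ H)
    (hx1 : x ≠ 1) (hg : g * x * g⁻¹ ∈ H) : g ∈ Subgroup.normalizer (H : Set G) := by
  rw [← conj_smul_eq_self_iff]
  refine (hH.conj g).eq_of_inf_ne_bot hG hCN hH fun h => hx1 ?_
  have : g * x * g⁻¹ ∈ MulAut.conj g • H ⊓ H := ⟨conj_mem_conj_smul g hx, hg⟩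
  rw [h] at this
  simpa using this

theorem centralizer_le' (hG : IsMinSimpleOddOrder G) (hCN : IsCNGroup G) (hH : IsMaxNilp H) {x : G} (hx : x ∈ H)
    (hx1 : x ≠ 1) : Subgroup.centralizer {x} ≤ H :=
  hH.centralizer_le hCN hx hx1 fun g hg => hH.mem_normalizer hG hCN hx hx1 (by
    rw [Subgroup.mem_centralizer_singleton_iff.mp hg, mul_inv_cancel_right]; exact hx)

theorem ne_bot' (hG : IsMinSimpleOddOrder G) (hH : IsMaxNilp H) : H ≠ ⊥ := by
  haveI := hG.2.1
  exact hH.ne_bot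

theorem normalizer_ne_top (hG : IsMinSimpleOddOrder G) (hH : IsMaxNilp H) : Subgroup.normalizer (H : Set G) ≠ ⊤ :=
  minSimple_normalizer_ne_top hG (hH.ne_bot' hG) (minSimple_ne_top_of_isNilpotent hG hH.1)

theorem fittingOf_normalizer (hH : IsMaxNilp H) : fittingOf (Subgroup.normalizer (H : Set G)) = H :=
  hH.2 _ (fittingOf_isNilpotent _) (le_fittingOf Subgroup.le_normalizer le_rfl hH.1)

theorem isCoatom_normalizer (hG : IsMinSimpleOddOrder G) (hCN : IsCNGroup G) (hH : IsMaxNilp H) :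
    IsCoatom (Subgroup.normalizer (H : Set G)) := by
  refine ⟨hH.normalizer_ne_top hG, fun M hM => ?_⟩
  by_contra hMtop
  have hHM : H ≤ M := Subgroup.le_normalizer.trans hM.le
  by_cases hF : H ⊓ fittingOf M = ⊥
  · obtain ⟨N, hN, hc⟩ := Cfsg.Agent.S0087.result H (hH.coprime hCN) fun g hg x hx => by
      have h1 : ⁅g, x⁆ ∈ H ⊓ fittingOf M :=
        ⟨by
          have := (Subgroup.mem_normalizer_iff.mp hg x).mp hx
          exact H.mul_mem this (H.inv_mem hx),
        commutator_le_fittingOf hG hCN hMtop (Subgroup.commutator_mem_commutator (hM.le hg) (hHM hx))⟩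
      rw [hF] at h1
      exact (commutatorElement_eq_one_iff_mul_comm.mp h1).symm
    rcases hG.2.1.eq_bot_or_eq_top_of_normal N hN with h | h
    · subst h
      exact minSimple_ne_top_of_isNilpotent hG hH.1 (Subgroup.isComplement'_bot_left.mp hc)
    · subst h
      exact hH.ne_bot' hG (Subgroup.isComplement'_top_left.mp hc)
  · obtain ⟨⟨x, hx⟩, hx1⟩ := Subgroup.ne_bot_iff_exists_ne_one.mp hF
    have hx1' : x ≠ 1 := fun h => hx1 (Subtype.ext h)
    obtain ⟨z, hz, hz1, hzc⟩ := exists_center_ne_one hH.1 (hH.ne_bot' hG)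
    have hzF : z ∈ fittingOf M := mem_fittingOf_of_commute hG hCN hMtop hx.2 hx1' (hHM hz) (hzc x hx.1).symm
    have hHF : H ≤ fittingOf M := fun y hy => mem_fittingOf_of_commute hG hCN hMtop hzF hz1 (hHM hy) (hzc y hy)
    have := le_normalizer_fittingOf M
    rw [hH.2 _ (fittingOf_isNilpotent M) hHF] at this
    exact hM.not_ge this

theorem lt_normalizer (hG : IsMinSimpleOddOrder G) (hCN : IsCNGroup G) (hH : IsMaxNilp H) :
    H < Subgroup.normalizer (H : Set G) := by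
  refine lt_of_le_of_ne Subgroup.le_normalizer fun h => ?_
  have hm : IsMalnormal H := fun x hx hx1 g hg => h ▸ hH.mem_normalizer hG hCN hx hx1 hg
  obtain ⟨N, -, hN, hc, hN1, -⟩ :=
    exists_frobenius_kernel (frob_of_isMalnormal hm (hH.ne_bot' hG) (minSimple_ne_top_of_isNilpotent hG hH.1))
  rcases hG.2.1.eq_bot_or_eq_top_of_normal N hN with h' | h'
  · exact hN1 h'
  · subst h'
    exact hH.ne_bot' hG (Subgroup.isComplement'_top_left.mp hc)

theorem exists_compl (hG : IsMinSimpleOddOrder G) (hCN : IsCNGroup G) (hH : IsMaxNilp H) :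
    ∃ E : Subgroup G, IsComplIn H E (Subgroup.normalizer (H : Set G)) ∧ E ≠ ⊥ ∧
      ∀ e ∈ E, e ≠ 1 → H ⊓ Subgroup.centralizer ({e} : Set G) = ⊥ := by
  obtain ⟨E, hE, hsup, hinf, -⟩ := exists_complement_in (N := H) Subgroup.le_normalizer le_rfl
    (Nat.Coprime.coprime_dvd_right (Subgroup.relIndex_dvd_index_of_le Subgroup.le_normalizer) (hH.coprime hCN))
  refine ⟨E, ⟨Subgroup.le_normalizer, hE, hinf, fun m hm => (mem_sup_iff_of_le_normalizer hE).mp (hsup ▸ hm)⟩, ?_, ?_⟩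
  · rintro rfl
    rw [sup_bot_eq] at hsup
    exact (hH.lt_normalizer hG hCN).ne hsup
  · intro e he he1
    refine fpf_of_eq_one fun x hx hc => ?_
    by_contra hx1
    have : e ∈ H ⊓ E := ⟨hH.centralizer_le' hG hCN hx hx1 (Subgroup.mem_centralizer_singleton_iff.mpr hc.symm), he⟩
    rw [hinf] at this
    exact he1 this

theorem conj_or_coprime (hG : IsMinSimpleOddOrder G) (hCN : IsCNGroup G) (hH : IsMaxNilp H) (hK : IsMaxNilp K) :
    (∃ g : G, K = MulAut.conj g • H) ∨ (Nat.card H).Coprime (Nat.card K) := by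
  by_cases h : (Nat.card H).Coprime (Nat.card K)
  · exact Or.inr h
  left
  obtain ⟨p, hp, h1, h2⟩ := Nat.Prime.not_coprime_iff_dvd.mp h
  haveI := Fact.mk hp
  obtain ⟨P, hP⟩ := hH.exists_sylow_eq hCN h1
  obtain ⟨Q, hQ⟩ := hK.exists_sylow_eq hCN h2
  obtain ⟨g, hg⟩ := MulAction.exists_smul_eq G P Q
  refine ⟨g, hK.eq_of_inf_ne_bot hG hCN (hH.conj g) fun h' => pCoreOf_ne_bot_of_dvd hK.1 h2 (eq_bot_iff.mpr ?_)⟩
  rw [← h']
  refine le_inf (pCoreOf_le p K) ?_
  rw [← hQ, ← hg, Sylow.coe_subgroup_smul, hP]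
  exact Subgroup.pointwise_smul_le_pointwise_smul_iff.mpr (pCoreOf_le p H)

end IsMaxNilp

theorem isMaxNilp_fittingOf_of_isCoatom (hG : IsMinSimpleOddOrder G) (hCN : IsCNGroup G) {M : Subgroup G}
    (hM : IsCoatom M) : IsMaxNilp (fittingOf M) ∧ Subgroup.normalizer (fittingOf M : Set G) = M := by
  haveI := hG.2.1
  haveI := hG.2.2.2 M hM.1
  have hM1 : M ≠ ⊥ := by
    rintro rfl
    obtain ⟨x, hx⟩ := exists_ne (1 : G)
    exact minSimple_ne_top_of_isNilpotent hG (isNilpotent_zpowers x)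
      (hM.2 _ (bot_lt_iff_ne_bot.mpr (Subgroup.zpowers_ne_bot.mpr hx)))
  haveI : Nontrivial M := (Subgroup.nontrivial_iff_ne_bot M).mpr hM1
  have hF1 : fittingOf M ≠ ⊥ := by
    rw [fittingOf_def, Ne, Subgroup.map_eq_bot_iff_of_injective _ M.subtype_injective]
    exact fittingSubgroup_ne_bot M
  obtain ⟨K, hK, hFK⟩ := exists_isMaxNilp_ge (fittingOf_isNilpotent M)
  obtain ⟨⟨x, hx⟩, hx1⟩ := Subgroup.ne_bot_iff_exists_ne_one.mp hF1
  have hMK : M ≤ Subgroup.normalizer (K : Set G) := fun g hg =>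
    hK.mem_normalizer hG hCN (hFK hx) (fun h => hx1 (Subtype.ext h))
      (hFK ((Subgroup.mem_normalizer_iff.mp (le_normalizer_fittingOf M hg) x).mp hx))
  have hN : Subgroup.normalizer (K : Set G) = M := by
    rcases hMK.eq_or_lt with h | h
    · exact h.symm
    · exact absurd (hM.2 _ h) (hK.normalizer_ne_top hG)
  have hF : fittingOf M = K := by rw [← hN, hK.fittingOf_normalizer]
  rw [hF]
  exact ⟨hK, hN⟩

theorem fittingHallOf_eq (hG : IsMinSimpleOddOrder G) (hCN : IsCNGroup G) {M : Subgroup G} (hM : M ≠ ⊤) :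
    fittingHallOf M = fittingOf M := by
  rw [fittingHallOf, fittingHall_eq_fitting (fitting_hall_of_ne_top hG hCN hM), fittingOf_def]

/-- A minimal simple CN-group of odd order is partitioned by the conjugates of at least two Frobenius kernels of
coprime orders. -/
theorem exists_partition {G : Type u} [Group G] [Finite G] (hG : IsMinSimpleOddOrder G) (hCN : IsCNGroup G) :
    ∃ (ι : Type u) (_ : Fintype ι) (L H : ι → Subgroup G), 2 ≤ Fintype.card ι ∧ (∀ i, H i < L i) ∧ (∀ i, H i ≠ ⊥) ∧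
      (∀ i, ∀ x ∈ L i, ∀ h ∈ H i, x * h * x⁻¹ ∈ H i) ∧
      (∀ i, ∀ h ∈ H i, h ≠ 1 → L i ⊓ Subgroup.centralizer ({h} : Set G) ≤ H i) ∧
      (∀ i j, i ≠ j → Nat.Coprime (Nat.card (H i)) (Nat.card (H j))) ∧
      (∀ i, IsTISubset (H i : Set G) ∧ Subgroup.normalizer (H i : Set G) = L i) ∧
      (∀ g : G, g ≠ 1 → ∃ i, ∃ x : G, x * g * x⁻¹ ∈ H i) := by
  let s : Setoid {H : Subgroup G // IsMaxNilp H} :=
    { r := fun A B => ∃ g : G, B.1 = MulAut.conj g • A.1
      iseqv := ⟨fun A => ⟨1, by simp⟩,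
        fun {A B} ⟨g, hg⟩ => ⟨g⁻¹, by rw [hg, conj_smul_conj_smul]; simp⟩,
        fun {A B C} ⟨g, hg⟩ ⟨h, hh⟩ => ⟨h * g, by rw [hh, hg, conj_smul_conj_smul]⟩⟩ }
  let H : Quotient s → Subgroup G := fun i => i.out.1
  have hH : ∀ i, IsMaxNilp (H i) := fun i => i.out.2
  have hcover : ∀ g : G, ∃ i, ∃ x : G, x * g * x⁻¹ ∈ H i := by
    intro g
    obtain ⟨K, hK, hgK⟩ := exists_isMaxNilp_ge (isNilpotent_zpowers g)
    obtain ⟨x, hx⟩ : ∃ x : G, K = MulAut.conj x • H (Quotient.mk s ⟨K, hK⟩) := Quotient.mk_out (s := s) ⟨K, hK⟩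
    refine ⟨Quotient.mk s ⟨K, hK⟩, x⁻¹, ?_⟩
    have := hgK (Subgroup.mem_zpowers g)
    rw [hx, mem_conj_smul_iff] at this
    simpa using this
  letI : Fintype (Quotient s) := Fintype.ofFinite _
  refine ⟨Quotient s, inferInstance, fun i => Subgroup.normalizer (H i : Set G), H, ?_,
    fun i => (hH i).lt_normalizer hG hCN, fun i => (hH i).ne_bot' hG,
    fun i x hx h hh => (Subgroup.mem_normalizer_iff.mp hx h).mp hh,
    fun i h hh h1 => inf_le_right.trans ((hH i).centralizer_le' hG hCN hh h1), fun i j hij => ?_,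
    fun i => ⟨fun g hg x hx hgx => ?_, rfl⟩, fun g _ => hcover g⟩
  · obtain ⟨i, -⟩ := hcover 1
    have h1 : (H i).index ≠ 1 := fun h => minSimple_ne_top_of_isNilpotent hG (hH i).1 (Subgroup.index_eq_one.mp h)
    obtain ⟨p, hp, hpd⟩ := Nat.exists_prime_and_dvd h1
    haveI := Fact.mk hp
    obtain ⟨y, hy⟩ := exists_prime_orderOf_dvd_card' p (hpd.trans (H i).index_dvd_card)
    obtain ⟨j, x, hx⟩ := hcover y
    refine Fintype.one_lt_card_iff.mpr ⟨i, j, ?_⟩
    rintro rfl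
    have h2 : p ∣ Nat.card (H i) := by
      have := Subgroup.orderOf_dvd_natCard _ hx
      rwa [← MulAut.conj_apply, MulEquiv.orderOf_eq, hy] at this
    exact hp.ne_one (Nat.eq_one_of_dvd_coprimes ((hH i).coprime hCN) h2 hpd)
  · refine ((hH i).conj_or_coprime hG hCN (hH j)).resolve_left fun h => hij ?_
    exact Quotient.out_equiv_out.mp h
  · by_contra hx1
    exact hg ((hH i).mem_normalizer hG hCN hx hx1 hgx)

/-- Reduction of the CN-theorem to minimal simple groups. -/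
theorem isSolvable_of_forall_minSimple
    (h : ∀ (X : Type u) [Group X] [Finite X], IsMinSimpleOddOrder X → IsCNGroup X → False)
    (G : Type u) [Group G] [Finite G] : Odd (Nat.card G) → IsCNGroup G → Group.IsSolvable G := by
  refine induction_on_card (P := fun X _ _ => Odd (Nat.card X) → IsCNGroup X → Group.IsSolvable X) ?_ G
  intro X _ _ ih hodd hCN
  by_contra hns
  have hsub : ∀ H : Subgroup X, H ≠ ⊤ → Group.IsSolvable H := fun H hH =>
    ih H (card_subgroup_lt hH) (Odd.of_dvd_nat hodd H.card_subgroup_dvd_card) (isCN_subgroup hCN H)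
  haveI : Nontrivial X := by
    by_contra h'
    rw [not_nontrivial_iff_subsingleton] at h'
    exact hns inferInstance
  refine h X ⟨hodd, ⟨fun N hN => ?_⟩, fun hc => hns ?_, hsub⟩ hCN
  · by_contra hne
    push Not at hne
    haveI := hsub N hne.2
    haveI := ih (X ⧸ N) (card_quotient_lt hne.1) (Odd.of_dvd_nat hodd N.card_quotient_dvd_card)
      (isCN_quotient hCN N inferInstance)
    exact hns (Group.isSolvable_of_ker_le_range N.subtype (QuotientGroup.mk' N) (by simp))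
  · haveI := isNilpotent_of_isMulCommutative hc
    infer_instance

end CL.CN
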