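/-
Green's cuspidal class functions of the general linear groups, part 1: definition, integrality, cuspidality (helper23).
-/
import Cfsg.Agent.Char.GreenLift

set_option autoImplicit false

namespace CL.Green

open Cfsg Polynomial Module MulAction CL.Char CL.GLn
open scoped Classical

universe v

variable {F : Type*} [Field F] (b : F[X] → ℂ)

noncomputable instance finEnd {V W : Type*} [AddCommGroup V] [Module F V] [AddCommGroup W] [Module F W] [Finite V]
    [Finite W] : Fintype (V →ₗ[F] W) := @Fintype.ofFinite _ (DFunLike.finite _)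

noncomputable instance finSub {V : Type*} [AddCommGroup V] [Module F V] [Finite V] : Fintype (Submodule F V) :=
  Fintype.ofFinite _

instance finQuot {V : Type*} [AddCommGroup V] [Module F V] [Finite V] (W : Submodule F V) : Finite (V ⧸ W) :=
  Finite.of_surjective _ W.mkQ_surjective

/-- The Moebius transform of `g ↦ b (charpoly g)` over the lattice of invariant subspaces. -/
noncomputable def cusp (V : Type v) [AddCommGroup V] [Module F V] [Finite V] (g : End F V) : ℂ :=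
  b g.charpoly - ∑ N : {N : Submodule F V // N ≠ ⊤}, if h : ∀ x ∈ N.1, g x ∈ N.1 then cusp N.1 (g.restrict h) else 0
termination_by finrank F V
decreasing_by exact Submodule.finrank_lt N.2

variable {V : Type v} [AddCommGroup V] [Module F V] [Finite V] {V' : Type v} [AddCommGroup V'] [Module F V'] [Finite V']

/-- The value of `cusp` on an invariant subspace. -/
noncomputable def pr (g : End F V) (N : Submodule F V) : ℂ :=
  if h : ∀ x ∈ N, g x ∈ N then cusp b N (g.restrict h) else 0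

theorem cusp_eq (g : End F V) : cusp b V g = b g.charpoly - ∑ N ∈ Finset.univ.erase ⊤, pr b g N := by
  rw [cusp, Finset.sum_subtype (Finset.univ.erase ⊤) (p := fun N => N ≠ ⊤) (by simp)]; rfl

theorem cusp_sim_aux (d : ℕ) : ∀ (V : Type v) [AddCommGroup V] [Module F V] [Finite V] (V' : Type v) [AddCommGroup V']
    [Module F V'] [Finite V'] (f : End F V) (f' : End F V'), finrank F V = d → Sim f f' → cusp b V f = cusp b V' f' := by
  induction d using Nat.strong_induction_on with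
  | _ d ih =>
  rintro V _ _ _ V' _ _ _ f f' rfl ⟨e, he⟩
  rw [cusp_eq, cusp_eq, Sim.charpoly ⟨e, he⟩]
  congr 1
  refine Finset.sum_equiv (Submodule.orderIsoMapComap e).toEquiv (fun N => by simp) fun N hN => ?_
  have t : (∀ x ∈ N.map (e : V →ₗ[F] V'), f' x ∈ N.map (e : V →ₗ[F] V')) ↔ ∀ x ∈ N, f x ∈ N :=
    ⟨fun h x hx => by
      obtain ⟨y, hy, e'⟩ := h _ ⟨x, hx, rfl⟩
      exact e.injective (e'.trans (he x).symm) ▸ hy, by rintro h _ ⟨x, hx, rfl⟩; exact ⟨_, h x hx, he x⟩⟩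
  change _ = pr b f' (N.map (e : V →ₗ[F] V'))
  by_cases h : ∀ x ∈ N, f x ∈ N
  · rw [pr, pr, dif_pos h, dif_pos (t.2 h)]
    exact ih _ (Submodule.finrank_lt (Finset.ne_of_mem_erase hN)) _ _ _ _ rfl
      (sim_restrict (e : V →ₗ[F] V') he (fun _ _ => e.map_eq_zero_iff.1) rfl _ _)
  · rw [pr, pr, dif_neg h, dif_neg (t.not.2 h)]

variable {b}

theorem cusp_sim {f : End F V} {f' : End F V'} (h : Sim f f') : cusp b V f = cusp b V' f' :=
  cusp_sim_aux b _ _ _ _ _ rfl h

theorem pr_map {f : End F V} {f' : End F V'} (e : V →ₗ[F] V') {N : Submodule F V} (hN : ∀ x ∈ N, f x ∈ N)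
    (h : ∀ v ∈ N, e (f v) = f' (e v)) (he : ∀ x ∈ N, e x = 0 → x = 0) : pr b f' (N.map e) = pr b f N := by
  have t : ∀ x ∈ N.map e, f' x ∈ N.map e := by rintro _ ⟨x, hx, rfl⟩; exact ⟨_, hN x hx, h x hx⟩
  rw [pr, pr, dif_pos hN, dif_pos t]
  exact cusp_sim (Sim.symm ⟨.ofBijective (e.submoduleMap N) ⟨(injective_iff_map_eq_zero _).2 fun x hx =>
    Subtype.ext (he _ x.2 (congrArg Subtype.val hx)), e.submoduleMap_surjective N⟩, fun v => Subtype.ext (h v v.2)⟩)

theorem pr_congr {f f' : End F V} {N : Submodule F V} (h : ∀ v ∈ N, f v = f' v) : pr b f N = pr b f' N := by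
  by_cases hN : ∀ x ∈ N, f x ∈ N
  · simpa using (pr_map (b := b) (f' := f') LinearMap.id hN h fun _ _ => id).symm
  · rw [pr, pr, dif_neg hN, dif_neg fun t => hN fun x hx => h x hx ▸ t x hx]

theorem pr_top (g : End F V) : pr b g ⊤ = cusp b V g := by
  rw [pr, dif_pos fun _ _ => Submodule.mem_top]; exact cusp_sim ⟨Submodule.topEquiv, fun _ => rfl⟩

theorem sum_pr (g : End F V) : ∑ N, pr b g N = b g.charpoly := by
  rw [← Finset.add_sum_erase _ _ (Finset.mem_univ ⊤), pr_top, cusp_eq, sub_add_cancel]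

theorem pr_bot (h1 : b 1 = 0) (g : End F V) : pr b g ⊥ = 0 := by
  have h : ∀ x ∈ (⊥ : Submodule F V), g x ∈ (⊥ : Submodule F V) := by simp
  rw [pr, dif_pos h, ← pr_top, ← h1, ← (g.restrict h).charpoly_monic.natDegree_eq_zero.1 (by
    rw [LinearMap.charpoly_natDegree, finrank_bot F V]), ← sum_pr (b := b), Fintype.sum_subsingleton _ ⊤]

theorem sum_pr_le (g : End F V) {W : Submodule F V} (hW : ∀ x ∈ W, g x ∈ W) :
    ∑ N with N ≤ W, pr b g N = b (g.restrict hW).charpoly := by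
  rw [← sum_pr (b := b)]
  refine (Finset.sum_bij (fun N _ => N.map W.subtype) (fun N _ => by simp [W.map_subtype_le])
    (fun _ _ _ _ h => Submodule.map_injective_of_injective W.injective_subtype h)
    (fun N hN => ⟨N.comap W.subtype, Finset.mem_univ _, by
      rw [Submodule.map_comap_subtype, inf_eq_right.2 (Finset.mem_filter.1 hN).2]⟩) fun N _ => ?_).symm
  by_cases h : ∀ x ∈ N, g.restrict hW x ∈ N
  · exact (pr_map W.subtype h (fun _ _ => rfl) fun _ _ h => Subtype.ext h).symm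
  · rw [pr, pr, dif_neg h, dif_neg fun t => h fun x hx => ?_]
    obtain ⟨y, hy, e⟩ := t _ ⟨x, hx, rfl⟩
    exact (Subtype.ext e : y = g.restrict hW x) ▸ hy

theorem genChar_cusp (n : ℕ) (hb : ∀ (G : Type v) [Group G] [Finite G] (V : Type v) [AddCommGroup V] [Module F V]
    [Finite V] (ρ : G →* End F V), finrank F V ≤ n → IsGeneralizedCharacter G fun g => b (ρ g).charpoly) (d : ℕ) :
    ∀ (G : Type v) [Group G] [Finite G] (V : Type v) [AddCommGroup V] [Module F V] [Finite V] (ρ : G →* End F V),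
      finrank F V = d → d ≤ n → IsGeneralizedCharacter G fun g => cusp b V (ρ g) := by
  induction d using Nat.strong_induction_on with
  | _ d ih =>
  rintro G _ _ V _ _ _ ρ rfl hn
  let _ : MulAction G (Submodule F V) :=
    { smul g N := N.map (ρ g)
      one_smul N := by change N.map _ = N; rw [map_one]; exact N.map_id
      mul_smul x y N := by change N.map _ = (N.map _).map _; rw [map_mul]; exact N.map_comp _ _ }
  have sm : ∀ (g : G) (N : Submodule F V), g • N = N.map (ρ g) := fun _ _ => rfl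
  have iv : ∀ (g : G) (N : Submodule F V), (∀ x ∈ N, ρ g x ∈ N) ↔ g • N = N := fun g N =>
    ⟨fun h => Submodule.eq_of_le_of_finrank_eq (Submodule.map_le_iff_le_comap.2 h) ((eqv ρ g).finrank_map_eq N),
      fun h x hx => h.le ⟨x, hx, rfl⟩⟩
  convert (hb G V ρ hn).sub (genChar_sum (fun N g => if N = ⊤ then 0 else pr b (ρ g) N) (fun x N g => ?_)
    (fun N g h => by rw [pr, dif_neg ((iv g N).not.2 h), ite_self]) fun N => ?_) using 2 with g
  · simp only [Pi.sub_apply, cusp_eq, Finset.sum_ite, Finset.sum_const_zero, zero_add, Finset.filter_ne']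
  · have t : x • N = ⊤ ↔ N = ⊤ := by
      rw [← smul_left_cancel_iff x (x := N), ((iv x ⊤).1 fun _ _ => trivial)]
    simp only [t]
    congr 1
    by_cases h : ∀ v ∈ N, ρ g v ∈ N
    · exact pr_map (ρ x) h (fun v _ => (conj_apply ρ x g v).symm) fun _ _ => (eqv ρ x).map_eq_zero_iff.1
    · rw [pr, pr, dif_neg h, dif_neg fun s => h ((iv _ _).2 (by simpa [mul_smul] using (iv _ _).1 s))]
  · by_cases h : N = ⊤
    · simp only [if_pos h]; exact isGeneralizedCharacter_zero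
    convert ih _ (Submodule.finrank_lt h) (stabilizer G N) N (subHom (ρ.comp (stabilizer G N).subtype) N
      fun s => (iv s N).2 s.2) rfl ((Submodule.finrank_le N).trans hn) using 2 with s
    rw [if_neg h, pr, dif_pos ((iv s N).2 s.2)]; rfl

/-- The Lie algebra of the unipotent radical of the stabilizer of `W`. -/
def Xi (W : Submodule F V) : Submodule F (End F V) where
  carrier := {ξ | (∀ x ∈ W, ξ x = 0) ∧ ∀ x, ξ x ∈ W}
  add_mem' h h' := ⟨fun x hx => by simp [h.1 x hx, h'.1 x hx], fun x => W.add_mem (h.2 x) (h'.2 x)⟩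
  zero_mem' := ⟨fun _ _ => rfl, fun _ => W.zero_mem⟩
  smul_mem' c _ h := ⟨fun x hx => by simp [h.1 x hx], fun x => W.smul_mem c (h.2 x)⟩

theorem charpoly_add_Xi {W : Submodule F V} {g : End F V} (hW : ∀ x ∈ W, g x ∈ W) (ξ : Xi W) :
    (g + ξ.1).charpoly = g.charpoly := by
  rw [charpoly_eq_mul W g hW, charpoly_eq_mul W (g + ξ.1) fun x hx => W.add_mem (hW x hx) (ξ.2.2 x)]
  congr 2
  · ext x; simp [ξ.2.1 x x.2]
  · ext x; simpa using (Submodule.Quotient.mk_eq_zero W).2 (ξ.2.2 x)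

theorem sum_lifts (W : Submodule F V) {σ : (V ⧸ W) →ₗ[F] V} (hσ : ∀ x, W.mkQ (σ x) = x) (L : Submodule F (V ⧸ W))
    (f : Submodule F V → ℂ) : ∑ N with N ⊓ W = ⊥ ∧ N.map W.mkQ = L, f N =
      ∑ τ : L →ₗ[F] W, f (LinearMap.range (σ ∘ₗ L.subtype + W.subtype ∘ₗ τ)) := by
  have k : ∀ (τ : L →ₗ[F] W) l, W.mkQ ((σ ∘ₗ L.subtype + W.subtype ∘ₗ τ) l) = l := fun τ l => by
    simp [-Submodule.mkQ_apply, hσ, show W.mkQ (τ l) = 0 from (Submodule.Quotient.mk_eq_zero W).2 (τ l).2]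
  refine (Finset.sum_bij (fun τ _ => LinearMap.range (σ ∘ₗ L.subtype + W.subtype ∘ₗ τ)) (fun τ _ => ?_)
    (fun τ _ τ' _ h => LinearMap.ext fun l => ?_) (fun N hN => ?_) fun _ _ => rfl).symm
  · refine Finset.mem_filter.2 ⟨Finset.mem_univ _, eq_bot_iff.2 ?_, le_antisymm ?_ fun l hl => ⟨_, ⟨⟨l, hl⟩, rfl⟩, k _ _⟩⟩
    · rintro _ ⟨⟨l, rfl⟩, h⟩
      rw [show l = 0 from Subtype.ext ((k τ l).symm.trans ((Submodule.Quotient.mk_eq_zero W).2 h)), map_zero]; rfl
    · rintro _ ⟨_, ⟨l, rfl⟩, rfl⟩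
      rw [k]; exact l.2
  · obtain ⟨l', e⟩ := h.le ⟨l, rfl⟩
    obtain rfl : l' = l := Subtype.ext ((k τ' l').symm.trans (e ▸ k τ l))
    simpa using e.symm
  · obtain ⟨-, h1, rfl⟩ := Finset.mem_filter.1 hN
    let e := LinearEquiv.ofBijective (W.mkQ.submoduleMap N) ⟨(injective_iff_map_eq_zero _).2 fun x hx =>
      Subtype.ext (h1.le ⟨x.2, (Submodule.Quotient.mk_eq_zero W).1 (congrArg Subtype.val hx)⟩),
      W.mkQ.submoduleMap_surjective N⟩
    refine ⟨(N.subtype ∘ₗ e.symm - σ ∘ₗ (N.map W.mkQ).subtype).codRestrict W fun l =>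
      (Submodule.Quotient.mk_eq_zero W).1 (by
        change W.mkQ (_ - σ l) = 0
        rw [map_sub, hσ, sub_eq_zero]
        exact congrArg Subtype.val (e.apply_symm_apply l)), Finset.mem_univ _, ?_⟩
    simp [LinearMap.range_comp]

theorem sum_lifts_pr {W : Submodule F V} {g : End F V} (hW : ∀ x ∈ W, g x ∈ W) (L : Submodule F (V ⧸ W)) :
    ∑ N with N ⊓ W = ⊥ ∧ N.map W.mkQ = L, ∑ ξ : Xi W, pr b (g + ξ.1) N =
      Fintype.card (Xi W) * pr b (W.mapQ W g hW) L := by
  have q : ∀ (ξ : Xi W) v, W.mkQ ((g + ξ.1) v) = W.mapQ W g hW (W.mkQ v) := fun ξ v => by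
    simpa using (Submodule.Quotient.mk_eq_zero W).2 (ξ.2.2 v)
  have pm : ∀ (ξ : Xi W) (N : Submodule F V), N ⊓ W = ⊥ → (∀ x ∈ N, (g + ξ.1) x ∈ N) →
      pr b (W.mapQ W g hW) (N.map W.mkQ) = pr b (g + ξ.1) N := fun ξ N h1 h2 =>
    pr_map _ h2 (fun v _ => q ξ v) fun x hx h => h1.le ⟨hx, (Submodule.Quotient.mk_eq_zero W).1 h⟩
  by_cases hL : ∀ x ∈ L, W.mapQ W g hW x ∈ L
  swap
  · rw [pr, dif_neg hL, mul_zero]
    refine Finset.sum_eq_zero fun N hN => Finset.sum_eq_zero fun ξ _ => dif_neg fun h => hL ?_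
    obtain ⟨-, -, rfl⟩ := Finset.mem_filter.1 hN
    rintro _ ⟨x, hx, rfl⟩
    exact ⟨_, h x hx, q ξ x⟩
  obtain ⟨σ, hσ⟩ := W.mkQ.exists_rightInverse_of_surjective W.range_mkQ
  replace hσ : ∀ x, W.mkQ (σ x) = x := LinearMap.congr_fun hσ
  let r : Xi W →+ (L →ₗ[F] W) := AddMonoidHom.mk' (fun ξ => (ξ.1 ∘ₗ σ ∘ₗ L.subtype).codRestrict W fun _ => ξ.2.2 _)
    fun _ _ => rfl
  have hr : Function.Surjective r := fun τ => by
    obtain ⟨τ', h⟩ := τ.exists_extend
    refine ⟨⟨W.subtype ∘ₗ τ' ∘ₗ W.mkQ, fun x hx => ?_, fun x => (τ' _).2⟩, LinearMap.ext fun l => Subtype.ext ?_⟩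
    · simp [(Submodule.Quotient.mk_eq_zero W).2 hx]
    · change (τ' (W.mkQ (σ l)) : V) = _
      rw [hσ, ← h]; rfl
  have := sum_lifts W hσ L fun N => if N ⊓ W = ⊥ ∧ N.map W.mkQ = L then ∑ ξ : Xi W, pr b (g + ξ.1) N else 0
  rw [Finset.sum_congr rfl fun N hN => if_pos (Finset.mem_filter.1 hN).2] at this
  rw [this, ← Finset.card_univ, Finset.card_eq_sum_card_fiberwise (f := r) (t := Finset.univ) fun _ _ => by simp,
    Nat.cast_sum, Finset.sum_mul]
  refine Finset.sum_congr rfl fun τ _ => ?_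
  set s := σ ∘ₗ L.subtype + W.subtype ∘ₗ τ
  have k : ∀ l, W.mkQ (s l) = l := fun l => by
    simp [s, -Submodule.mkQ_apply, hσ, show W.mkQ (τ l) = 0 from (Submodule.Quotient.mk_eq_zero W).2 (τ l).2]
  have h1 : LinearMap.range s ⊓ W = ⊥ := eq_bot_iff.2 (by
    rintro _ ⟨⟨l, rfl⟩, h⟩
    rw [show l = 0 from Subtype.ext ((k l).symm.trans ((Submodule.Quotient.mk_eq_zero W).2 h)), map_zero]; rfl)
  have h2 : (LinearMap.range s).map W.mkQ = L :=
    le_antisymm (by rintro _ ⟨_, ⟨l, rfl⟩, rfl⟩; rw [k]; exact l.2) fun l hl => ⟨_, ⟨⟨l, hl⟩, rfl⟩, k _⟩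
  let δ : L →ₗ[F] W := (s ∘ₗ (W.mapQ W g hW).restrict hL - g ∘ₗ s).codRestrict W fun l =>
    (Submodule.Quotient.mk_eq_zero W).1 (by
      change W.mkQ (s _ - g (s l)) = 0
      have := q 0 (s l)
      rw [k, ZeroMemClass.coe_zero, add_zero] at this
      rw [map_sub, k, this, sub_eq_zero]; rfl)
  rw [if_pos ⟨h1, h2⟩, AddMonoidHom.card_fiber_eq_of_mem_range r (hr τ) (hr δ), Finset.card_filter, Nat.cast_sum, Finset.sum_mul]
  refine Finset.sum_congr rfl fun ξ _ => ?_
  have e : ∀ l, (g + ξ.1) (s l) = g (s l) + r ξ l := fun l => by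
    simp [s, ξ.2.1 _ (τ l).2, show (r ξ l : V) = ξ.1 (σ l) from rfl]
  have t : (∀ x ∈ LinearMap.range s, (g + ξ.1) x ∈ LinearMap.range s) ↔ r ξ = δ := by
    refine ⟨fun h => LinearMap.ext fun l => Subtype.ext ?_, ?_⟩
    · obtain ⟨l', hl⟩ := h _ ⟨l, rfl⟩
      obtain rfl : l' = (W.mapQ W g hW).restrict hL l := Subtype.ext (by rw [← k, hl, q, k]; rfl)
      exact eq_sub_of_add_eq' ((e l).symm.trans hl.symm)
    · rintro h _ ⟨l, rfl⟩
      exact ⟨(W.mapQ W g hW).restrict hL l, by rw [e, h]; simp [δ]⟩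
  split_ifs with h
  · rw [← pm ξ _ h1 (t.2 h), h2]; simp
  · rw [pr, dif_neg (t.not.2 h)]; simp

theorem sum_cusp (hb : ∀ P Q : F[X], P.Monic → Q.Monic → b (P * Q) = b P + b Q) (d : ℕ) :
    ∀ (V : Type v) [AddCommGroup V] [Module F V] [Finite V] (W : Submodule F V) (g : End F V), finrank F V = d →
      W ≠ ⊥ → W ≠ ⊤ → (∀ x ∈ W, g x ∈ W) → ∑ ξ : Xi W, cusp b V (g + ξ.1) = 0 := by
  have b1 : b 1 = 0 := by simpa using hb 1 1 monic_one monic_one
  induction d using Nat.strong_induction_on with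
  | _ d ih =>
  rintro V _ _ _ W g rfl h1 h2 hW
  let T : Submodule F V → ℂ := fun N => ∑ ξ : Xi W, pr b (g + ξ.1) N
  have D : ∀ N : Submodule F V, N ≠ ⊤ → ¬N ≤ W → N ⊓ W ≠ ⊥ → T N = 0 := fun N n1 n2 n3 => by
    obtain ⟨C, c1, c2⟩ := IsModularLattice.exists_disjoint_and_sup_eq (a := N ⊓ W) (b := W) inf_le_right
    obtain ⟨C', c3, c4⟩ := Disjoint.exists_isCompl (a := C) (b := N) (Submodule.disjoint_def.2 fun x h h' =>
      Submodule.disjoint_def.1 c1 x ⟨h', c2.le (Submodule.mem_sup_right h)⟩ h)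
    let p := N.projectionOnto C' c4.symm
    have hp : ∀ x ∈ W, p x ∈ W.comap N.subtype := fun x hx => by
      obtain ⟨y, hy, z, hz, rfl⟩ := Submodule.mem_sup.1 (c2.ge hx)
      rw [map_add, Submodule.projectionOnto_apply_of_mem_left _ hy.1,
        Submodule.projectionOnto_apply_of_mem_right _ (c3 hz), add_zero]
      exact hy.2
    let ex : Xi (W.comap N.subtype) → Xi W := fun η => ⟨N.subtype ∘ₗ η.1 ∘ₗ p,
      fun x hx => by simp [η.2.1 _ (hp x hx)], fun x => η.2.2 _⟩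
    have hex : ∀ η (x : N), (ex η).1 x = η.1 x := fun η x => by simp [ex, p]
    refine (mul_eq_zero.1 ?_).resolve_left (Nat.cast_ne_zero.2 (Fintype.card_ne_zero (α := Xi (W.comap N.subtype))))
    calc _ = ∑ η, ∑ ξ : Xi W, pr b (g + (ξ + ex η).1) N := by
          rw [← nsmul_eq_mul, ← Finset.card_univ, ← Finset.sum_const]
          exact Finset.sum_congr rfl fun η _ => (Equiv.sum_comp (Equiv.addRight (ex η)) _).symm
      _ = 0 := by
        rw [Finset.sum_comm]
        refine Finset.sum_eq_zero fun ξ _ => ?_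
        have e : ∀ η (x : N), (g + (ξ + ex η).1) x = (g + ξ.1) x + η.1 x := fun η x => by simp [hex, add_assoc]
        by_cases h : ∀ x ∈ N, (g + ξ.1) x ∈ N
        · rw [← ih _ (Submodule.finrank_lt n1) N (W.comap N.subtype) ((g + ξ.1).restrict h) rfl
            (fun t => n3 (eq_bot_iff.2 fun x hx => congrArg Subtype.val (t.le (show ⟨x, hx.1⟩ ∈ _ from hx.2))))
            (fun t => n2 (Submodule.comap_subtype_eq_top.1 t)) fun x hx => W.add_mem (hW _ hx) (ξ.2.2 _)]
          refine Finset.sum_congr rfl fun η _ => ?_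
          rw [pr, dif_pos fun x hx => by rw [e η ⟨x, hx⟩]; exact N.add_mem (h x hx) (η.1 _).2]
          exact congrArg _ (LinearMap.ext fun x => Subtype.ext (e η x))
        · exact Finset.sum_eq_zero fun η _ => dif_neg fun t => h fun x hx =>
            (N.add_mem_iff_left (η.1 ⟨x, hx⟩).2).1 (e η ⟨x, hx⟩ ▸ t x hx)
  have S : ∑ N, T N = T ⊤ + ∑ N with N ≤ W, T N + ∑ N with N ⊓ W = ⊥, T N := by
    rw [Finset.sum_filter, Finset.sum_filter, ← Fintype.sum_ite_eq' ⊤ T, ← Finset.sum_add_distrib,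
      ← Finset.sum_add_distrib]
    refine Finset.sum_congr rfl fun N _ => ?_
    by_cases n1 : N = ⊤
    · simp [n1, h1, h2]
    by_cases n2 : N ≤ W <;> by_cases n3 : N ⊓ W = ⊥
    · simp [T, (inf_eq_left.2 n2).symm.trans n3, pr_bot b1]
    · rw [if_neg n1, if_pos n2, if_neg n3, zero_add, add_zero]
    · simp [n1, n2, n3]
    · simp [D N n1 n2 n3]
  have A : ∑ N with N ≤ W, T N = Fintype.card (Xi W) * b (g.restrict hW).charpoly := by
    rw [← sum_pr_le (b := b), Finset.mul_sum]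
    refine Finset.sum_congr rfl fun N hN => (Finset.sum_congr rfl fun ξ _ => pr_congr (f' := g) fun v hv => ?_).trans
      (by simp)
    simp [ξ.2.1 v ((Finset.mem_filter.1 hN).2 hv)]
  have B : ∑ N with N ⊓ W = ⊥, T N = Fintype.card (Xi W) * b (W.mapQ W g hW).charpoly := by
    rw [← sum_pr (b := b), Finset.mul_sum, ← Finset.sum_fiberwise _ fun N : Submodule F V => N.map W.mkQ]
    exact Finset.sum_congr rfl fun L _ => by rw [Finset.filter_filter]; exact sum_lifts_pr hW L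
  rw [A, B, Finset.sum_comm, add_assoc, ← mul_add, ← hb _ _ (LinearMap.charpoly_monic _) (LinearMap.charpoly_monic _),
    ← charpoly_eq_mul] at S
  simpa [sum_pr, charpoly_add_Xi hW, T, pr_top] using S

end CL.Green
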