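/-
Green's cuspidal class functions, part 2: values at the identity and at cyclic elements (helper23).
-/
import Cfsg.Agent.Char.Cusp1

set_option autoImplicit false

namespace CL.Green

open Cfsg Polynomial Module CL.Char CL.GLn
open scoped Classical

universe v

variable {F : Type*} [Field F] {b : F[X] → ℂ} {V : Type v} [AddCommGroup V] [Module F V] [Finite V]

/-- The Green function of the Coxeter torus. -/
noncomputable def cq (q : ℂ) (d : ℕ) : ℂ := if d = 0 then 0 else ∏ i ∈ Finset.Ico 1 d, (1 - q ^ i)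

theorem cq_succ (q : ℂ) (d : ℕ) : cq q (d + 1) + q ^ d * cq q d = cq q d + if d = 0 then 1 else 0 := by
  rcases d.eq_zero_or_pos with rfl | h
  · simp [cq]
  · simp only [cq, if_neg h.ne', if_neg d.succ_ne_zero, Finset.prod_Ico_succ_top h]; ring

theorem finrank_map_mkQ (S N : Submodule F V) : finrank F (N.map S.mkQ) + finrank F ↥(N ⊓ S) = finrank F N := by
  rw [← (S.mkQ.domRestrict N).finrank_range_add_finrank_ker, LinearMap.range_domRestrict, LinearMap.ker_domRestrict,
    S.ker_mkQ, ← Submodule.finrank_map_subtype_eq, Submodule.map_comap_subtype]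

theorem sum_cq [Fintype F] (d : ℕ) : ∀ (V : Type v) [AddCommGroup V] [Module F V] [Finite V], finrank F V = d →
    ∑ N : Submodule F V, cq (Fintype.card F) (finrank F N) = d := by
  induction d with
  | zero =>
    intro V _ _ _ h
    have := finrank_zero_iff.1 h
    rw [Fintype.sum_subsingleton _ ⊥]; simp [cq]
  | succ d ih =>
    intro V _ _ _ h
    have : Nontrivial V := finrank_pos_iff.1 (show 0 < finrank F V by omega)
    obtain ⟨v, hv⟩ := exists_ne (0 : V)
    set S := F ∙ v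
    have s1 : finrank F S = 1 := finrank_span_singleton hv
    obtain ⟨σ, hσ⟩ := S.mkQ.exists_rightInverse_of_surjective S.range_mkQ
    rw [← Finset.sum_fiberwise _ fun N : Submodule F V => N.map S.mkQ, Nat.cast_succ,
      ← ih (V ⧸ S) (by have := S.finrank_quotient_add_finrank; omega), ← Fintype.sum_ite_eq' (⊥ : Submodule F (V ⧸ S))
      fun _ => (1 : ℂ),
      ← Finset.sum_add_distrib]
    refine Finset.sum_congr rfl fun L _ => ?_
    have e := sum_lifts S (LinearMap.congr_fun hσ) L fun _ => cq (Fintype.card F) (finrank F L)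
    rw [Finset.sum_const (s := Finset.univ), Finset.card_univ, Module.card_eq_pow_finrank (K := F) (V := L →ₗ[F] S),
      finrank_linearMap,
      s1, mul_one, nsmul_eq_mul, Nat.cast_pow] at e
    simp only [← Submodule.finrank_eq_zero]
    rw [← cq_succ, ← e, ← Finset.sum_filter_add_sum_filter_not _ fun N => S ≤ N, Finset.filter_filter,
      Finset.filter_filter]
    congr 1
    · rw [Finset.sum_eq_single_of_mem (L.comap S.mkQ) (by simp [Submodule.map_comap_eq, S.le_comap_mkQ]) fun N hN h =>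
        (h ?_).elim, ← finrank_map_mkQ S, inf_eq_right.2 (S.le_comap_mkQ L), s1, Submodule.map_comap_eq, S.range_mkQ,
        top_inf_eq]
      obtain ⟨-, rfl, t⟩ := Finset.mem_filter.1 hN
      rw [Submodule.comap_map_mkQ, sup_eq_right.2 t]
    · have t : ∀ N : Submodule F V, ¬S ≤ N ↔ N ⊓ S = ⊥ := fun N => by
        rw [← disjoint_iff, Submodule.disjoint_span_singleton' hv, Submodule.span_singleton_le_iff_mem]
      refine Finset.sum_congr (by simp only [t, and_comm]) fun N hN => ?_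
      obtain ⟨-, t, rfl⟩ := Finset.mem_filter.1 hN
      rw [← finrank_map_mkQ S N, t, finrank_bot, add_zero]

theorem add_pow_monic (hb : ∀ P Q : F[X], P.Monic → Q.Monic → b (P * Q) = b P + b Q) {P : F[X]} (hP : P.Monic) (k : ℕ) :
    b (P ^ k) = k * b P := by
  induction k with
  | zero => simpa using hb 1 1 monic_one monic_one
  | succ k ih => rw [pow_succ, hb _ _ (hP.pow k) hP, ih]; push_cast; ring

theorem cusp_one [Fintype F] (hb : ∀ P Q : F[X], P.Monic → Q.Monic → b (P * Q) = b P + b Q) (d : ℕ) :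
    ∀ (V : Type v) [AddCommGroup V] [Module F V] [Finite V], finrank F V = d →
      cusp b V 1 = b (X - 1) * cq (Fintype.card F) d := by
  induction d using Nat.strong_induction_on with
  | _ d ih =>
  rintro V _ _ _ rfl
  rw [cusp_eq, LinearMap.charpoly_one, add_pow_monic hb (C_1 (R := F) ▸ monic_X_sub_C 1), ← sum_cq _ V rfl,
    ← Finset.add_sum_erase _ _ (Finset.mem_univ ⊤), finrank_top, Finset.sum_congr rfl (f := pr b 1)
      (g := fun N => b (X - 1) * cq (Fintype.card F) (finrank F N)) fun N hN => ?_, ← Finset.mul_sum]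
  · generalize b (X - 1) = c; ring
  rw [pr, dif_pos fun _ h => by exact h]
  exact ih _ (Submodule.finrank_lt (Finset.ne_of_mem_erase hN)) N rfl

/-- Evaluation of polynomials in `g` at `v`. -/
noncomputable def ev (g : End F V) (v : V) : F[X] →ₗ[F] V := LinearMap.applyₗ v ∘ₗ (aeval g).toLinearMap

omit [Finite V] in
theorem ev_mul (g : End F V) (v : V) (P Q : F[X]) : ev g v (P * Q) = aeval g P (ev g v Q) := by simp [ev]

omit [Finite V] in
theorem ev_ev (g : End F V) (v : V) (P Q : F[X]) : ev g (ev g v Q) P = ev g v (P * Q) := by simp [ev]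

omit [Finite V] in
theorem ev_one (g : End F V) (v : V) : ev g v 1 = v := by simp [ev]

omit [Finite V] in
theorem ev_X_mul (g : End F V) (v : V) (P : F[X]) : ev g v (X * P) = g (ev g v P) := by simp [ev]

omit [Finite V] in
theorem ev_inv (g : End F V) (v : V) : ∀ x ∈ LinearMap.range (ev g v), g x ∈ LinearMap.range (ev g v) := by
  rintro _ ⟨P, rfl⟩; exact ⟨_, ev_X_mul g v P⟩

omit [Finite V] in
theorem ev_restrict {g : End F V} {N : Submodule F V} (h : ∀ x ∈ N, g x ∈ N) (v : N) (P : F[X]) :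
    (ev (g.restrict h) v P : V) = ev g v P := aeval_intertwine N.subtype (fun _ => rfl) P v

omit [Finite V] in
theorem ev_mod {g : End F V} {h : F[X]} (hm : h.Monic) (h0 : aeval g h = 0) (v : V) (P : F[X]) :
    (ev g v ∘ₗ AdjoinRoot.modByMonicHom hm) (AdjoinRoot.mk h P) = ev g v P := by
  conv_rhs => rw [← modByMonic_add_div P h, map_add, ev_mul, h0]
  simp

theorem ev_eq_zero {g : End F V} {v : V} (h : LinearMap.range (ev g v) = ⊤) {P : F[X]} :
    ev g v P = 0 ↔ g.charpoly ∣ P := by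
  have hm := minpoly.monic (LinearMap.isIntegral g)
  have := finite_adjoinRoot hm.ne_zero
  have e : g.charpoly = minpoly F g := eq_of_monic_of_dvd_of_natDegree_le hm g.charpoly_monic g.minpoly_dvd_charpoly (by
    rw [g.charpoly_natDegree, ← finrank_adjoinRoot]
    refine LinearMap.finrank_le_finrank_of_surjective (f := ev g v ∘ₗ AdjoinRoot.modByMonicHom hm) fun w => ?_
    obtain ⟨Q, rfl⟩ := h.ge (Submodule.mem_top (x := w))
    exact ⟨_, ev_mod hm (minpoly.aeval F g) v Q⟩)
  rw [e, minpoly.dvd_iff]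
  refine ⟨fun t => LinearMap.ext fun w => ?_, fun t => by simp [ev, t]⟩
  obtain ⟨Q, rfl⟩ := h.ge (Submodule.mem_top (x := w))
  rw [← ev_mul, mul_comm, ev_mul, t]; simp

theorem card_cyc {h : F[X]} (hm : h.Monic) (hd : h.natDegree = finrank F V) [Fintype V] :
    (Finset.univ.filter fun x : V × End F V => LinearMap.range (ev x.2 x.1) = ⊤ ∧ x.2.charpoly = h).card =
      Nat.card (V ≃ₗ[F] V) := by
  have := finite_adjoinRoot hm.ne_zero
  have hd' := (finrank_adjoinRoot h).trans hd
  obtain ⟨e0⟩ := FiniteDimensional.nonempty_linearEquiv_of_finrank_eq hd'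
  let L := Algebra.lmul F (AdjoinRoot h) (AdjoinRoot.root h)
  have k : ∀ (e : AdjoinRoot h ≃ₗ[F] V) P, ev (e.conj L) (e 1) P = e (AdjoinRoot.mk h P) := fun e P => by
    refine (aeval_intertwine (f := L) (e : AdjoinRoot h →ₗ[F] V) (fun x => by simp [LinearEquiv.conj_apply]) P 1).symm.trans ?_
    rw [aeval_algHom_apply]; simp
  rw [← Nat.card_congr (β := V ≃ₗ[F] V) ⟨fun e => e0.symm ≪≫ₗ e, fun e => e0 ≪≫ₗ e, fun e => by ext; simp,
    fun e => by ext; simp⟩, ← Fintype.card_subtype, ← Nat.card_eq_fintype_card]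
  have k2 : ∀ e : AdjoinRoot h ≃ₗ[F] V, LinearMap.range (ev (e.conj L) (e 1)) = ⊤ := fun e => eq_top_iff.2 fun w _ => by
    obtain ⟨P, hP⟩ := AdjoinRoot.mk_surjective (e.symm w)
    exact ⟨P, by rw [k, hP, e.apply_symm_apply]⟩
  refine (Nat.card_eq_of_bijective (fun e : AdjoinRoot h ≃ₗ[F] V => (⟨(e 1, e.conj L), k2 e,
    (e.charpoly_conj L).trans (charpoly_lmul_root hm)⟩ : {x : V × End F V // _})) ⟨fun e e' t => ?_, ?_⟩).symm
  · refine LinearEquiv.ext fun x => ?_
    obtain ⟨P, rfl⟩ := AdjoinRoot.mk_surjective x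
    obtain ⟨t1, t2⟩ := Prod.ext_iff.1 (Subtype.ext_iff.1 t)
    rw [← k, ← k, show e 1 = e' 1 from t1, show e.conj L = e'.conj L from t2]
  · rintro ⟨⟨v, g⟩, h1, rfl⟩
    have m := ev_mod hm g.aeval_self_charpoly v
    have s : Function.Surjective (ev g v ∘ₗ AdjoinRoot.modByMonicHom hm) := fun w => by
      obtain ⟨Q, rfl⟩ := h1.ge (Submodule.mem_top (x := w))
      exact ⟨_, m Q⟩
    let e := LinearEquiv.ofBijective _ ⟨(LinearMap.injective_iff_surjective_of_finrank_eq_finrank hd').2 s, s⟩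
    refine ⟨e, Subtype.ext (Prod.ext ((m 1).trans (ev_one g v)) (conj_eq_of_intertwine e fun x => ?_))⟩
    obtain ⟨P, rfl⟩ := AdjoinRoot.mk_surjective x
    exact (m (X * P)).trans ((ev_X_mul g v P).trans (congrArg g (m P).symm))

theorem cyc_sub {g : End F V} {v : V} (h : LinearMap.range (ev g v) = ⊤) {d e : F[X]} (he : e.Monic)
    (hde : g.charpoly = e * d) : (∃ w, LinearMap.range (ev (g.restrict (ev_inv g (ev g v d))) w) = ⊤) ∧
      (g.restrict (ev_inv g (ev g v d))).charpoly = e := by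
  have t : LinearMap.range (ev (g.restrict (ev_inv g (ev g v d))) ⟨_, 1, ev_one _ _⟩) = ⊤ :=
    eq_top_iff.2 fun ⟨_, P, rfl⟩ _ => ⟨P, Subtype.ext (ev_restrict _ _ P)⟩
  have k : ∀ P, (g.restrict (ev_inv g (ev g v d))).charpoly ∣ P ↔ e ∣ P := fun P => by
    rw [← ev_eq_zero t, Subtype.ext_iff, ev_restrict, ev_ev, ZeroMemClass.coe_zero, ev_eq_zero h, hde,
      mul_dvd_mul_iff_right fun c => g.charpoly_monic.ne_zero (by rw [hde, c, mul_zero])]
  exact ⟨⟨_, t⟩, eq_of_monic_of_associated (LinearMap.charpoly_monic _) he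
    (associated_of_dvd_dvd ((k _).2 dvd_rfl) ((k _).1 dvd_rfl))⟩

theorem exists_cyc_sub {g : End F V} {v : V} (h : LinearMap.range (ev g v) = ⊤) {N : Submodule F V}
    (hN : ∀ x ∈ N, g x ∈ N) : ∃ d e : F[X], e.Monic ∧ g.charpoly = e * d ∧ N = LinearMap.range (ev g (ev g v d)) := by
  have a : ∀ P : F[X], ∀ x ∈ N, aeval g P x ∈ N := fun P x hx => 
    (ev_restrict hN ⟨x, hx⟩ P).subst (motive := (· ∈ N)) (ev (g.restrict hN) ⟨x, hx⟩ P).2
  let I : Ideal F[X] := ⟨(N.comap (ev g v)).toAddSubmonoid, fun P Q hQ => by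
    change ev g v (P * Q) ∈ N; rw [ev_mul]; exact a P _ hQ⟩
  obtain ⟨d, hd⟩ := IsPrincipalIdealRing.principal I
  have m : ∀ P, ev g v P ∈ N ↔ d ∣ P := fun P => (SetLike.ext_iff.1 hd P).trans Ideal.mem_span_singleton
  have t : d ∣ g.charpoly := (m _).1 (by rw [(ev_eq_zero h).2 dvd_rfl]; exact N.zero_mem)
  have d0 : d ≠ 0 := ne_zero_of_dvd_ne_zero g.charpoly_monic.ne_zero t
  obtain ⟨e, he⟩ := normalize_dvd_iff.2 t
  refine ⟨normalize d, e, (monic_normalize d0).of_mul_monic_left (he ▸ g.charpoly_monic), he.trans (mul_comm _ _),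
    le_antisymm (fun x hx => ?_) ?_⟩
  · obtain ⟨P, rfl⟩ := h.ge (Submodule.mem_top (x := x))
    obtain ⟨Q, rfl⟩ := normalize_dvd_iff.2 ((m P).1 hx)
    exact ⟨Q, by rw [ev_ev, mul_comm]⟩
  · rintro _ ⟨P, rfl⟩
    exact a P _ ((m _).2 (dvd_normalize_iff.2 dvd_rfl))

theorem cusp_cyc {Λ : F[X] → ℂ} (hΛ : ∀ (h : F[X]) (hm : h.Monic),
    ∑ e ∈ @Finset.univ _ (fintypeSubtypeMonicDvd h hm.ne_zero), Λ e.1 = b h) (d : ℕ) :
    ∀ (V : Type v) [AddCommGroup V] [Module F V] [Finite V] (g : End F V) (v : V), finrank F V = d →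
      LinearMap.range (ev g v) = ⊤ → cusp b V g = Λ g.charpoly := by
  induction d using Nat.strong_induction_on with
  | _ d ih =>
  rintro V _ _ _ g v rfl h
  let f : Submodule F V → ℂ := fun N => if hN : ∀ x ∈ N, g x ∈ N then Λ (g.restrict hN).charpoly else 0
  let cp : Submodule F V → F[X] := fun N => if hN : ∀ x ∈ N, g x ∈ N then (g.restrict hN).charpoly else 0
  have hcp : ∀ {d e : F[X]}, e.Monic → g.charpoly = e * d → cp (LinearMap.range (ev g (ev g v d))) = e :=
    fun h1 h2 => (dif_pos (ev_inv g _)).trans (cyc_sub h h1 h2).2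
  have e : ∑ N, f N = b g.charpoly := by
    let _ := fintypeSubtypeMonicDvd _ g.charpoly_monic.ne_zero
    rw [← hΛ _ g.charpoly_monic]
    refine (Finset.sum_of_injOn (fun e => LinearMap.range (ev g (ev g v e.2.2.choose))) (fun e _ e' _ t => ?_)
      (fun _ _ => Finset.mem_univ _) (fun N _ t => dif_neg fun hN => t ?_) fun e _ => ?_).symm
    · exact Subtype.ext ((hcp e.2.1 e.2.2.choose_spec).symm.trans ((congrArg cp t).trans (hcp e'.2.1 e'.2.2.choose_spec)))
    · obtain ⟨d, e, h1, h2, rfl⟩ := exists_cyc_sub h hN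
      have h3 : e ∣ g.charpoly := ⟨d, h2⟩
      exact ⟨⟨e, h1, h3⟩, Finset.mem_coe.2 (Finset.mem_univ _), congrArg (fun d => LinearMap.range (ev g (ev g v d)))
        (mul_left_cancel₀ h1.ne_zero (h3.choose_spec.symm.trans h2))⟩
    · simp only [f]
      rw [dif_pos (ev_inv g _), (cyc_sub h e.2.1 e.2.2.choose_spec).2]
  rw [cusp_eq, ← e, ← Finset.add_sum_erase _ _ (Finset.mem_univ ⊤),
    Finset.sum_congr rfl (f := pr b g) (g := f) fun N hN => ?_,
    add_sub_cancel_right]
  · simp only [f, dif_pos fun _ (_ : _ ∈ (⊤ : Submodule F V)) => Submodule.mem_top]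
    exact congrArg _ (Sim.charpoly ⟨Submodule.topEquiv, fun _ => rfl⟩)
  refine dite_congr rfl (fun hN' => ?_) fun _ => rfl
  obtain ⟨d, e, h1, h2, rfl⟩ := exists_cyc_sub h hN'
  obtain ⟨w, hw⟩ := (cyc_sub h h1 h2).1
  exact ih _ (Submodule.finrank_lt (Finset.ne_of_mem_erase hN)) _ _ w rfl hw

end CL.Green
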