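/-
Green's cuspidal class functions, part 3: inner products (helper23).
-/
import Cfsg.Agent.Char.Cusp2

set_option autoImplicit false

namespace CL.Green

open Cfsg Polynomial Module CL.Char CL.GLn
open scoped Classical ComplexConjugate

universe v

variable {F : Type*} [Field F] {b : F[X] → ℂ} {V : Type v} [AddCommGroup V] [Module F V] [Finite V]

theorem sum_cusp_mul (hb : ∀ P Q : F[X], P.Monic → Q.Monic → b (P * Q) = b P + b Q) {W : Submodule F V} (h1 : W ≠ ⊥)
    (h2 : W ≠ ⊤) (f : End F V → ℂ) (hf : ∀ g, (∀ x ∈ W, g x ∈ W) → ∀ ξ : Xi W, f (g + ξ.1) = f g)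
    (hf' : ∀ g, ¬(∀ x ∈ W, g x ∈ W) → f g = 0) : ∑ g, cusp b V g * f g = 0 := by
  refine (mul_eq_zero.1 ?_).resolve_left (Nat.cast_ne_zero.2 (Fintype.card_ne_zero (α := Xi W)))
  calc _ = ∑ ξ : Xi W, ∑ g, cusp b V (g + ξ.1) * f (g + ξ.1) := by
        rw [← nsmul_eq_mul, ← Finset.card_univ, ← Finset.sum_const]
        exact Finset.sum_congr rfl fun ξ _ => (Equiv.sum_comp (Equiv.addRight ξ.1) _).symm
    _ = 0 := by
      rw [Finset.sum_comm]
      refine Finset.sum_eq_zero fun g _ => ?_
      by_cases h : ∀ x ∈ W, g x ∈ W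
      · simp only [hf g h, ← Finset.sum_mul, sum_cusp hb _ V W g rfl h1 h2 h, zero_mul]
      · exact Finset.sum_eq_zero fun ξ _ => by
          rw [hf' _ fun t => h fun x hx => (W.add_mem_iff_left (ξ.2.2 x)).1 (t x hx), mul_zero]

theorem sum_cusp_cyc (hb : ∀ P Q : F[X], P.Monic → Q.Monic → b (P * Q) = b P + b Q) {Λ : F[X] → ℂ}
    (hΛ : ∀ (h : F[X]) (hm : h.Monic), ∑ e ∈ @Finset.univ _ (fintypeSubtypeMonicDvd h hm.ne_zero), Λ e.1 = b h)
    [Fintype V] [Nontrivial V] (Ψ : F[X] → ℂ) : (Fintype.card V - 1) * ∑ g : End F V, cusp b V g * Ψ g.charpoly =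
      ∑ x : V × End F V, if LinearMap.range (ev x.2 x.1) = ⊤ then Λ x.2.charpoly * Ψ x.2.charpoly else 0 := by
  have z : ∀ g : End F V, LinearMap.range (ev g 0) ≠ ⊤ := fun g t =>
    bot_ne_top ((LinearMap.range_eq_bot.2 (by ext; simp [ev])).symm.trans t)
  rw [Fintype.sum_prod_type, ← Finset.add_sum_erase _ _ (Finset.mem_univ (0 : V)),
    Finset.sum_eq_zero (s := Finset.univ) fun g _ => if_neg (z g), zero_add,
    eq_comm, Finset.sum_congr rfl (g := fun _ => ∑ g : End F V, cusp b V g * Ψ g.charpoly) fun v hv => ?_, Finset.sum_const,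
    Finset.card_erase_of_mem (Finset.mem_univ _), Finset.card_univ, nsmul_eq_mul, Nat.cast_pred Fintype.card_pos]
  calc _ = ∑ W : Submodule F V, ∑ g : End F V, cusp b V g * if LinearMap.range (ev g v) = W then Ψ g.charpoly else 0 := by
        rw [Finset.sum_eq_single (⊤ : Submodule F V) (fun W _ hW => ?_) (by simp)]
        · refine Finset.sum_congr rfl fun g _ => ?_
          split_ifs with h
          exacts [by rw [cusp_cyc hΛ _ V g v rfl h], (mul_zero _).symm]
        by_cases c : v ∈ W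
        swap
        · exact Finset.sum_eq_zero fun g _ => by rw [if_neg fun t => c (t.le ⟨1, ev_one g v⟩), mul_zero]
        refine sum_cusp_mul hb (fun t => Finset.ne_of_mem_erase hv (t.le c)) hW _ (fun g h ξ => ?_)
          fun g h => if_neg fun t => h (by rw [← t]; exact ev_inv g v)
        have h' : ∀ x ∈ W, (g + ξ.1) x ∈ W := fun x hx => W.add_mem (h x hx) (ξ.2.2 x)
        have : ev (g + ξ.1) v = ev g v := LinearMap.ext fun P => by
          rw [← ev_restrict h ⟨v, c⟩, ← ev_restrict h' ⟨v, c⟩]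
          congr 3
          ext x; simp [ξ.2.1 x x.2]
        rw [this, charpoly_add_Xi h]
    _ = _ := by rw [Finset.sum_comm]; simp

variable {K : Type*} [Field K] [Fintype K] [Algebra F K]

/-- Sum of `θ` over the roots in `K`. -/
noncomputable def bb (θ : K → ℂ) (P : F[X]) : ℂ := Th θ (P.map (algebraMap F K))

theorem bb_mul (θ : K → ℂ) (P Q : F[X]) (hP : P.Monic) (hQ : Q.Monic) : bb θ (P * Q) = bb θ P + bb θ Q := by
  rw [bb, Polynomial.map_mul, Th_mul _ (hP.map _) (hQ.map _)]; rfl

/-- The twisted von Mangoldt function. -/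
noncomputable def Lam (θ : K → ℂ) (h : F[X]) : ℂ := ∑ α, if ∃ m, h = minpoly F α ^ (m + 1) then θ α else 0

variable [Fintype F]

theorem pow_eq_self_iff (α : K) (m : ℕ) : α ^ Fintype.card F ^ m = α ↔ (minpoly F α).natDegree ∣ m := by
  rw [(minpoly.irreducible (IsIntegral.of_finite F α)).natDegree_dvd_iff_dvd_X_pow_card_pow_sub_X, minpoly.dvd_iff]
  simp [sub_eq_zero]

theorem map_minpoly (α : K) : (minpoly F α).map (algebraMap F K) =
    ∏ i ∈ Finset.range (minpoly F α).natDegree, (X - C (α ^ Fintype.card F ^ i)) := by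
  have hm := minpoly.monic (IsIntegral.of_finite F α)
  have inj : ∀ i j, i < j → j < (minpoly F α).natDegree → α ^ Fintype.card F ^ i ≠ α ^ Fintype.card F ^ j :=
    fun i j h1 h2 e => by
      obtain ⟨k, rfl⟩ := Nat.exists_eq_add_of_lt h1
      have : α ^ Fintype.card F ^ (k + 1) = α := ((FiniteField.frobeniusAlgHom F K ^ i).injective (by
        simpa [AlgHom.coe_pow, FiniteField.coe_frobeniusAlgHom, pow_iterate, ← pow_mul, ← pow_add, add_comm, add_assoc,
          add_left_comm] using e)).symm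
      exact (Nat.le_of_dvd k.succ_pos ((pow_eq_self_iff α _).1 this)).not_gt (by omega)
  refine eq_of_monic_of_dvd_of_natDegree_le (monic_prod_of_monic _ _ fun _ _ => monic_X_sub_C _) (hm.map _)
    (Finset.prod_dvd_of_coprime (fun i hi j hj h => isCoprime_X_sub_C_of_isUnit_sub (sub_ne_zero.2 ?_).isUnit)
      fun i _ => dvd_iff_isRoot.2 ?_) (by rw [natDegree_finsetProd_X_sub_C_eq_card]; simp)
  · rcases lt_or_gt_of_ne h with h | h
    exacts [inj _ _ h (by simpa using hj), (inj _ _ h (by simpa using hi)).symm]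
  · have := aeval_algHom_apply (FiniteField.frobeniusAlgHom F K ^ i) α (minpoly F α)
    rw [minpoly.aeval, map_zero, AlgHom.coe_pow, FiniteField.coe_frobeniusAlgHom, pow_iterate] at this
    rwa [IsRoot, eval_map_algebraMap]

theorem bb_minpoly_pow (θ : K → ℂ) (α : K) (m : ℕ) :
    bb θ (minpoly F α ^ m) = ∑ i ∈ Finset.range (m * (minpoly F α).natDegree), θ (α ^ Fintype.card F ^ i) := by
  have hm := minpoly.monic (IsIntegral.of_finite F α)
  induction m with
  | zero => simp [bb, Th_one]
  | succ m ih =>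
    rw [pow_succ, bb_mul _ _ _ (hm.pow m) hm, ih, add_mul, one_mul, Finset.sum_range_add, bb, map_minpoly,
      Th_prod _ _ fun _ => monic_X_sub_C _]
    simp only [Th_X_sub_C, pow_add, pow_mul α, (pow_eq_self_iff α _).2 (dvd_mul_left _ m)]

theorem sum_Lam (θ : K → ℂ) (h : F[X]) (hm : h.Monic) :
    ∑ e ∈ @Finset.univ _ (fintypeSubtypeMonicDvd h hm.ne_zero), Lam θ e.1 = bb θ h := by
  simp only [Lam]
  rw [Finset.sum_comm]
  refine Finset.sum_congr rfl fun α _ => ?_
  have hi := minpoly.irreducible (IsIntegral.of_finite F α)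
  have hμ := minpoly.monic (IsIntegral.of_finite F α)
  obtain ⟨k, r, h1, rfl⟩ := WfDvdMonoid.max_power_factor hm.ne_zero hi
  have r0 : rootMultiplicity α (r.map (algebraMap F K)) = 0 :=
    rootMultiplicity_eq_zero fun t => h1 (minpoly.dvd F α (by rwa [IsRoot, eval_map_algebraMap] at t))
  have r1 : rootMultiplicity α ((minpoly F α).map (algebraMap F K)) = 1 :=
    le_antisymm (rootMultiplicity_le_one_of_separable (PerfectField.separable_of_irreducible hi).map α) ((rootMultiplicity_pos (hμ.map _).ne_zero).2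
      (by rw [IsRoot, eval_map_algebraMap, minpoly.aeval]))
  have r2 : ∀ k, rootMultiplicity α (((minpoly F α).map (algebraMap F K)) ^ k) = k := fun k => by
    induction k with
    | zero => simp
    | succ k ih => rw [pow_succ, rootMultiplicity_mul (((hμ.map _).pow k).mul (hμ.map _)).ne_zero, ih, r1]
  rw [Polynomial.map_mul, rootMultiplicity_mul (by
    rw [← Polynomial.map_mul]; exact (hm.map (algebraMap F K)).ne_zero), r0,
    Polynomial.map_pow, r2, ← Finset.sum_filter, Finset.sum_const, nsmul_eq_mul, add_zero]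
  congr 2
  refine (Finset.card_bij (fun m t => ⟨minpoly F α ^ (m + 1), hμ.pow _, (pow_dvd_pow _ (Finset.mem_range.1 t)).mul_right _⟩)
    (fun m _ => Finset.mem_filter.2 ⟨@Finset.mem_univ _ (_) _, m, rfl⟩) (fun _ _ _ _ e => ?_) ?_).symm.trans
    (Finset.card_range k)
  · exact Nat.succ_injective (pow_injective_of_not_isUnit hi.not_isUnit hi.ne_zero (congrArg Subtype.val e))
  · rintro ⟨e, e1, e2⟩ t
    obtain ⟨-, m, rfl : e = _⟩ := Finset.mem_filter.1 t
    refine ⟨m, Finset.mem_range.2 (by_contra fun c => h1 ?_), rfl⟩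
    exact (mul_dvd_mul_iff_left (pow_ne_zero k hi.ne_zero)).1 
      (((pow_succ _ k).symm.dvd.trans (pow_dvd_pow _ (by omega))).trans e2)

omit [Fintype F] in
theorem isUnit_iff_coeff (g : End F V) : IsUnit g ↔ g.charpoly.coeff 0 ≠ 0 := by
  rw [LinearMap.isUnit_iff_ker_eq_bot, ← constantCoeff_apply, Ne, LinearMap.charpoly_constantCoeff_eq_zero_iff,
    LinearMap.ker_eq_bot']
  simp only [not_exists, not_and, not_imp_not]

theorem inner_cusp [Nontrivial V] (_ : ∀ g : End F V, Decidable (IsUnit g)) {θ : K → ℂ} (h0 : θ 0 = 0) (θ' : K → ℂ) :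
    ((Fintype.card F : ℂ) ^ finrank F V - 1) *
      ∑ g : End F V, (if IsUnit g then cusp (bb θ) V g * conj (cusp (bb θ') V g) else 0) =
    Nat.card (V ≃ₗ[F] V) * ∑ α with α ^ Fintype.card F ^ finrank F V = α,
      θ α * conj (∑ i ∈ Finset.range (finrank F V), θ' (α ^ Fintype.card F ^ i)) := by
  let Ψ : F[X] → ℂ := fun P => if P.coeff 0 = 0 then 0 else conj (bb θ' P)
  have e1 : ∑ g : End F V, (if IsUnit g then cusp (bb θ) V g * conj (cusp (bb θ') V g) else 0) =
      ∑ g : End F V, cusp (bb θ) V g * Ψ g.charpoly := by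
    have t : ∀ N ∈ Finset.univ.erase (⊤ : Submodule F V), ∑ g : End F V, cusp (bb θ) V g *
        (if g.charpoly.coeff 0 = 0 then 0 else conj (pr (bb θ') g N)) = 0 := fun N hN => by
      by_cases c : N = ⊥
      · simp only [c, pr_bot (show bb θ' (1 : F[X]) = 0 by simp [bb, Th_one]), map_zero, ite_self, mul_zero,
          Finset.sum_const_zero]
      refine sum_cusp_mul (bb_mul θ) c (Finset.ne_of_mem_erase hN) _ (fun g h ξ => ?_) fun g h => by simp [pr, h]
      rw [charpoly_add_Xi h, pr_congr (f' := g) fun v hv => by simp [ξ.2.1 v hv]]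
    refine Eq.trans ?_ (sub_eq_self.2 (Finset.sum_eq_zero t))
    rw [Finset.sum_comm, ← Finset.sum_sub_distrib]
    refine Finset.sum_congr rfl fun g _ => ?_
    simp only [isUnit_iff_coeff, Ψ, cusp_eq (bb θ') g, ite_not]
    split_ifs <;> simp [mul_sub, Finset.mul_sum]
  have := Fintype.ofFinite V
  have n0 : 0 < finrank F V := finrank_pos
  rw [e1, ← Nat.cast_pow, ← Module.card_eq_pow_finrank, sum_cusp_cyc (bb_mul θ) (sum_Lam θ), Finset.sum_filter,
    Finset.mul_sum]
  calc _ = ∑ x : V × End F V, ∑ α, if LinearMap.range (ev x.2 x.1) = ⊤ ∧ ∃ m, x.2.charpoly = minpoly F α ^ (m + 1) then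
        θ α * Ψ x.2.charpoly else 0 := Finset.sum_congr rfl fun x _ => by
          split_ifs with h <;> simp [h, Lam, Finset.sum_mul]
    _ = _ := by
      rw [Finset.sum_comm]
      refine Finset.sum_congr rfl fun α _ => ?_
      have hμ := minpoly.monic (IsIntegral.of_finite F α)
      have dg : ∀ (g : End F V) m, g.charpoly = minpoly F α ^ m → finrank F V = m * (minpoly F α).natDegree :=
        fun g m e => by rw [← g.charpoly_natDegree, e, hμ.natDegree_pow]
      rw [Module.card_eq_pow_finrank (K := F) (V := V)]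
      simp only [pow_eq_self_iff]
      split_ifs with h
      swap
      · exact (Finset.sum_eq_zero fun x _ => if_neg fun ⟨_, m, t⟩ => h (dg _ _ t ▸ dvd_mul_left _ _)).trans (mul_zero _).symm
      obtain ⟨m, hm⟩ := h
      rw [mul_comm] at hm
      rcases eq_or_ne α 0 with rfl | a0
      · simp [h0]
      have t : ∀ g : End F V, (∃ k, g.charpoly = minpoly F α ^ (k + 1)) ↔ g.charpoly = minpoly F α ^ m := fun g =>
        ⟨fun ⟨k, e⟩ => by rw [e, Nat.eq_of_mul_eq_mul_right (minpoly.natDegree_pos (IsIntegral.of_finite F α))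
          (hm.symm.trans (dg g _ e))], fun e => ⟨m - 1, by
            rw [e, Nat.sub_add_cancel (Nat.pos_of_mul_pos_right (hm ▸ n0))]⟩⟩
      simp only [t]
      rw [← Finset.sum_filter, Finset.sum_congr rfl (g := fun _ => θ α * Ψ (minpoly F α ^ m)) fun x hx => by
        rw [(Finset.mem_filter.1 hx).2.2], Finset.sum_const, card_cyc (hμ.pow m) (by rw [hμ.natDegree_pow, hm]),
        nsmul_eq_mul, hm, ← bb_minpoly_pow]
      simp only [Ψ]
      rw [if_neg (by
        rw [← constantCoeff_apply, map_pow]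
        exact pow_ne_zero _ (minpoly.coeff_zero_ne_zero (IsIntegral.of_finite F α) a0))]

end CL.Green
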