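/-
Green's cuspidal characters of `GL n F`, part 4: the irreducible cuspidal characters (helper23).
-/
import Cfsg.Agent.Char.Cusp3
import Cfsg.Agent.Char.Exceptional

set_option autoImplicit false

namespace CL.Green

open Cfsg Polynomial Module CL.Char CL.GLn
open scoped Classical ComplexConjugate

variable {F : Type*} [Field F] [Fintype F]

theorem exists_field (n : ℕ) : ∃ (K : Type) (_ : Field K) (_ : Fintype K) (_ : Algebra F K),
    Fintype.card K = Fintype.card F ^ n.factorial ∧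
      ∀ P : F[X], P ≠ 0 → P.natDegree ≤ n → (P.map (algebraMap F K)).Splits := by
  obtain ⟨p, hp⟩ := CharP.exists F
  have : Fact p.Prime := ⟨CharP.char_is_prime F p⟩
  have : NeZero n.factorial := ⟨n.factorial_ne_zero⟩
  refine ⟨FiniteField.Extension F p n.factorial, inferInstance, Fintype.ofFinite _, inferInstance, by
    rw [Fintype.card_eq_nat_card, FiniteField.natCard_extension, Nat.card_eq_fintype_card], fun P => ?_⟩
  induction P using WfDvdMonoid.induction_on_irreducible with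
  | zero => simp
  | unit u hu => exact fun _ _ => .of_natDegree_eq_zero (by simp [natDegree_eq_zero_of_isUnit hu])
  | mul a i ha hi ih =>
    intro _ h
    rw [natDegree_mul hi.ne_zero ha] at h
    rw [Polynomial.map_mul]
    have d := hi.natDegree_dvd_iff_dvd_X_pow_card_pow_sub_X.1 (Nat.dvd_factorial (n := n) hi.natDegree_pos (by omega))
    refine .mul (Splits.of_dvd ?_ ?_ (Polynomial.map_dvd _ d)) (ih ha (by omega))
    · apply IsSplittingField.splits
    · exact map_ne_zero (FiniteField.X_pow_card_pow_sub_X_ne_zero _ n.factorial_ne_zero Finite.one_lt_card)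

theorem exists_faithful (K : Type*) [Field K] [Fintype K] : ∃ θ : K →* ℂ, θ 0 = 0 ∧ ∀ c, θ c = 1 → c = 1 := by
  have : NeZero (Nat.card Kˣ) := ⟨Nat.card_pos.ne'⟩
  let e : Kˣ ≃* rootsOfUnity (Nat.card Kˣ) ℂ := mulEquivOfCyclicCardEq (Complex.card_rootsOfUnity _).symm
  let θ := MulChar.ofUnitHom ((rootsOfUnity _ ℂ).subtype.comp e.toMonoidHom)
  refine ⟨θ, θ.map_zero, fun c h => ?_⟩
  rcases eq_or_ne c 0 with rfl | hc
  · exact (zero_ne_one (θ.map_zero.symm.trans h)).elim
  · exact congrArg Units.val (e.map_eq_one_iff.1 (Subtype.ext (Units.ext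
      ((MulChar.ofUnitHom_coe _ (Units.mk0 c hc)).symm.trans h))))

theorem sum_orth {K : Type*} [Field K] [Fintype K] {θ : K →* ℂ} (h0 : θ 0 = 0) (h1 : ∀ c, θ c = 1 → c = 1) {M : ℕ}
    (hM : 0 < M) (hd : M ∣ Fintype.card K - 1) {r : ℕ} (hr : r ≠ 0) (t : ℕ) :
    ∑ α with α ^ (M + 1) = α, θ α ^ r * conj (θ α ^ t) = if r ≡ t [MOD M] then (M : ℂ) else 0 := by
  obtain ⟨g, hg⟩ := IsCyclic.exists_ofOrder_eq_natCard (α := Kˣ)
  obtain ⟨a, ha⟩ := hd
  have : NeZero M := ⟨hM.ne'⟩
  have hω := (IsPrimitiveRoot.coe_units_iff.2 (IsPrimitiveRoot.orderOf g)).pow (orderOf_pos g) (a := a) (b := M) (by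
    rw [hg, Nat.card_units, Nat.card_eq_fintype_card, ha, mul_comm])
  generalize (g : K) ^ a = ω at hω
  have hζ : IsPrimitiveRoot (θ ω) M := ⟨by rw [← map_pow, hω.pow_eq_one, map_one],
    fun l hl => hω.dvd_of_pow_eq_one l (h1 _ (by rw [map_pow, hl]))⟩
  have z0 := hζ.ne_zero hM.ne'
  have e : θ ω ^ r * conj (θ ω ^ t) = 1 ↔ r ≡ t [MOD M] := by
    rw [map_pow conj, ← Complex.inv_eq_conj (hζ.norm'_eq_one hM.ne'), inv_pow, mul_inv_eq_one₀ (pow_ne_zero _ z0),
      (hζ.isOfFinOrder hM.ne').pow_eq_pow_iff_modEq, ← hζ.eq_orderOf]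
  rw [← Finset.sum_of_injOn (s := Finset.range M) (fun j => ω ^ j) (f := fun j => (θ ω ^ r * conj (θ ω ^ t)) ^ j)
    (fun i hi j hj => hω.pow_inj (by simpa using hi) (by simpa using hj))
    (fun j _ => by simp [pow_succ, pow_right_comm ω j, hω.pow_eq_one]) (fun α h1 h2 => ?_)
    fun j _ => by simp only [map_pow, mul_pow, ← pow_mul, mul_comm]]
  · split_ifs with h
    · simp only [e.2 h]; simp
    · rw [geom_sum_eq (e.not.2 h), mul_pow, ← map_pow conj, pow_right_comm, pow_right_comm _ t, hζ.pow_eq_one]; simp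
  · rcases eq_or_ne α 0 with rfl | a0
    · simp [h0, hr]
    obtain ⟨j, hj, rfl⟩ := hω.eq_pow_of_pow_eq_one (ξ := α)
      (mul_right_cancel₀ a0 (by simpa [pow_succ] using (Finset.mem_filter.1 h1).2))
    exact (h2 ⟨j, Finset.mem_coe.2 (Finset.mem_range.2 hj), rfl⟩).elim

variable [DecidableEq F] {n : ℕ}

/-- The natural representation. -/
noncomputable def nat (F : Type*) [Field F] (n : ℕ) : GL (Fin n) F →* End F (Fin n → F) :=
  (Matrix.toLinAlgEquiv' (R := F) (n := Fin n)).toMonoidHom.comp (Units.coeHom _)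

theorem sum_nat {_ : Fintype (End F (Fin n → F))} {_ : ∀ f : End F (Fin n → F), Decidable (IsUnit f)}
    (Φ : End F (Fin n → F) → ℂ) :
    ∑ g : GL (Fin n) F, Φ (nat F n g) = ∑ f : End F (Fin n → F), if IsUnit f then Φ f else 0 :=
  Finset.sum_of_injOn (nat F n) (fun _ _ _ _ h => Units.ext (Matrix.toLinAlgEquiv'.injective h))
    (fun _ _ => Finset.mem_univ _) (fun f _ h => if_neg fun t => h ⟨(t.map Matrix.toLinAlgEquiv'.symm).unit,
      Finset.mem_coe.2 (Finset.mem_univ _), Matrix.toLinAlgEquiv'.apply_symm_apply f⟩)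
    fun g _ => (if_pos ((Group.isUnit g).map _)).symm

theorem sum_unipotent {b : F[X] → ℂ} (hb : ∀ P Q : F[X], P.Monic → Q.Monic → b (P * Q) = b P + b Q) {m : ℕ}
    (h1 : 0 < m) (h2 : m < n) : (∑ g : GL (Fin n) F, if (∀ i j : Fin n, ¬ (i.val < m ∧ m ≤ j.val) →
      (g : Matrix (Fin n) (Fin n) F) i j = (1 : Matrix (Fin n) (Fin n) F) i j) then cusp b _ (nat F n g) else 0) = 0 := by
  let W : Submodule F (Fin n → F) := ⟨⟨⟨{x | ∀ j : Fin n, m ≤ j.val → x j = 0}, fun h h' j hj => by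
    simp [h j hj, h' j hj]⟩, fun _ _ => rfl⟩, fun c _ h j hj => by simp [h j hj]⟩
  have hW : ∀ x, x ∈ W ↔ ∀ j : Fin n, m ≤ j.val → x j = 0 := fun x => Iff.rfl
  have t : ∀ g : GL (Fin n) F, (∀ i j : Fin n, ¬ (i.val < m ∧ m ≤ j.val) →
      (g : Matrix (Fin n) (Fin n) F) i j = (1 : Matrix (Fin n) (Fin n) F) i j) ↔ nat F n g - 1 ∈ Xi W := fun g => by
    have e : ∀ x i, (nat F n g - 1) x i = ∑ j, ((g : Matrix (Fin n) (Fin n) F) i j - (1 : Matrix _ _ F) i j) * x j :=
      fun x i => by simp [nat, Matrix.mulVec, dotProduct, sub_mul, Matrix.one_apply]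
    refine ⟨fun h => ⟨fun x hx => funext fun i => ?_, fun x => (hW _).2 fun i hi => ?_⟩, fun h i j c => ?_⟩
    · refine (e x i).trans (Finset.sum_eq_zero fun j _ => ?_)
      by_cases c : m ≤ j.val
      · rw [(hW x).1 hx j c, mul_zero]
      · rw [h i j fun t => c t.2, sub_self, zero_mul]
    · exact (e x i).trans (Finset.sum_eq_zero fun j _ => by rw [h i j fun t => t.1.not_ge hi, sub_self, zero_mul])
    · have := e (Pi.single j 1) i
      rw [Finset.sum_eq_single j (fun k _ hk => by simp [hk]) (by simp), Pi.single_eq_same, mul_one] at this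
      rw [← sub_eq_zero, ← this]
      by_cases c' : m ≤ j.val
      · exact (hW _).1 (h.2 _) i (by omega)
      · rw [h.1 _ ((hW _).2 fun k hk => Pi.single_eq_of_ne (by rintro rfl; exact c' hk) _)]; rfl
  simp only [t]
  rw [@sum_nat F _ _ _ n (finEnd ..) (fun _ => Classical.propDecidable _) fun f => if f - 1 ∈ Xi W then cusp b _ f else 0]
  refine Eq.trans ?_ (sum_cusp hb _ _ W 1 rfl (fun e => ?_) (fun e => ?_) fun _ h => h)
  · refine (Finset.sum_of_injOn (fun ξ : Xi W => 1 + ξ.1) (fun _ _ _ _ h => Subtype.ext (add_left_cancel h))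
      (fun _ _ => Finset.mem_univ _) (fun f _ h => ?_) fun ξ _ => ?_).symm
    · rw [if_neg fun t => h ⟨⟨_, t⟩, Finset.mem_coe.2 (Finset.mem_univ _), by simp⟩, ite_self]
    · rw [if_pos ((isUnit_iff_coeff _).2 (by
        rw [charpoly_add_Xi fun _ h => by exact h]; exact (isUnit_iff_coeff _).1 isUnit_one)), if_pos (by simp)]
  · simpa using congrFun (e.le ((hW (Pi.single ⟨0, by omega⟩ 1)).2 fun k hk => Pi.single_eq_of_ne
      (by rintro rfl; exact hk.not_gt h1) _)) ⟨0, by omega⟩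
  · simpa using (hW 1).1 (e.ge Submodule.mem_top) ⟨m, h2⟩ le_rfl

theorem exists_family (hn : 0 < n) : ∃ (N : ℕ) (χ : ℕ → GL (Fin n) F → ℂ), N ≠ 0 ∧ Fintype.card F ^ n - 1 ∣ N ∧
    (∀ r, r ≠ 0 → r.Coprime N → IsGeneralizedCharacter _ (χ r) ∧
      χ r 1 = ∏ i ∈ Finset.Ico 1 n, ((Fintype.card F : ℂ) ^ i - 1) ∧ ∀ m : ℕ, 0 < m → m < n →
      (∑ g : GL (Fin n) F, if (∀ i j : Fin n, ¬ (i.val < m ∧ m ≤ j.val) →
        (g : Matrix (Fin n) (Fin n) F) i j = (1 : Matrix (Fin n) (Fin n) F) i j) then χ r g else 0) = 0) ∧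
    ∀ r s, r ≠ 0 → classInner (χ r) (χ s) =
      ((Finset.range n).filter fun i => r ≡ Fintype.card F ^ i * s [MOD Fintype.card F ^ n - 1]).card := by
  obtain ⟨K, _, _, _, hK, hs⟩ := exists_field (F := F) n
  obtain ⟨θ, h0, h1⟩ := exists_faithful K
  have q1 : 1 < Fintype.card F ^ n := Nat.one_lt_pow hn.ne' Fintype.one_lt_card
  have hd : Fintype.card F ^ n - 1 ∣ Fintype.card K - 1 := by
    rw [hK]; exact Nat.pow_sub_one_dvd_pow_sub_one _ (Nat.dvd_factorial hn le_rfl)
  have fr : finrank F (Fin n → F) = n := finrank_fin_fun F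
  refine ⟨Fintype.card K - 1, fun r g => (-1) ^ (n - 1) * cusp (bb fun α => θ α ^ r) _ (nat F n g),
    (Nat.sub_pos_of_lt Fintype.one_lt_card).ne', hd, fun r r0 hr => ⟨?_, ?_, fun m m1 m2 => ?_⟩, fun r s r0 => ?_⟩
  · have := (genChar_cusp (b := bb fun α => θ α ^ r) n (fun G _ _ V _ _ _ ρ h => lift ((powMonoidHom r).comp θ)
      (fun c hc => ?_) ρ fun g => hs _ (LinearMap.charpoly_monic _).ne_zero (by rwa [LinearMap.charpoly_natDegree]))
      n _ _ (nat F n) fr le_rfl).intCast_smul ((-1) ^ (n - 1))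
    · convert this using 1; ext; simp
    have c1 : c ^ r = 1 := h1 _ ((map_pow θ c r).trans hc)
    have := pow_gcd_eq_one.2 ⟨c1, FiniteField.pow_card_sub_one_eq_one c (by rintro rfl; simp [r0] at c1)⟩
    rwa [hr, pow_one] at this
  · simp only [map_one, cusp_one (bb_mul _) n _ fr, bb, cq, if_neg hn.ne']
    rw [← C_1, Polynomial.map_sub, map_X, map_C, Th_X_sub_C, ← Nat.card_Ico 1 n, ← Finset.prod_const, map_one, map_one,
      one_pow, one_mul, ← Finset.prod_mul_distrib]
    simp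
  · simp only [← mul_ite_zero, ← Finset.mul_sum, sum_unipotent (bb_mul _) m1 m2, mul_zero]
  · have : Nontrivial (Fin n → F) := finrank_pos_iff.1 (fr.symm ▸ hn)
    have e := inner_cusp (F := F) (V := Fin n → F) (fun _ => Classical.propDecidable _) (θ := fun α => θ α ^ r) 
      (by simp [h0, r0]) fun α => θ α ^ s
    have c : (Fintype.card F : ℂ) ^ n - 1 = (Fintype.card F ^ n - 1 : ℕ) := by simp [Nat.cast_sub q1.le]
    have e0 := @sum_nat F _ _ _ n (finEnd ..) (fun _ => Classical.propDecidable _) fun g =>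
      cusp (bb fun α => θ α ^ r) _ g * conj (cusp (bb fun α => θ α ^ s) _ g)
    rw [← e0, fr, ← Nat.card_congr ((Matrix.GeneralLinearGroup.toLin
      (n := Fin n) (R := F)).trans (LinearMap.GeneralLinearGroup.generalLinearEquiv F _)).toEquiv, c] at e
    simp only [map_sum, Finset.mul_sum (s := Finset.range n), map_pow θ, ← pow_mul] at e
    have o := sum_orth h0 h1 (Nat.sub_pos_of_lt q1) hd r0
    rw [Nat.sub_add_cancel q1.le] at o
    rw [Finset.sum_comm] at e
    simp only [o, ← Finset.sum_filter, Finset.sum_const, nsmul_eq_mul] at e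
    have s1 : ∀ a b : ℂ, (-1) ^ (n - 1) * a * conj ((-1) ^ (n - 1) * b) = a * conj b := fun a b => by
      rw [map_mul, map_pow, map_neg, map_one, mul_mul_mul_comm, ← mul_pow]; simp
    simp only [classInner_def, s1]
    rw [inv_mul_eq_iff_eq_mul₀ natCard_ne_zero]
    exact mul_left_cancel₀ (Nat.cast_ne_zero.2 (Nat.sub_pos_of_lt q1).ne') (e.trans (by ring))

end CL.Green
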