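/-
Perfect groups with an involution whose centralizer is dihedral of order 8 have order 168 or 360.
-/
import Cfsg.Agent.Char.BSChar
import Cfsg.Agent.Char.ClassAlg
import Cfsg.Agent.Char.Linear
import Cfsg.Agent.Transfer.Control
import Cfsg.Agent.Blk.Column

set_option autoImplicit false

open scoped ComplexConjugate
open Subgroup CL.Grp Cfsg

namespace CL.Char

theorem d8c_num1 {m d : ℤ} (hm : Odd m) (hd : 0 < d) (h : m * (d - 1) ^ 2 = 32 * d * (d + 1)) : m = 45 := by
  obtain ⟨e, he | he⟩ := Int.even_or_odd' d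
  · subst he
    have h1 : IsCoprime ((2 * e - 1) ^ 2) (32 * (2 * e) * (2 * e + 1)) := by
      refine IsCoprime.pow_left ?_
      have a1 : IsCoprime (2 * e - 1) 2 := ⟨-1, e, by ring⟩
      have a2 : IsCoprime (2 * e - 1) (2 * e) := ⟨-1, 1, by ring⟩
      have a3 : IsCoprime (2 * e - 1) (2 * e + 1) := ⟨-(e + 1), e, by ring⟩
      have a4 : IsCoprime (2 * e - 1) 32 := by simpa using a1.pow_right (n := 5)
      exact (a4.mul_right a2).mul_right a3
    have h2 : IsUnit ((2 * e - 1) ^ 2) := h1.isUnit_of_dvd' dvd_rfl ⟨m, by linear_combination -h⟩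
    have h3 : (2 * e - 1) ^ 2 = 1 := by
      rcases Int.isUnit_iff.1 h2 with h3 | h3
      · exact h3
      · nlinarith [sq_nonneg (2 * e - 1)]
    have h4 : e = 1 := by nlinarith
    subst h4
    obtain ⟨k, rfl⟩ := hm
    omega
  · subst he
    have h0 : m * e ^ 2 = 16 * ((2 * e + 1) * (e + 1)) := by nlinarith
    have h1 : IsCoprime (e ^ 2) ((2 * e + 1) * (e + 1)) := by
      refine IsCoprime.pow_left ?_
      have a1 : IsCoprime e (2 * e + 1) := ⟨-2, 1, by ring⟩
      have a2 : IsCoprime e (e + 1) := ⟨-1, 1, by ring⟩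
      exact a1.mul_right a2
    have h2 : e ^ 2 ∣ 16 := h1.dvd_of_dvd_mul_right ⟨m, by linear_combination -h0⟩
    have h3 : e ^ 2 ≤ 16 := Int.le_of_dvd (by norm_num) h2
    have h4 : 0 ≤ e := by omega
    have h5 : e ≤ 4 := by nlinarith
    obtain ⟨k, rfl⟩ := hm
    interval_cases e <;> omega

theorem d8c_num2 {m d : ℤ} (hm : Odd m) (hd : 0 < d) (h : m * (d + 2) ^ 2 = 32 * d * (d + 1)) : m = 21 := by
  obtain ⟨e, he | he⟩ := Int.even_or_odd' d
  · subst he
    have h0 : m * (e + 1) ^ 2 = 16 * (e * (2 * e + 1)) := by nlinarith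
    have h1 : IsCoprime ((e + 1) ^ 2) (e * (2 * e + 1)) := by
      refine IsCoprime.pow_left ?_
      have a1 : IsCoprime (e + 1) (2 * e + 1) := ⟨2, -1, by ring⟩
      have a2 : IsCoprime (e + 1) e := ⟨1, -1, by ring⟩
      exact a2.mul_right a1
    have h2 : (e + 1) ^ 2 ∣ 16 := h1.dvd_of_dvd_mul_right ⟨m, by linear_combination -h0⟩
    have h3 : (e + 1) ^ 2 ≤ 16 := Int.le_of_dvd (by norm_num) h2
    have h4 : 1 ≤ e := by omega
    have h5 : e ≤ 3 := by nlinarith
    obtain ⟨k, rfl⟩ := hm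
    interval_cases e <;> omega
  · subst he
    have h1 : IsCoprime ((2 * e + 1 + 2) ^ 2) (32 * (2 * e + 1) * (2 * e + 1 + 1)) := by
      refine IsCoprime.pow_left ?_
      have a1 : IsCoprime (2 * e + 1 + 2) 2 := ⟨1, -(e + 1), by ring⟩
      have a2 : IsCoprime (2 * e + 1 + 2) (2 * e + 1) := ⟨-e, e + 1, by ring⟩
      have a3 : IsCoprime (2 * e + 1 + 2) (2 * e + 1 + 1) := ⟨1, -1, by ring⟩
      have a4 : IsCoprime (2 * e + 1 + 2) 32 := by simpa using a1.pow_right (n := 5)
      exact (a4.mul_right a2).mul_right a3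
    have h2 : IsUnit ((2 * e + 1 + 2) ^ 2) := h1.isUnit_of_dvd' dvd_rfl ⟨m, by linear_combination -h⟩
    rcases Int.isUnit_iff.1 h2 with h3 | h3 <;> nlinarith

variable {G : Type*} [Group G]

theorem d8c_mem_zpowers {x c : G} (hx : orderOf x = 4) (hc : c ∈ zpowers x) :
    c = 1 ∨ c = x ∨ c = x ^ 2 ∨ c = x ^ 3 := by
  classical
  have hf : IsOfFinOrder x := orderOf_pos_iff.1 (by omega)
  rw [← hf.mem_powers_iff_mem_zpowers, hf.mem_powers_iff_mem_range_orderOf, hx] at hc
  simp only [Finset.mem_image, Finset.mem_range] at hc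
  obtain ⟨i, hi, rfl⟩ := hc
  interval_cases i <;> simp

theorem d8c_sq_mem {x c : G} (hx : orderOf x = 4) (hc : c ∈ zpowers x) (h1 : c ≠ 1) :
    c = x ^ 2 ∨ c ^ 2 = x ^ 2 := by
  have h4 : x ^ 4 = 1 := hx ▸ pow_orderOf_eq_one x
  rcases d8c_mem_zpowers hx hc with h | h | h | h
  · exact absurd h h1
  · exact Or.inr (by rw [h])
  · exact Or.inl h
  · exact Or.inr (by rw [h, ← pow_mul, show 3 * 2 = 4 + 2 from rfl, pow_add, h4, one_mul])

theorem d8c_eq_of_invol {x c : G} (hx : orderOf x = 4) (hc : c ∈ zpowers x) (h2 : orderOf c = 2) :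
    c = x ^ 2 := by
  have h1 : c ≠ 1 := by rintro rfl; simp at h2
  rcases d8c_sq_mem hx hc h1 with h | h
  · exact h
  · rw [← h2, pow_orderOf_eq_one, h2] at h
    have := orderOf_dvd_of_pow_eq_one h.symm
    rw [hx] at this
    omega

theorem d8c_main [Finite G] (hperf : commutator G = ⊤) {x y : G} (hx : orderOf x = 4) (hy2 : y * y = 1)
    (hyx : y * x * y⁻¹ = x⁻¹) (hyn : y ∉ zpowers x)
    (hD : ∀ g, g ∈ centralizer ({x ^ 2} : Set G) ↔ g ∈ zpowers x ∨ g * y⁻¹ ∈ zpowers x)
    (hcard : Nat.card (centralizer ({x ^ 2} : Set G)) = 8)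
    (hodd : Odd (centralizer ({x ^ 2} : Set G)).index) : Nat.card G = 168 ∨ Nat.card G = 360 := by
  classical
  have := Fintype.ofFinite G
  set t := x ^ 2 with ht
  have ht2 : orderOf t = 2 := by rw [ht, orderOf_pow_of_dvd two_ne_zero (by rw [hx]; norm_num), hx]
  have htt : t * t = 1 := by rw [← pow_two, ← ht2, pow_orderOf_eq_one]
  have hM : Nat.card (zpowers x) = 4 := by rw [Nat.card_zpowers, hx]
  have hMD : zpowers x ≤ centralizer ({t} : Set G) := fun g hg => (hD g).2 (Or.inl hg)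
  have hrel : (zpowers x).relIndex (centralizer ({t} : Set G)) = 2 := by
    have := card_mul_index ((zpowers x).subgroupOf (centralizer ({t} : Set G)))
    rw [Nat.card_congr (subgroupOfEquivOfLe hMD).toEquiv, hM, hcard] at this
    unfold relIndex
    omega
  have hconj : ∀ u : G, orderOf u = 2 → IsConj t u := by
    intro u hu
    by_contra hn
    obtain ⟨N, hN, hN2, -⟩ := CL.Transfer.thompson_transfer _ _ hodd hrel u (hu ▸ pow_orderOf_eq_one u)
      (fun g hg => hn (isConj_iff.2 ⟨g, d8c_eq_of_invol hx hg (by rw [CL.Blk.orderOf_conj', hu])⟩).symm)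
    have h1 : commutator G ≤ N := by
      have : Fact (Nat.card (G ⧸ N)).Prime := ⟨by rw [← index_eq_card, hN2]; exact Nat.prime_two⟩
      have hc : IsCyclic (G ⧸ N) := isCyclic_of_prime_card rfl
      exact Normal.quotient_commutative_iff_commutator_le.1 hc.isMulCommutative
    rw [hperf, top_le_iff] at h1
    rw [h1, index_top] at hN2
    omega
  have hyC : ∀ c ∈ zpowers x, y * c * y⁻¹ = c⁻¹ := by
    rintro c ⟨i, rfl⟩
    simp only
    rw [← conj_zpow, hyx, inv_zpow]
  have hyC' : ∀ c ∈ zpowers x, y * c * y⁻¹ ∈ zpowers x := fun c hc => by rw [hyC c hc]; exact inv_mem hc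
  have hcen : ∀ c ∈ zpowers x, c ≠ 1 → ∀ g : G, g * c * g⁻¹ ∈ zpowers x → g ∈ centralizer ({t} : Set G) := by
    intro c hc h1 g hg
    rw [mem_centralizer_singleton_iff, ← mul_inv_eq_iff_eq_mul]
    refine d8c_eq_of_invol hx ?_ (by rw [CL.Blk.orderOf_conj', ht2])
    rcases d8c_sq_mem hx hc h1 with h | h
    · rwa [ht, ← h]
    · rw [ht, ← h, ← conj_pow]; exact pow_mem hg 2
  have hgen : ∀ c : zpowers x, c ∈ zpowers (⟨x, mem_zpowers x⟩ : zpowers x) := by
    rintro ⟨c, i, rfl⟩
    exact ⟨i, rfl⟩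
  let lam : zpowers x →* ℂˣ := monoidHomOfForallMemZpowers hgen (g' := Units.mk0 Complex.I Complex.I_ne_zero) (by
    rw [← Subgroup.orderOf_coe, hx]
    apply orderOf_dvd_of_pow_eq_one
    ext
    simp)
  have hlam : (lam ⟨x, mem_zpowers x⟩ : ℂ) = Complex.I := by
    simp only [lam, monoidHomOfForallMemZpowers_apply_gen, Units.val_mk0]
  have hlam1 : lam ≠ 1 := by
    intro h
    rw [h] at hlam
    have := congrArg Complex.im hlam
    simp at this
  obtain ⟨χ₁, χ₂, h₁, h₂, h11, h21, h12, hθ⟩ := bs_exists_irr hyn hyC' lam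
    (fun c hc g hg => (hD g).1 (hcen c c.2 (fun h => hc (by rw [show c = 1 from Subtype.ext h, map_one])) g hg))
    ⟨x, mem_zpowers x⟩ (fun h => by
      rw [h] at hlam
      have := congrArg Complex.im hlam
      simp at this) (fun h => by
      have h1 : (⟨y * x * y⁻¹, hyC' x (mem_zpowers x)⟩ : zpowers x) = (⟨x, mem_zpowers x⟩ : zpowers x)⁻¹ :=
        Subtype.ext hyx
      have h2 := congrArg (fun z : ℂˣ => (z : ℂ).im) h
      simp only [h1, map_inv, Units.val_inv_eq_inv_val, hlam, Complex.inv_I, Complex.neg_im,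
        Complex.I_im] at h2
      norm_num at h2)
  set φ : zpowers x → ℂ := fun c => 1 - (lam c : ℂ) with hφ
  have hφc : IsClassFunction (zpowers x) φ :=
    (isClassFunction_const 1).sub (isIrrCharacter_linear lam).isClassFunction
  have htM : t ∈ zpowers x := pow_mem (mem_zpowers x) 2
  have hφt : φ ⟨t, htM⟩ = 2 := by
    have : (⟨t, htM⟩ : zpowers x) = ⟨x, mem_zpowers x⟩ ^ 2 := rfl
    simp only [hφ, this, map_pow, Units.val_pow_eq_pow_val, hlam, Complex.I_sq]
    norm_num
  have ht1 : t ≠ 1 := by intro h; rw [h, orderOf_one] at ht2; omega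
  have e1 : 1 + χ₂ t - χ₁ t = 4 := by
    rw [← hθ, bs_indFun_apply hyn hyC' hφc ⟨t, htM⟩ (fun g hg => (hD g).1 (hcen t htM ht1 g hg))]
    have : (⟨y * t * y⁻¹, hyC' t htM⟩ : zpowers x) = ⟨t, htM⟩ :=
      Subtype.ext ((hyC t htM).trans (inv_eq_of_mul_eq_one_right htt))
    simp only [this, hφt]
    norm_num
  have e0 : 1 + χ₂ 1 - χ₁ 1 = 0 := by
    rw [← hθ, indFun_one]
    simp [hφ]
  -- the count
  have hinv : ∀ c ∈ zpowers x, orderOf (c * y) = 2 := by
    intro c hc
    refine orderOf_eq_prime ?_ fun h => hyn ?_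
    · rw [pow_two]
      have := hyC c hc
      rw [inv_eq_of_mul_eq_one_right hy2] at this
      rw [mul_assoc, ← mul_assoc y, this, mul_inv_cancel]
    · rw [eq_inv_of_mul_eq_one_right h]; exact inv_mem hc
  set J : Finset G := Finset.univ.image fun c : zpowers x => (c : G) * y with hJ
  have hJI : J ⊆ Finset.univ.filter fun a => IsConj t a := by
    intro a ha
    obtain ⟨c, -, rfl⟩ := Finset.mem_image.1 ha
    exact Finset.mem_filter.2 ⟨Finset.mem_univ _, hconj _ (hinv c c.2)⟩
  have hord : ∀ a, IsConj t a → orderOf a = 2 := fun a ha => by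
    obtain ⟨c, rfl⟩ := isConj_iff.1 ha
    rw [CL.Blk.orderOf_conj', ht2]
  have hkey : ∀ a b, IsConj t a → IsConj t b → extendByZero _ φ (a * b) ≠ 0 → a ∈ J ∧ b ∈ J := by
    intro a b ha hb hne
    have hab : a * b ∈ zpowers x := by
      by_contra h
      exact hne (extendByZero_of_not_mem φ h)
    have hab1 : a * b ≠ 1 := by
      intro h
      apply hne
      rw [h, extendByZero_one]
      simp [hφ]
    have ha2 := classAlg_mul_self_of_isConj htt ha
    have hb2 := classAlg_mul_self_of_isConj htt hb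
    have haD := hcen _ hab hab1 a (by
      have : a * (a * b) * a⁻¹ = (a * b)⁻¹ := by
        rw [← mul_assoc, ha2, one_mul, mul_inv_rev, inv_eq_of_mul_eq_one_right hb2]
      rw [this]; exact inv_mem hab)
    have hbD : b ∈ centralizer ({t} : Set G) := by
      simpa using mul_mem (inv_mem haD) (hMD hab)
    have haM : a ∉ zpowers x := by
      intro h
      have hb' : b ∈ zpowers x := by simpa using mul_mem (inv_mem h) hab
      rw [d8c_eq_of_invol hx h (hord a ha), d8c_eq_of_invol hx hb' (hord b hb)] at hab1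
      exact hab1 htt
    have hbM : b ∉ zpowers x := fun h => haM (by simpa using mul_mem hab (inv_mem h))
    exact ⟨Finset.mem_image.2 ⟨⟨_, ((hD a).1 haD).resolve_left haM⟩, Finset.mem_univ _, by simp⟩,
      Finset.mem_image.2 ⟨⟨_, ((hD b).1 hbD).resolve_left hbM⟩, Finset.mem_univ _, by simp⟩⟩
  have hinj : ∀ c ∈ (Finset.univ : Finset (zpowers x)), ∀ c' ∈ (Finset.univ : Finset (zpowers x)),
      (c : G) * y = (c' : G) * y → c = c' := fun c _ c' _ h => Subtype.ext (mul_right_cancel h)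
  have hsum : ∑ a with IsConj t a, ∑ b with IsConj t b, extendByZero _ φ (a * b) = 16 := by
    rw [← Finset.sum_subset hJI (fun a ha haJ => Finset.sum_eq_zero fun b hb => by
      by_contra hne
      exact haJ (hkey a b (Finset.mem_filter.1 ha).2 (Finset.mem_filter.1 hb).2 hne).1)]
    rw [Finset.sum_congr rfl (fun a ha => (Finset.sum_subset hJI (fun b hb hbJ => by
      by_contra hne
      exact hbJ (hkey a b (Finset.mem_filter.1 (hJI ha)).2 (Finset.mem_filter.1 hb).2 hne).2)).symm)]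
    rw [hJ, Finset.sum_image hinj]
    have h4 : ∑ c : zpowers x, φ c = 4 := by
      simp only [hφ, Finset.sum_sub_distrib, sum_monoidHom_eq_zero hlam1, Finset.sum_const, Finset.card_univ,
        ← Nat.card_eq_fintype_card, hM]
      norm_num
    have h5 : ∀ c : zpowers x, ∑ b ∈ Finset.univ.image (fun c : zpowers x => (c : G) * y),
        extendByZero _ φ ((c : G) * y * b) = 4 := by
      intro c
      rw [Finset.sum_image hinj, ← h4, ← Equiv.sum_comp ((Equiv.inv _).trans (Equiv.mulLeft c)) φ]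
      refine Finset.sum_congr rfl fun c' _ => ?_
      have : (c : G) * y * (c' * y) = ((c * c'⁻¹ : zpowers x) : G) := by
        have := hyC c' c'.2
        rw [inv_eq_of_mul_eq_one_right hy2] at this
        rw [mul_assoc, ← mul_assoc y, this]
        rfl
      rw [this, extendByZero_coe]
      rfl
    simp only [h5, Finset.sum_const, Finset.card_univ, ← Nat.card_eq_fintype_card, hM]
    norm_num
  have hcount := classAlg_sum_indFun_mul (zpowers x) φ t t
  rw [hsum] at hcount
  simp only [hθ, Finset.sum_sub_distrib, Finset.sum_add_distrib, schurAvg_sum_class_mul h₁,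
    schurAvg_sum_class_mul h₂, Finset.sum_const, nsmul_eq_mul, mul_one] at hcount
  obtain ⟨m, hm⟩ : ∃ m, (centralizer ({t} : Set G)).index = m := ⟨_, rfl⟩
  have hG : Nat.card G = 8 * m := by rw [← hm, ← hcard, card_mul_index]
  have hi : (zpowers x).index = 2 * m := by
    have := card_mul_index (zpowers x)
    rw [hM, hG] at this
    omega
  have hcl : Nat.card {a : G // IsConj t a} = m := by rw [card_isConj_eq_index_centralizer, hm]
  have hcl' : (Finset.univ.filter fun a => IsConj t a).card = m := by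
    rw [← hcl, Nat.card_eq_fintype_card, Fintype.card_subtype]
  rw [hcl, hcl', hi] at hcount
  obtain ⟨a, ha, -⟩ := CL.Blk.exists_int_apply_of_mul_self h₂.isCharacter htt
  obtain ⟨d, hd, hd'⟩ := h₂.exists_nat_one
  have f1 : χ₁ t = a - 3 := by linear_combination ha - e1
  have f0 : χ₁ 1 = d + 1 := by linear_combination hd' - e0
  have hbound : 1 + a ^ 2 + (a - 3) ^ 2 ≤ 8 := by
    have h1 := sum_irr_norm_sq t
    rw [hcard] at h1
    have hne1 : irrOne G ≠ ⟨χ₂, h₂⟩ := fun h => h21 (congrArg Subtype.val h).symm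
    have hne2 : irrOne G ≠ ⟨χ₁, h₁⟩ := fun h => h11 (congrArg Subtype.val h).symm
    have hne3 : (⟨χ₂, h₂⟩ : IrrCharacter G) ≠ ⟨χ₁, h₁⟩ := fun h => h12 (congrArg Subtype.val h).symm
    have h2 := Finset.sum_le_sum_of_subset_of_nonneg (f := fun χ : IrrCharacter G => ‖(χ : G → ℂ) t‖ ^ 2)
      (Finset.subset_univ ({irrOne G, ⟨χ₂, h₂⟩, ⟨χ₁, h₁⟩} : Finset (IrrCharacter G)))
      (fun _ _ _ => by positivity)
    rw [h1, Finset.sum_insert (by simp [hne1, hne2]), Finset.sum_pair hne3] at h2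
    simp only [irrOne_apply, ha, f1, norm_one] at h2
    have e3 : ‖(a : ℂ) - 3‖ ^ 2 = ((a - 3) ^ 2 : ℤ) := by
      rw [show (a : ℂ) - 3 = ((a - 3 : ℤ) : ℂ) by push_cast; ring, Complex.norm_intCast, sq_abs]
      push_cast; ring
    have e4 : ‖(a : ℂ)‖ ^ 2 = (a ^ 2 : ℤ) := by
      rw [Complex.norm_intCast, sq_abs]; push_cast; ring
    rw [e3, e4] at h2
    have : ((1 + a ^ 2 + (a - 3) ^ 2 : ℤ) : ℝ) ≤ 8 := by push_cast at h2 ⊢; linarith
    exact_mod_cast this
  have hm0 : (m : ℂ) ≠ 0 := by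
    rw [← hm]; exact_mod_cast index_ne_zero_of_finite
  have hd0 : (d : ℂ) ≠ 0 := by exact_mod_cast hd.ne'
  have hd1 : (d : ℂ) + 1 ≠ 0 := by exact_mod_cast Nat.succ_ne_zero d
  rw [ha, hd', f1, f0] at hcount
  field_simp at hcount
  have hmo : Odd (m : ℤ) := by rw [← hm]; exact_mod_cast hodd
  have ha12 : a = 1 ∨ a = 2 := by
    have : 0 < a ∧ a < 3 := by constructor <;> nlinarith
    omega
  rcases ha12 with rfl | rfl
  · have : (m : ℤ) = 45 := d8c_num1 hmo (d := d) (by exact_mod_cast hd) (by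
      have : ((m * (d - 1) ^ 2 : ℤ) : ℂ) = (32 * d * (d + 1) : ℤ) := by
        push_cast at hcount ⊢
        apply mul_left_cancel₀ hm0
        linear_combination hcount
      exact_mod_cast this)
    omega
  · have : (m : ℤ) = 21 := d8c_num2 hmo (d := d) (by exact_mod_cast hd) (by
      have : ((m * (d + 2) ^ 2 : ℤ) : ℂ) = (32 * d * (d + 1) : ℤ) := by
        push_cast at hcount ⊢
        apply mul_left_cancel₀ hm0
        linear_combination hcount
      exact_mod_cast this)
    omega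

theorem d8c_card [Finite G] (hperf : commutator G = ⊤) {t : G} (ht : orderOf t = 2)
    (e : centralizer ({t} : Set G) ≃* DihedralGroup 4) : Nat.card G = 168 ∨ Nat.card G = 360 := by
  obtain ⟨a, b, h, hb2, hba⟩ := exists_dqsGen_of_dihedral (n := 2) le_rfl e
  have htD : t ∈ centralizer ({t} : Set G) := mem_centralizer_singleton_iff.2 rfl
  have hz : ∀ g : centralizer ({t} : Set G), g ∈ zpowers a ↔ (g : G) ∈ zpowers (a : G) := by
    intro g
    constructor
    · rintro ⟨k, rfl⟩; exact ⟨k, by simp⟩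
    · rintro ⟨k, hk⟩; exact ⟨k, Subtype.ext (by simpa using hk)⟩
  have ha4 : orderOf (a : G) = 4 := by rw [Subgroup.orderOf_coe, h.ord]; rfl
  have hcent : ∀ g : centralizer ({t} : Set G), g ∈ center _ → orderOf (g : G) = 2 → (g : G) = (a : G) ^ 2 := by
    intro g hg hg2
    rw [h.center_eq] at hg
    exact d8c_eq_of_invol ha4 ((hz g).1 ((zpowers_le.2 (pow_mem (mem_zpowers a) _)) hg)) hg2
  have hta : t = (a : G) ^ 2 :=
    hcent ⟨t, htD⟩ (mem_center_iff.2 fun g => Subtype.ext (mem_centralizer_singleton_iff.1 g.2)) ht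
  have hcard : Nat.card (centralizer ({t} : Set G)) = 8 := h.card
  have hsyl : IsSylowIn 2 (centralizer ({t} : Set G)) ⊤ := by
    refine isSylowIn_of_maximal le_top h.isPGroup fun U hU hDU _ => ?_
    by_contra hne
    have hlt := lt_inf_normalizer_of_isPGroup hU (lt_of_le_of_ne hDU (Ne.symm hne))
    refine hlt.not_ge fun g hg => ?_
    have hg' := mem_normalizer_iff.1 (inv_mem hg.2)
    have h1 : g * t * g⁻¹ ∈ centralizer ({t} : Set G) := (mem_normalizer_iff.1 hg.2 t).1 htD
    rw [mem_centralizer_singleton_iff, ← mul_inv_eq_iff_eq_mul, hta, ← hta]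
    refine (hcent ⟨_, h1⟩ (mem_center_iff.2 fun c => Subtype.ext ?_)
      (by rw [CL.Blk.orderOf_conj', ht])).trans hta.symm
    have h2 := mem_centralizer_singleton_iff.1 ((hg' c).1 c.2)
    simp only [coe_mul]
    calc (c : G) * (g * t * g⁻¹) = g * (g⁻¹ * c * g⁻¹⁻¹ * t) * g⁻¹ := by group
      _ = g * t * g⁻¹ * c := by rw [h2]; group
  have hodd : Odd (centralizer ({t} : Set G)).index := by
    have := hsyl.not_dvd
    rw [relIndex_top_right] at this
    exact Nat.odd_iff.2 (Nat.two_dvd_ne_zero.1 this)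
  refine d8c_main hperf (x := a) (y := b) ha4 (by rw [← pow_two]; exact congrArg Subtype.val hb2)
    (congrArg Subtype.val hba) (fun hb => h.notMem ((hz b).2 hb)) (fun g => ?_) (hta ▸ hcard) (hta ▸ hodd)
  rw [← hta]
  constructor
  · intro hg
    obtain ⟨i, hi | hi⟩ := h.elt ⟨g, hg⟩
    · exact Or.inl ⟨i, by simpa using (congrArg Subtype.val hi).symm⟩
    · refine Or.inr ⟨i, ?_⟩
      have := congrArg Subtype.val hi
      simp only [coe_mul, SubgroupClass.coe_zpow] at this
      simp [this]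
  · rintro (hg | hg)
    · exact zpowers_le.2 a.2 hg
    · simpa using mul_mem (zpowers_le.2 a.2 hg) b.2

end CL.Char
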