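/-
Dade's theorems on invariant characters of a normal subgroup of `p`-power index (Isaacs 8.24, 8.26).
-/
import Cfsg.Agent.Char.Brauer
import Cfsg.Agent.Char.Extension
import Cfsg.Agent.Char.Mackey
import Cfsg.Agent.Char.Triple

set_option autoImplicit false

open Cfsg
open scoped ComplexConjugate commutatorElement Pointwise

namespace CL.Char

/-- A sum of an orbit-invariant function is divisible by `p` when every orbit contributes a multiple of `p`. -/
theorem dvd_sum_of_orbits {α : Type*} [DecidableEq α] (s : Finset α) (O : α → Finset α) (w : α → ℤ) (p : ℤ)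
    (h1 : ∀ x ∈ s, x ∈ O x) (h2 : ∀ x ∈ s, ∀ y ∈ O x, y ∈ s ∧ O y = O x ∧ w y = w x)
    (h3 : ∀ x ∈ s, p ∣ (O x).card * w x) : p ∣ ∑ x ∈ s, w x := by
  classical
  rw [← Finset.sum_fiberwise_of_maps_to (s := s) (t := s.image O) (g := O)
    (fun x hx => Finset.mem_image_of_mem O hx)]
  refine Finset.dvd_sum fun S hS => ?_
  obtain ⟨x, hx, rfl⟩ := Finset.mem_image.1 hS
  have : s.filter (fun y => O y = O x) = O x := by
    ext y
    rw [Finset.mem_filter]
    constructor
    · rintro ⟨hy, h⟩
      rw [← h]; exact h1 y hy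
    · intro hy
      exact ⟨(h2 x hx y hy).1, (h2 x hx y hy).2.1⟩
  rw [this, Finset.sum_congr rfl (fun y hy => (h2 x hx y hy).2.2), Finset.sum_const, nsmul_eq_mul]
  exact h3 x hx

section

variable {H : Type*} [Group H] [Fintype H] {K : Subgroup H} [hK : K.Normal] [Fintype K]

theorem conjOrbit_eq_of_mem {θ φ : K → ℂ} (h : φ ∈ conjOrbit K θ) : conjOrbit K φ = conjOrbit K θ := by
  obtain ⟨g, rfl⟩ := mem_conjOrbit.1 h
  ext ψ
  rw [mem_conjOrbit, mem_conjOrbit]
  constructor
  · rintro ⟨x, rfl⟩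
    exact ⟨g * x, conjChar_mul g x θ⟩
  · rintro ⟨x, rfl⟩
    refine ⟨g⁻¹ * x, ?_⟩
    rw [← conjChar_mul, mul_inv_cancel_left]

/-- Two invariant characters of a normal subgroup of `p`-power index whose inner product is prime to `p` have a
common invariant irreducible constituent with multiplicities prime to `p`. -/
theorem exists_invariant_constituent_not_dvd {p k : ℕ} (hp : p.Prime) (hk : K.index = p ^ k) {α β : K → ℂ}
    (hα : IsCharacter K α) (hβ : IsCharacter K β) (hαi : ∀ g : H, conjChar K g α = α)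
    (hβi : ∀ g : H, conjChar K g β = β) {n : ℕ} (hn : classInner α β = n) (h : ¬ p ∣ n) :
    ∃ φ, IsIrrCharacter K φ ∧ (∀ g : H, conjChar K g φ = φ) ∧ ∃ m : ℕ, ¬ p ∣ m ∧ classInner β φ = m := by
  classical
  by_contra hcon
  push Not at hcon
  obtain ⟨a, ha, -⟩ := hα.exists_eq_sum_nat
  obtain ⟨b, hb, -⟩ := hβ.exists_eq_sum_nat
  have hsum : (n : ℤ) = ∑ χ : IrrCharacter K, (a χ * b χ : ℤ) := by
    have := hα.isClassFunction.classInner_eq_sum β
    rw [hn] at this
    have h2 : ((n : ℤ) : ℂ) = ((∑ χ : IrrCharacter K, (a χ * b χ : ℤ) : ℤ) : ℂ) := by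
      push_cast
      rw [this]
      refine Finset.sum_congr rfl fun χ _ => ?_
      rw [ha, hb, map_natCast]
    exact_mod_cast h2
  let O : IrrCharacter K → Finset (IrrCharacter K) := fun χ =>
    Finset.univ.filter (fun ψ => (ψ : K → ℂ) ∈ conjOrbit K (χ : K → ℂ))
  have hcard : ∀ χ, (O χ).card = (inertia K (χ : K → ℂ)).index := by
    intro χ
    rw [← card_conjOrbit]
    refine Finset.card_bij (fun ψ _ => (ψ : K → ℂ)) (fun ψ hψ => (Finset.mem_filter.1 hψ).2)
      (fun ψ _ ψ' _ h => Subtype.ext h) (fun φ hφ => ?_)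
    exact ⟨⟨φ, isIrrCharacter_of_mem_conjOrbit χ.2 hφ⟩, Finset.mem_filter.2 ⟨Finset.mem_univ _, hφ⟩, rfl⟩
  apply h
  have : (p : ℤ) ∣ n := by
    rw [hsum]
    refine dvd_sum_of_orbits Finset.univ O (fun χ => (a χ * b χ : ℤ)) p
      (fun χ _ => Finset.mem_filter.2 ⟨Finset.mem_univ _, self_mem_conjOrbit _⟩) (fun χ _ ψ hψ => ?_)
      (fun χ _ => ?_)
    · have hψ' := (Finset.mem_filter.1 hψ).2
      refine ⟨Finset.mem_univ _, ?_, ?_⟩
      · simp only [O, conjOrbit_eq_of_mem hψ']
      · obtain ⟨g, hg⟩ := mem_conjOrbit.1 hψ'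
        have e1 : (a ψ : ℂ) = a χ := by
          rw [← ha, ← ha, ← hg, ← classInner_conjChar g α (χ : K → ℂ), hαi]
        have e2 : (b ψ : ℂ) = b χ := by
          rw [← hb, ← hb, ← hg, ← classInner_conjChar g β (χ : K → ℂ), hβi]
        have e1' : a ψ = a χ := by exact_mod_cast e1
        have e2' : b ψ = b χ := by exact_mod_cast e2
        simp only [e1', e2']
    · rw [hcard]
      by_cases hI : inertia K (χ : K → ℂ) = ⊤
      · have hinv : ∀ g : H, conjChar K g (χ : K → ℂ) = χ := fun g =>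
          mem_inertia_iff.1 (hI ▸ Subgroup.mem_top g)
        have : p ∣ b χ := by
          by_contra hb'
          exact hcon χ χ.2 hinv (b χ) hb' (hb χ)
        exact Dvd.dvd.mul_left (Dvd.dvd.mul_left (Int.natCast_dvd_natCast.2 this) _) _
      · have hd : (inertia K (χ : K → ℂ)).index ∣ p ^ k :=
          hk ▸ Subgroup.index_dvd_of_le (le_inertia χ.2.isCharacter.isClassFunction)
        obtain ⟨j, -, hj⟩ := (Nat.dvd_prime_pow hp).1 hd
        have hj0 : j ≠ 0 := by
          rintro rfl
          exact hI (Subgroup.index_eq_one.1 (by simpa using hj))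
        refine Dvd.dvd.mul_right ?_ _
        rw [hj]
        exact_mod_cast dvd_pow_self p hj0
  exact_mod_cast this

end

variable {G : Type*} [Group G] [Fintype G]

/-- Dade's theorem (Isaacs 8.24), in the form with `N.subgroupOf E`. -/
theorem dade_exists_elementary {p k : ℕ} (hp : p.Prime) {N : Subgroup G} [hN : N.Normal]
    (hk : N.index = p ^ k) {θ : N → ℂ} (hθ : IsIrrCharacter N θ)
    (hinv : ∀ (g : G) (n : N), θ ⟨g * n * g⁻¹, hN.conj_mem n n.2 g⟩ = θ n) :
    ∃ (E : Subgroup G) (_ : Fintype E) (_ : Fintype (N.subgroupOf E)) (φ : N.subgroupOf E → ℂ),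
      IsElementary p E ∧ E ⊔ N = ⊤ ∧ IsIrrCharacter (N.subgroupOf E) φ ∧
      (∀ g : E, conjChar (N.subgroupOf E) g φ = φ) ∧
      ∃ m : ℕ, ¬ p ∣ m ∧ classInner (fun x : N.subgroupOf E => θ ⟨(x : E), x.2⟩) φ = m := by
  classical
  by_contra hcon
  push Not at hcon
  let F : G → ℂ := extendByZero N (fun n => θ n * conj (θ n))
  have hF : IsClassFunction G F := by
    intro g h
    by_cases hg : g ∈ N
    · simp only [F]
      rw [extendByZero_of_mem _ hg, extendByZero_of_mem _ (hN.conj_mem g hg h)]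
      have := hinv h ⟨g, hg⟩
      simp only at this
      rw [this]
    · have : h * g * h⁻¹ ∉ N := fun h' => hg (by simpa [mul_assoc] using hN.conj_mem _ h' h⁻¹)
      simp only [F]
      rw [extendByZero_of_not_mem _ hg, extendByZero_of_not_mem _ this]
  have key : ∀ f ∈ indSpan (fun E : Subgroup G => IsElementary p E),
      ∃ z : ℤ, (N.index : ℂ) * ((Nat.card G : ℂ)⁻¹ * ∑ g : G, f g * F g) = p * z := by
    intro f hf
    refine AddSubgroup.closure_induction (fun f hf => ?_) ⟨0, by simp⟩ ?_ ?_ hf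
    · obtain ⟨E, hE, ψ, hψ, rfl⟩ := hf
      rw [sum_indFun_mul ψ hF]
      let M := N.subgroupOf E
      let ι : M →* N := ((E.subtype.comp M.subtype).codRestrict N (fun x => x.2))
      have hβ : IsCharacter M (fun x : M => θ ⟨(x : E), x.2⟩) := hθ.isCharacter.comp ι
      have hα : IsCharacter M ((fun x : M => ψ x) * fun x : M => θ ⟨(x : E), x.2⟩) :=
        (hψ.restrict M).mul hβ
      obtain ⟨n, hn⟩ := hα.exists_nat_classInner hβ
      have hsum : ∑ e : E, ψ e * F e = Nat.card M * n := by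
        rw [← hn, classInner_def, ← mul_assoc, mul_inv_cancel₀ (natCard_group_ne_zero M), one_mul]
        have e1 : ∀ e : E, ψ e * F e =
            extendByZero M (fun x : M => θ ⟨(x : E), x.2⟩ * conj (θ ⟨(x : E), x.2⟩)) e * ψ e := by
          intro e
          by_cases he : e ∈ M
          · simp only [F]
            rw [extendByZero_of_mem _ he, extendByZero_of_mem _ (Subgroup.mem_subgroupOf.1 he), mul_comm]
          · simp only [F]
            rw [extendByZero_of_not_mem _ he,
              extendByZero_of_not_mem _ (fun h => he (Subgroup.mem_subgroupOf.2 h))]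
            simp
        rw [Finset.sum_congr rfl (fun e _ => e1 e), sum_extendByZero_mul]
        refine Finset.sum_congr rfl fun x _ => ?_
        simp only [Pi.mul_apply]
        ring
      have hidx : N.index = M.index * (E ⊔ N).index := by
        rw [← Subgroup.relIndex_mul_index (le_sup_right : N ≤ E ⊔ N), Subgroup.relIndex_sup_right]
        rfl
      have hcardE : (Nat.card E : ℂ) = Nat.card M * M.index := by
        rw [← M.card_mul_index]; push_cast; ring
      have hM0 : (M.index : ℂ) ≠ 0 := by exact_mod_cast M.index_ne_zero_of_finite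
      have hval : (N.index : ℂ) * ((Nat.card E : ℂ)⁻¹ * ∑ e : E, ψ e * F e) = ((E ⊔ N).index * n : ℕ) := by
        rw [hsum, hidx, hcardE]
        have := natCard_group_ne_zero M
        push_cast
        field_simp
      rw [hval]
      suffices hd : p ∣ (E ⊔ N).index * n by
        obtain ⟨z, hz⟩ := hd
        exact ⟨z, by rw [hz]; push_cast; ring⟩
      by_cases htop : E ⊔ N = ⊤
      · refine Dvd.dvd.mul_left ?_ _
        by_contra hpn
        have hMi : M.index = p ^ k := by rw [← hk, hidx, htop, Subgroup.index_top, mul_one]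
        have hβi : ∀ g : E, conjChar M g (fun x : M => θ ⟨(x : E), x.2⟩) = fun x : M => θ ⟨(x : E), x.2⟩ := by
          intro g
          funext x
          rw [conjChar_apply]
          exact hinv g ⟨(x : E), x.2⟩
        obtain ⟨φ, h1, h2, m, h3, h4⟩ := exists_invariant_constituent_not_dvd hp hMi hα hβ
          (fun g => by rw [conjChar_mul_fun, conjChar_res hψ.isClassFunction, hβi]) hβi hn hpn
        exact hcon E inferInstance inferInstance φ hE htop h1 h2 m h3 h4
      · refine Dvd.dvd.mul_right ?_ _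
        have hd : (E ⊔ N).index ∣ p ^ k := hk ▸ Subgroup.index_dvd_of_le le_sup_right
        obtain ⟨j, -, hj⟩ := (Nat.dvd_prime_pow hp).1 hd
        have hj0 : j ≠ 0 := by
          rintro rfl
          exact htop (Subgroup.index_eq_one.1 (by simpa using hj))
        rw [hj]
        exact dvd_pow_self p hj0
    · rintro f f' - - ⟨z, hz⟩ ⟨z', hz'⟩
      refine ⟨z + z', ?_⟩
      simp only [Pi.add_apply, add_mul, Finset.sum_add_distrib, mul_add]
      rw [hz, hz']; push_cast; ring
    · rintro f - ⟨z, hz⟩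
      refine ⟨-z, ?_⟩
      simp only [Pi.neg_apply, neg_mul, Finset.sum_neg_distrib, mul_neg]
      rw [hz]; push_cast; ring
  obtain ⟨m, hm, hmem⟩ := exists_const_mem_indSpan_elementary (G := G) hp
  obtain ⟨z, hz⟩ := key _ hmem
  have h1 : ∑ g : G, F g = Nat.card N := by
    simp only [F]
    rw [sum_extendByZero]
    have := hθ.classInner_self
    rw [classInner_def] at this
    have h0 := natCard_group_ne_zero N
    field_simp at this
    exact this
  rw [← Finset.mul_sum, h1, ← N.card_mul_index] at hz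
  have h0 := natCard_group_ne_zero N
  have hN0 : (N.index : ℂ) ≠ 0 := by exact_mod_cast N.index_ne_zero_of_finite
  push_cast at hz
  field_simp at hz
  apply hm
  exact ⟨z, by exact_mod_cast hz⟩

/-- The commutator subgroup of a `p`-elementary subgroup lies in the commutator subgroup of a `p`-subgroup. -/
theorem exists_commutator_le_of_isElementary {p : ℕ} [hp : Fact p.Prime] {E : Subgroup G}
    (hE : IsElementary p E) (P : Sylow p G) :
    ∃ g : G, ⁅E, E⁆ ≤ ⁅((g • P : Sylow p G) : Subgroup G), ((g • P : Sylow p G) : Subgroup G)⁆ := by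
  classical
  obtain ⟨C, hCE, -, hcent, -, k, hk⟩ := exists_of_isElementary hE
  obtain ⟨Q⟩ : Nonempty (Sylow p E) := inferInstance
  obtain ⟨R, hR⟩ := (Q.isPGroup'.map E.subtype).exists_le_sylow
  obtain ⟨g, rfl⟩ := MulAction.exists_smul_eq G P R
  refine ⟨g, ?_⟩
  have hCn : (C.subgroupOf E).Normal := by
    refine ⟨fun c hc e => ?_⟩
    rw [Subgroup.mem_subgroupOf] at hc ⊢
    have := (Subgroup.mem_centralizer_iff.1 (hcent e.2)) c hc
    simp only [Subgroup.coe_mul, Subgroup.coe_inv]
    rw [← this, mul_inv_cancel_right]; exact hc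
  have htop : C.subgroupOf E ⊔ (Q : Subgroup E) = ⊤ := by
    apply Subgroup.index_eq_one.1
    have h1 : (C.subgroupOf E ⊔ (Q : Subgroup E)).index ∣ p ^ k :=
      hk ▸ Subgroup.index_dvd_of_le le_sup_left
    have h2 : (C.subgroupOf E ⊔ (Q : Subgroup E)).index ∣ (Q : Subgroup E).index :=
      Subgroup.index_dvd_of_le le_sup_right
    obtain ⟨j, -, hj⟩ := (Nat.dvd_prime_pow hp.out).1 h1
    rcases Nat.eq_zero_or_pos j with rfl | hj0
    · simpa using hj
    · exact absurd ((hj ▸ dvd_pow_self p hj0.ne').trans h2) Q.not_dvd_index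
  have hdec : ∀ e ∈ E, ∃ c ∈ C, ∃ q ∈ ((g • P : Sylow p G) : Subgroup G), q ∈ E ∧ e = c * q := by
    intro e he
    obtain ⟨c, hc, q, hq, h⟩ := exists_mul_of_sup_eq_top (Or.inr hCn) htop ⟨e, he⟩
    exact ⟨c, hc, q, hR ⟨q, hq, rfl⟩, q.2, congrArg Subtype.val h⟩
  rw [Subgroup.commutator_le]
  intro a ha b hb
  obtain ⟨c, hc, q, hq, hqE, rfl⟩ := hdec a ha
  obtain ⟨d, hd, r, hr, hrE, rfl⟩ := hdec b hb
  have hcomm : ∀ x ∈ C, ∀ e ∈ E, x * e = e * x := fun x hx e he =>
    (Subgroup.mem_centralizer_iff.1 (hcent he)) x hx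
  have : ⁅c * q, d * r⁆ = ⁅q, r⁆ := by
    simp only [commutatorElement_def, mul_inv_rev]
    have e1 := hcomm c hc _ (E.mul_mem (E.mul_mem (E.mul_mem hqE (hCE hd)) hrE) (E.inv_mem hqE))
    have e2 := hcomm d hd _ (E.mul_mem (E.mul_mem hrE (E.inv_mem hqE)) (E.inv_mem hrE))
    calc c * q * (d * r) * (q⁻¹ * c⁻¹) * (r⁻¹ * d⁻¹)
        = (c * (q * d * r * q⁻¹)) * c⁻¹ * (r⁻¹ * d⁻¹) := by group
      _ = q * (d * (r * q⁻¹ * r⁻¹)) * d⁻¹ := by rw [e1]; group
      _ = q * r * q⁻¹ * r⁻¹ := by rw [e2]; group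
  rw [this]
  exact Subgroup.commutator_mem_commutator hq hr

/-- Dade's extension theorem (Isaacs 8.26): if `G/N` is a `p`-group and `P' ∩ N = 1` for a Sylow `p`-subgroup
`P`, every invariant irreducible character of `N` extends to `G`. -/
theorem dade_exists_extension {p k : ℕ} [hp : Fact p.Prime] {N : Subgroup G} [hN : N.Normal]
    (hk : N.index = p ^ k) (P : Sylow p G) (hP : ⁅(P : Subgroup G), (P : Subgroup G)⁆ ⊓ N = ⊥)
    {θ : N → ℂ} (hθ : IsIrrCharacter N θ)
    (hinv : ∀ (g : G) (n : N), θ ⟨g * n * g⁻¹, hN.conj_mem n n.2 g⟩ = θ n) :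
    ∃ χ, IsIrrCharacter G χ ∧ ∀ n : N, χ n = θ n := by
  classical
  obtain ⟨E, _, _, φ, hE, htop, hφ, -, m, hm, hφm⟩ := dade_exists_elementary hp.out hk hθ hinv
  obtain ⟨g, hg⟩ := exists_commutator_le_of_isElementary hE P
  have hEN : ∀ x ∈ ⁅E, E⁆, x ∈ N → x = 1 := by
    intro x hx hxN
    have h1 := hg hx
    have h2 : ((g • P : Sylow p G) : Subgroup G) = (P : Subgroup G).map (MulAut.conj g).toMonoidHom := rfl
    rw [h2, ← Subgroup.map_commutator] at h1
    obtain ⟨y, hy, rfl⟩ := h1
    have hyN : y ∈ N := by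
      have := hN.conj_mem _ hxN g⁻¹
      simpa [mul_assoc] using this
    have : y = 1 := by
      rw [← Subgroup.mem_bot, ← hP]; exact ⟨hy, hyN⟩
    simp [this]
  let M := N.subgroupOf E
  have hcomm : ∀ a b : M, a * b = b * a := by
    intro a b
    rw [← commutatorElement_eq_one_iff_mul_comm]
    apply Subtype.ext; apply Subtype.ext
    exact hEN _ (Subgroup.commutator_mem_commutator (a : E).2 (b : E).2) (⁅a, b⁆ : M).2
  obtain ⟨lam, rfl⟩ := hφ.exists_monoidHom_of_comm hcomm
  obtain ⟨μ, -, hμ⟩ := exists_monoidHom_extend_of_ker M.subtype ⊥ lam (by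
    intro a ha
    rw [sup_bot_eq] at ha
    have h1 : ((a : E) : G) ∈ ⁅E, E⁆ := by
      have := Subgroup.mem_map_of_mem E.subtype ha
      rwa [commutator, Subgroup.map_commutator, ← MonoidHom.range_eq_map, Subgroup.range_subtype] at this
    have : a = 1 := Subtype.ext (Subtype.ext (hEN _ h1 a.2))
    rw [this, map_one])
  let ψ := indFun E (fun e => (μ e : ℂ))
  have hψ : IsCharacter G ψ := isCharacter_indFun_unitsHom μ
  have hres : classInner (fun n : N => ψ n) θ = m := by
    rw [res_indFun_of_sup_eq_top (Or.inr hN) (sup_comm E N ▸ htop) (isCharacter_unitsHom μ).isClassFunction,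
      frobenius_reciprocity _ hθ.isCharacter.isClassFunction]
    let e : E.subgroupOf N ≃ M :=
      { toFun := fun y => ⟨⟨(y : N), y.2⟩, (y : N).2⟩
        invFun := fun y => ⟨⟨(y : E), y.2⟩, (y : E).2⟩
        left_inv := fun _ => rfl
        right_inv := fun _ => rfl }
    rw [← map_natCast (starRingEnd ℂ) m, ← hφm, conj_classInner, ← classInner_comp_equiv e]
    congr 1
    funext y
    exact congrArg Units.val (hμ (e y))
  by_contra hcon
  push Not at hcon
  obtain ⟨a, -, ha⟩ := hψ.exists_eq_sum_nat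
  have hdvd : ∀ χ : IrrCharacter G, ∃ e : ℕ, p ∣ e ∧ classInner (fun n : N => (χ : G → ℂ) n) θ = e := by
    intro χ
    obtain ⟨e, he⟩ := (χ.2.isCharacter.restrict N).exists_nat_classInner hθ.isCharacter
    refine ⟨e, ?_, he⟩
    rcases Nat.eq_zero_or_pos e with rfl | he0
    · exact dvd_zero p
    have hd := mult_dvd_index_of_invariant hθ hinv χ.2 he he0.ne'
    rw [hk] at hd
    obtain ⟨j, -, hj⟩ := (Nat.dvd_prime_pow hp.out).1 hd
    rcases Nat.eq_zero_or_pos j with rfl | hj0
    · exfalso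
      have hcl := clifford_of_invariant χ.2 hθ hinv (by rw [he]; exact_mod_cast he0.ne')
      obtain ⟨n, hn⟩ := hcon χ χ.2
      apply hn
      have := congrFun hcl n
      simpa [he, hj] using this
    · exact hj ▸ dvd_pow_self p hj0.ne'
  choose e he1 he2 using hdvd
  have : (m : ℂ) = ((∑ χ : IrrCharacter G, a χ * e χ : ℕ) : ℂ) := by
    rw [← hres]
    have : (fun n : N => ψ n) = ∑ χ : IrrCharacter G, (a χ : ℂ) • fun n : N => (χ : G → ℂ) n := by
      funext n
      rw [ha]
      simp
    rw [this, classInner_sum_left]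
    push_cast
    refine Finset.sum_congr rfl fun χ _ => ?_
    rw [classInner_smul_left, he2]
  have : m = ∑ χ : IrrCharacter G, a χ * e χ := by exact_mod_cast this
  exact hm (this ▸ Finset.dvd_sum fun χ _ => (he1 χ).mul_left _)

end CL.Char
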