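/-
Groups with bounded character degrees have abelian subgroups of bounded index (Isaacs 12.22, 12.23).
-/
import Cfsg.Agent.Char.DegJust
import Cfsg.Agent.Fgs.ClassBasic

set_option autoImplicit false

open Cfsg
open scoped ComplexConjugate commutatorElement

namespace CL.Char

universe u

variable {G : Type*} [Group G]

theorem exists_ne_one_index_centralizer_le [Finite G] [Nontrivial G] {b : ℕ}
    (h : ∀ d ∈ cdSet G, d ≤ b) :
    ∃ x : G, x ≠ 1 ∧ (Subgroup.centralizer ({x} : Set G)).index ≤ b ^ 2 := by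
  classical
  by_contra h0
  push Not at h0
  let _ := Fintype.ofFinite (ConjClasses G)
  have h1 := sum_charDegree_sq (G := G)
  rw [← Finset.add_sum_erase _ _ (Finset.mem_univ (irrOne G))] at h1
  have h2 : ∑ χ ∈ Finset.univ.erase (irrOne G), charDegree (χ : G → ℂ) ^ 2 ≤
      (Finset.univ.erase (irrOne G)).card • b ^ 2 :=
    Finset.sum_le_card_nsmul _ _ _ fun χ _ => Nat.pow_le_pow_left (h _ χ.2.charDegree_mem_cdSet) 2
  have h3 := Group.sum_card_conj_classes_eq_card G
  rw [finsum_eq_sum_of_fintype, ← Finset.add_sum_erase _ _ (Finset.mem_univ (ConjClasses.mk 1))] at h3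
  have h4 : (Finset.univ.erase (ConjClasses.mk (1 : G))).card • (b ^ 2 + 1) ≤
      ∑ C ∈ Finset.univ.erase (ConjClasses.mk (1 : G)), C.carrier.ncard := by
    refine Finset.card_nsmul_le_sum _ _ _ fun C hC => ?_
    obtain ⟨x, rfl⟩ := C.exists_rep
    rw [CL.Fgs.ncard_carrier_mk]
    exact h0 x (fun hx => by simp [hx] at hC)
  have h5 : charDegree (irrOne G : G → ℂ) = 1 := charDegree_eq_of_eq (by simp)
  have h6 := card_irr_eq_card_conjClasses (G := G)
  rw [CL.Fgs.ncard_carrier_mk, CL.Fgs.cs_one] at h3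
  rw [Finset.card_erase_of_mem (Finset.mem_univ _), Finset.card_univ, ← Nat.card_eq_fintype_card,
    smul_eq_mul] at h2 h4
  rw [h5] at h1
  rw [h6] at h2
  have h7 := Finite.one_lt_card (α := G)
  generalize Nat.card (ConjClasses G) - 1 = k at h2 h4
  have : k = 0 := by nlinarith
  subst this
  omega

/-- An irreducible character of a subgroup of the maximal degree is the restriction of every
irreducible character lying over it. -/
theorem res_eq_of_charDegree_le [Finite G] {H : Subgroup G} [Fintype H] {θ : H → ℂ} (hθ : IsIrrCharacter H θ)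
    {χ : G → ℂ} (hχ : IsIrrCharacter G χ) (hc : classInner (fun x : H => χ x) θ ≠ 0)
    (hle : charDegree χ ≤ charDegree θ) : (fun x : H => χ x) = θ := by
  have h1 := (hχ.isCharacter.restrict H).charDegree_le_of_classInner_ne_zero hθ hc
  refine (hχ.isCharacter.restrict H).eq_of_classInner_ne_zero_of_one_eq hθ hc ?_
  change χ 1 = θ 1
  rw [← hχ.cast_charDegree, ← hθ.cast_charDegree, le_antisymm hle h1]

theorem two_mul_le_of_mem_cdSet_normal [Finite G] {b : ℕ} (h : ∀ d ∈ cdSet G, d ≤ b) {K : Subgroup G}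
    [K.Normal] (hK : ¬ ∀ x y : G ⧸ K, x * y = y * x) : ∀ d ∈ cdSet K, 2 * d ≤ b := by
  intro d hd
  let _ := Fintype.ofFinite G
  let _ := Fintype.ofFinite K
  obtain ⟨θ, hθ, rfl⟩ := mem_cdSet.mp hd
  obtain ⟨χ, hχ, hc⟩ := exists_irr_over K hθ
  obtain ⟨k, -, hk⟩ := exists_charDegree_eq_mul hθ hχ hc
  have h1 := h _ hχ.charDegree_mem_cdSet
  have h2 := hχ.charDegree_pos
  by_cases hk1 : k = 1
  · have h3 := res_eq_of_charDegree_le hθ hχ hc (by rw [hk, hk1, one_mul])
    obtain ⟨β, hβ, hβ1⟩ := exists_irr_charDegree_ne_one hK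
    have h4 := h _ (gallagher_irr hχ.isCharacter (h3 ▸ hθ) hβ.inflate (le_charKer_inflate β)).charDegree_mem_cdSet
    rw [charDegree_mul hβ.inflate.isCharacter hχ.isCharacter, hk, hk1, one_mul] at h4
    have h5 : charDegree (fun g : G => β g) = charDegree β := rfl
    have h6 := hβ.charDegree_pos
    rw [h5] at h4
    exact le_trans (Nat.mul_le_mul_right _ (by omega)) h4
  · rw [hk] at h1 h2
    have h3 : k ≠ 0 := fun h0 => by simp [h0] at h2
    exact le_trans (Nat.mul_le_mul_right _ (by omega)) h1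

theorem JustNonab.isSolvable_of_le_four [Finite G] (hJ : JustNonab G) (h : ∀ d ∈ cdSet G, d ≤ 4) :
    Group.IsSolvable G := by
  by_cases h0 : ∀ r : ℕ, r.Prime → r ∣ Nat.card G → r = 2 ∨ r = 3
  · exact isSolvable_of_two_primes Nat.prime_two Nat.prime_three h0
  push Not at h0
  obtain ⟨p, hp, hd, h2, h3⟩ := h0
  have : Fact p.Prime := ⟨hp⟩
  have hp5 : 4 < p := by
    by_contra h4
    have := hp.two_le
    have : p = 4 := by omega
    exact absurd (this ▸ hp) (by norm_num)
  obtain ⟨P⟩ : Nonempty (Sylow p G) := inferInstance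
  have hlt : ∀ χ : G → ℂ, IsIrrCharacter G χ → charDegree χ < p := fun χ hχ =>
    (h _ hχ.charDegree_mem_cdSet).trans_lt hp5
  have hn := sylow_normal_of_charDegree_lt hlt P
  have hab := comm_of_isPGroup_of_charDegree_lt hlt P.isPGroup'
  have hle := hJ.le P hn (P.ne_bot_of_dvd_card hd)
  refine hJ.isSolvable_of_centralizer_ne_bot (fun h4 => hJ.ne_bot (eq_bot_iff.mpr (h4 ▸ fun x hx y hy => ?_)))
  exact hab y (hle hy) x (hle hx)

theorem mul_factorial_half_le {b : ℕ} (hb : 5 ≤ b) : b * (b / 2).factorial ≤ (b - 1).factorial := by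
  obtain ⟨c, rfl⟩ : ∃ c, b = c + 3 := ⟨b - 3, by omega⟩
  have h1 : ((c + 3) / 2).factorial ≤ c.factorial := Nat.factorial_le (by omega)
  have h2 : (c + 3 - 1).factorial = (c + 2) * ((c + 1) * c.factorial) := rfl
  rw [h2, ← mul_assoc]
  exact Nat.mul_le_mul (by nlinarith) h1

theorem exists_comm_index_le_factorial_sq (b : ℕ) : ∀ (G : Type u) [Group G] [Finite G],
    (∀ d ∈ cdSet G, d ≤ b) →
    ∃ A : Subgroup G, (∀ x ∈ A, ∀ y ∈ A, x * y = y * x) ∧ A.index ≤ b.factorial ^ 2 := by
  induction b using Nat.strong_induction_on with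
  | _ b ih =>
  intro G _ _ h
  let _ := Fintype.ofFinite G
  by_cases hc : commutator G = ⊥
  · exact ⟨⊤, fun x _ y _ => commutator_eq_bot_iff_comm.mp hc x y,
      by simpa using Nat.one_le_pow _ _ b.factorial_pos⟩
  have hb1 : 1 ≤ b := h 1 one_mem_cdSet
  have sub : ∀ (H : Subgroup G) (c : ℕ), c < b → (∀ d ∈ cdSet H, d ≤ c) →
      H.index * c.factorial ^ 2 ≤ b.factorial ^ 2 →
      ∃ A : Subgroup G, (∀ x ∈ A, ∀ y ∈ A, x * y = y * x) ∧ A.index ≤ b.factorial ^ 2 := by
    intro H c hcb hH hi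
    obtain ⟨A, hA, hAi⟩ := ih c hcb H hH
    refine ⟨A.map H.subtype, ?_, le_trans ?_ hi⟩
    · rintro _ ⟨x, hx, rfl⟩ _ ⟨y, hy, rfl⟩
      exact congrArg Subtype.val (hA x hx y hy)
    · rw [Subgroup.index_map_subtype, mul_comm]
      exact Nat.mul_le_mul_left _ hAi
  have hfac : b.factorial = b * (b - 1).factorial := (Nat.mul_factorial_pred (by omega)).symm
  have subA : ∀ H : Subgroup G, b ∉ cdSet H → H.index ≤ b ^ 2 →
      ∃ A : Subgroup G, (∀ x ∈ A, ∀ y ∈ A, x * y = y * x) ∧ A.index ≤ b.factorial ^ 2 := by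
    intro H hH hi
    refine sub H (b - 1) (by omega) (fun d hd => ?_) ?_
    · obtain ⟨e, he, hde⟩ := exists_le_of_mem_cdSet_subgroup hd
      have := h e he
      have : d ≠ b := fun h0 => hH (h0 ▸ hd)
      omega
    · rw [hfac, mul_pow]
      exact Nat.mul_le_mul_right _ hi
  obtain ⟨K, _, hK⟩ := exists_justNonab_quotient hc
  have subB : K.index * (b / 2).factorial ^ 2 ≤ b.factorial ^ 2 →
      ∃ A : Subgroup G, (∀ x ∈ A, ∀ y ∈ A, x * y = y * x) ∧ A.index ≤ b.factorial ^ 2 :=
    sub K (b / 2) (by omega) fun d hd => by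
      have := two_mul_le_of_mem_cdSet_normal h hK.not_comm d hd
      omega
  have subC : 5 ≤ b → K.index ≤ b ^ 4 →
      ∃ A : Subgroup G, (∀ x ∈ A, ∀ y ∈ A, x * y = y * x) ∧ A.index ≤ b.factorial ^ 2 := by
    intro h5 hi
    refine subB ((Nat.mul_le_mul_right _ hi).trans ?_)
    rw [hfac, show b ^ 4 * (b / 2).factorial ^ 2 = (b * (b * (b / 2).factorial)) ^ 2 by ring]
    exact Nat.pow_le_pow_left (Nat.mul_le_mul_left _ (mul_factorial_half_le h5)) 2
  by_cases hs : Group.IsSolvable (G ⧸ K)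
  · rcases justNonab_degree_dichotomy (QuotientGroup.mk' K) (QuotientGroup.mk'_surjective K) hK hs with
      ⟨p, hp, -, Z, _, φ, k, hφ, -, hk, hd, hZ, hmul⟩ | ⟨-, N, _, q, k, hq, hk, -, -, hN1, hN, hqN, hi, hdich⟩
    · refine subA Z (fun hb => ?_) (hZ ▸ Nat.pow_le_pow_left (h _ hφ.charDegree_mem_cdSet) 2)
      let _ := Fintype.ofFinite Z
      obtain ⟨θ, hθ, hθb⟩ := mem_cdSet.mp hb
      obtain ⟨χ, hχ, hcc⟩ := exists_irr_over Z hθ
      have h1 := res_eq_of_charDegree_le hθ hχ hcc (hθb ▸ h _ hχ.charDegree_mem_cdSet)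
      have h2 := h _ (hmul χ hχ.isCharacter (h1 ▸ hθ)).charDegree_mem_cdSet
      have h3 : charDegree χ = b := by rw [← hθb, ← h1]; rfl
      rw [charDegree_mul hχ.isCharacter hφ.isCharacter, hd, h3] at h2
      have h4 := Nat.one_lt_pow hk.ne' hp.one_lt
      nlinarith
    · have hNb := h _ hN
      by_cases hb : b ∈ cdSet N
      swap
      · exact subA N hb (hNb.trans (by nlinarith))
      have h1 : q ^ k ∣ b ^ 2 := (hdich b hb).resolve_left (fun h0 => by
        have := h _ h0
        nlinarith)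
      rw [QuotientGroup.ker_mk'] at hi
      have h2 : K.index ≤ b ^ 3 := by
        rw [hi, pow_succ b 2]
        exact Nat.mul_le_mul (Nat.le_of_dvd (by positivity) h1) hNb
      have h3 : b ≠ 2 := by
        rintro rfl
        have h4 := (Nat.prime_dvd_prime_iff_eq hq Nat.prime_two).mp
          (hq.dvd_of_dvd_pow ((dvd_pow_self q hk.ne').trans h1))
        exact hqN (by rw [h4, show N.index = 2 by omega])
      by_cases h5 : 5 ≤ b
      · exact subC h5 (h2.trans (Nat.pow_le_pow_right hb1 (by norm_num)))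
      · refine subB ((Nat.mul_le_mul_right _ h2).trans ?_)
        have : b = 3 ∨ b = 4 := by omega
        rcases this with rfl | rfl <;> decide
  · have hQ : ∀ d ∈ cdSet (G ⧸ K), d ≤ b := fun d hd => h d (cdSet_quotient_subset K hd)
    have h5 : 5 ≤ b := by
      by_contra h5
      exact hs (hK.isSolvable_of_le_four fun d hd => (hQ d hd).trans (by omega))
    have : Nontrivial (G ⧸ K) := by
      by_contra h0
      rw [not_nontrivial_iff_subsingleton] at h0
      exact hs inferInstance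
    obtain ⟨x, hx1, hx⟩ := exists_ne_one_index_centralizer_le hQ
    set H := (Subgroup.centralizer ({x} : Set (G ⧸ K))).comap (QuotientGroup.mk' K) with hH
    have hHi : H.index ≤ b ^ 2 := by
      rwa [hH, Subgroup.index_comap_of_surjective _ (QuotientGroup.mk'_surjective K)]
    by_cases hb : b ∈ cdSet H
    swap
    · exact subA H hb hHi
    let _ := Fintype.ofFinite H
    obtain ⟨θ, hθ, hθb⟩ := mem_cdSet.mp hb
    have hcore : H.normalCore ≤ K := by
      by_contra h0
      have h1 : H.normalCore.map (QuotientGroup.mk' K) ≠ ⊥ := by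
        rwa [Ne, Subgroup.map_eq_bot_iff, QuotientGroup.ker_mk']
      have h2 := (hK.le _ (Subgroup.Normal.map inferInstance _ (QuotientGroup.mk'_surjective K)) h1).trans
        (Subgroup.map_le_iff_le_comap.mpr H.normalCore_le)
      refine hs (hK.isSolvable_of_centralizer_ne_bot fun h3 => hx1 (Subgroup.mem_bot.mp (h3 ▸ ?_)))
      exact fun y hy => Subgroup.mem_centralizer_singleton_iff.mp (h2 hy)
    have hKH : K ≤ H := fun y hy => by
      rw [hH, Subgroup.mem_comap, QuotientGroup.mk'_apply, (QuotientGroup.eq_one_iff y).mpr hy]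
      exact Subgroup.one_mem _
    have h1 := index_dvd_sq_of_vanish (K.subgroupOf H) hθ (fun y hy => by
      by_contra h0
      refine hy (hcore (mem_normalCore_of_forall_res_eq hθ.isCharacter (fun χ hχ hcc => ?_) y h0))
      rw [classInner_indFun_eq_res hθ.isCharacter hχ.isCharacter] at hcc
      exact congrFun (res_eq_of_charDegree_le hθ hχ hcc (hθb ▸ h _ hχ.charDegree_mem_cdSet)))
    refine subC h5 ?_
    rw [← Subgroup.relIndex_mul_index hKH, show b ^ 4 = b ^ 2 * b ^ 2 by ring]
    exact Nat.mul_le_mul (Nat.le_of_dvd (by positivity) (hθb ▸ h1)) hHi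

end CL.Char
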