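/-
Faithful irreducible characters of degree two: the projective image is one of Klein's groups, and
primitive groups have central quotient of order 12, 24 or 60.
-/
import Cfsg.Agent.Char.Constituent
import Cfsg.Agent.Char.Faithful
import Cfsg.Agent.Char.InductionChar
import Cfsg.Agent.Cls.SL2Dickson

namespace CL.Char

open Cfsg
open scoped MatrixGroups

variable {G : Type*} [Group G]

/-- A faithful irreducible character of degree `n` gives an embedding of `G / Z(G)` into
`PGL(n, ℂ)`. -/
theorem exists_pgl_of_faithful_irr [Finite G] {χ : G → ℂ} (hχ : IsIrrCharacter G χ)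
    (hker : charKer χ = ⊥) {n : ℕ} (hn : charDegree χ = n) :
    ∃ φ : G →* PGL(n, ℂ), φ.ker = Subgroup.center G := by
  obtain ⟨m, ρ, hirr, rfl⟩ := hχ
  have hχ : IsIrrCharacter G ρ.character := ⟨m, ρ, hirr, rfl⟩
  have hm : m = n := by
    rw [charDegree_character] at hn
    simpa using hn
  subst hm
  let A : G →* Matrix (Fin m) (Fin m) ℂ :=
    (LinearMap.toMatrixAlgEquiv' (R := ℂ) (n := Fin m)).toMonoidHom.comp ρ
  let B : G →* GL (Fin m) ℂ := A.toHomUnits
  refine ⟨Matrix.ProjGenLinGroup.mk.comp B, ?_⟩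
  rw [← hχ.charCenter_eq_center hker]
  ext g
  rw [MonoidHom.mem_ker, MonoidHom.comp_apply, Matrix.ProjGenLinGroup.mk_eq_one,
    mem_charCenter_character, Matrix.GeneralLinearGroup.center_eq_range_scalar]
  constructor
  · rintro ⟨u, hu⟩
    refine ⟨u, ?_⟩
    apply (LinearMap.toMatrixAlgEquiv' (R := ℂ) (n := Fin m)).injective
    have h1 : (B g : Matrix (Fin m) (Fin m) ℂ) = LinearMap.toMatrixAlgEquiv' (ρ g) := rfl
    rw [← h1, ← hu, map_smul]
    have : LinearMap.toMatrixAlgEquiv' (LinearMap.id : (Fin m → ℂ) →ₗ[ℂ] (Fin m → ℂ)) = 1 :=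
      LinearMap.toMatrixAlgEquiv'_id
    rw [this]
    ext i j
    simp [Matrix.one_apply, Matrix.diagonal_apply]
  · rintro ⟨ω, hω⟩
    have h1 : (B g : Matrix (Fin m) (Fin m) ℂ) = ω • (1 : Matrix (Fin m) (Fin m) ℂ) := by
      have h1 : (B g : Matrix (Fin m) (Fin m) ℂ) = LinearMap.toMatrixAlgEquiv' (ρ g) := rfl
      rw [h1, hω, map_smul, LinearMap.toMatrixAlgEquiv'_id]
    have hm : 0 < m := by
      have := hχ.charDegree_pos
      rw [charDegree_character] at this
      simpa using this
    have hω0 : ω ≠ 0 := by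
      rintro rfl
      have h2 : IsUnit (B g : Matrix (Fin m) (Fin m) ℂ) := Units.isUnit _
      rw [h1, zero_smul] at h2
      haveI : Nonempty (Fin m) := ⟨⟨0, hm⟩⟩
      exact not_isUnit_zero h2
    refine ⟨Units.mk0 ω hω0, Units.ext ?_⟩
    rw [h1]
    ext i j
    simp [Matrix.one_apply, Matrix.diagonal_apply]

/-- An irreducible character whose degree equals the index of an abelian subgroup is induced from
a linear character of that subgroup. -/
theorem exists_eq_indFun_of_comm_of_index [Fintype G] {χ : G → ℂ} (hχ : IsIrrCharacter G χ)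
    (A : Subgroup G) (hA : ∀ a b : A, a * b = b * a) (hi : A.index = charDegree χ) :
    ∃ θ : A → ℂ, IsIrrCharacter A θ ∧ χ = indFun A θ := by
  classical
  obtain ⟨θ, hθ, hne⟩ := exists_irr_constituent_restrict A hχ
  refine ⟨θ, hθ, ?_⟩
  have h1 : θ 1 = 1 := hθ.one_eq_one_of_comm hA
  refine (eq_of_classInner_ne_zero_of_one_eq (isCharacter_indFun hθ.isCharacter) hχ ?_ ?_).symm
  · rw [frobenius_reciprocity θ hχ.isClassFunction]
    intro h0
    apply hne
    rw [← conj_classInner, h0, map_zero]
  · rw [indFun_one, h1, mul_one, hi, hχ.cast_charDegree]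

/-- The rotation subgroup of a dihedral group has index two and is cyclic. -/
theorem exists_cyclic_index_two_dihedral (n : ℕ) :
    ∃ R : Subgroup (DihedralGroup n), R.index = 2 ∧ IsCyclic R := by
  refine ⟨Subgroup.zpowers (DihedralGroup.r 1), ?_, inferInstance⟩
  have hmem : ∀ i : ZMod n, DihedralGroup.r i ∈ Subgroup.zpowers (DihedralGroup.r (1 : ZMod n)) := by
    intro i
    obtain ⟨k, rfl⟩ := ZMod.intCast_surjective i
    exact ⟨k, by simp [DihedralGroup.r_one_zpow]⟩
  have hnmem : ∀ i : ZMod n,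
      DihedralGroup.sr i ∉ Subgroup.zpowers (DihedralGroup.r (1 : ZMod n)) := by
    rintro i ⟨k, hk⟩
    simp [DihedralGroup.r_one_zpow] at hk
  rw [Subgroup.index_eq_two_iff]
  refine ⟨DihedralGroup.sr 0, ?_⟩
  rintro (i | i)
  · right
    exact ⟨hmem _, by simpa using hnmem _⟩
  · left
    exact ⟨by simpa using hmem _, hnmem _⟩

/-- A primitive group of degree two has central quotient `A₄`, `S₄` or `A₅`. -/
theorem index_center_of_primitive_degree_two [Fintype G] {χ : G → ℂ} (hχ : IsIrrCharacter G χ)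
    (hker : charKer χ = ⊥) (h2 : charDegree χ = 2)
    (hprim : ∀ H : Subgroup G, H ≠ ⊤ → ∀ θ : H → ℂ, IsCharacter H θ → χ ≠ indFun H θ) :
    Nonempty (G ⧸ Subgroup.center G ≃* alternatingGroup (Fin 4)) ∨
      Nonempty (G ⧸ Subgroup.center G ≃* Equiv.Perm (Fin 4)) ∨
      Nonempty (G ⧸ Subgroup.center G ≃* alternatingGroup (Fin 5)) := by
  classical
  obtain ⟨φ, hφ⟩ := exists_pgl_of_faithful_irr hχ hker h2
  let ψ : G ⧸ Subgroup.center G →* PGL(2, ℂ) :=
    QuotientGroup.lift _ φ hφ.ge
  have hψ : Function.Injective ψ := by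
    rw [injective_iff_map_eq_one]
    intro x hx
    obtain ⟨x, rfl⟩ := QuotientGroup.mk_surjective x
    rw [QuotientGroup.eq_one_iff, ← hφ]
    exact hx
  rcases CL.SL2.dickson_charZero ψ hψ with h | ⟨n, ⟨e⟩⟩ | h
  · exfalso
    have hc : ∀ a b : G, a * b = b * a :=
      (MonoidHom.isMulCommutative_of_isCyclic_of_ker_le_center
        (QuotientGroup.mk' (Subgroup.center G)) (by rw [QuotientGroup.ker_mk'])).is_comm.comm
    have h1 := hχ.one_eq_one_of_comm hc
    rw [← hχ.cast_charDegree, h2] at h1
    norm_num at h1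
  · exfalso
    obtain ⟨R, hR, hcyc⟩ := exists_cyclic_index_two_dihedral n
    let f : G →* DihedralGroup n := e.toMonoidHom.comp (QuotientGroup.mk' (Subgroup.center G))
    have hf : Function.Surjective f := e.surjective.comp (QuotientGroup.mk'_surjective _)
    let A : Subgroup G := R.comap f
    have hAi : A.index = 2 := by rw [Subgroup.index_comap_of_surjective _ hf, hR]
    have hA : ∀ a b : A, a * b = b * a := by
      let g : A →* R := (f.comp A.subtype).codRestrict R (fun a => a.2)
      refine (MonoidHom.isMulCommutative_of_isCyclic_of_ker_le_center g ?_).is_comm.comm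
      intro a ha
      have h1 : f a = 1 := congrArg Subtype.val (MonoidHom.mem_ker.mp ha)
      have h2 : (a : G) ∈ Subgroup.center G := by
        rw [← QuotientGroup.eq_one_iff]
        exact e.injective (by rw [map_one]; exact h1)
      rw [Subgroup.mem_center_iff] at h2 ⊢
      intro b
      exact Subtype.ext (h2 b)
    obtain ⟨θ, hθ, hind⟩ := exists_eq_indFun_of_comm_of_index hχ A hA (by rw [hAi, h2])
    refine hprim A ?_ θ hθ.isCharacter hind
    intro htop
    rw [htop, Subgroup.index_top] at hAi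
    norm_num at hAi
  · exact h

end CL.Char
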