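/-
Irreducible characters of degree coprime to the index of a normal Hall subgroup (Isaacs 13.26).
-/
import Cfsg.Agent.Char.GlaubSolv
import Cfsg.Agent.Char.Gallagher

set_option autoImplicit false

open Cfsg
open scoped ComplexConjugate

namespace CL.Char

variable {G : Type*} [Group G] [Finite G]

/-- A constituent of the restriction of an irreducible character of degree coprime to the index is invariant. -/
theorem gl_invariant_of_coprime_degree (K : Subgroup G) [hK : K.Normal] [Fintype K] {χ : G → ℂ}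
    (hχ : IsIrrCharacter G χ) (hcop : (charDegree χ).Coprime K.index) {θ : K → ℂ} (hθ : IsIrrCharacter K θ)
    (h : classInner (fun n : K => χ n) θ ≠ 0) (g : G) (n : K) :
    θ ⟨g * n * g⁻¹, hK.conj_mem n n.2 g⟩ = θ n := by
  have := Fintype.ofFinite G
  have h1 := clifford_degree hχ hθ h
  obtain ⟨e, he⟩ := (hχ.isCharacter.restrict K).exists_nat_classInner hθ.isCharacter
  rw [he, ← hχ.cast_charDegree, ← hθ.cast_charDegree] at h1
  have h2 : charDegree χ = e * (inertia K θ).index * charDegree θ := by exact_mod_cast h1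
  have h3 : (inertia K θ).index = 1 := Nat.eq_one_of_dvd_coprimes hcop
    (h2 ▸ Dvd.dvd.mul_right (dvd_mul_left _ _) _) (Subgroup.index_dvd_of_le (le_inertia hθ.isClassFunction))
  exact inertia_eq_top_iff.mp (Subgroup.index_eq_one.mp h3) g n

theorem gl_degree_dvd_index_of_le_charKer (K : Subgroup G) [K.Normal] {β : G → ℂ} (hβ : IsIrrCharacter G β)
    (h : K ≤ charKer β) : charDegree β ∣ K.index := by
  obtain ⟨ψ, hψ, rfl⟩ := hβ.exists_quotient K h
  exact isIrr_degree_dvd_card hψ hβ.cast_charDegree.symm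

/-- The irreducible characters of degree coprime to the index of a normal Hall subgroup `K` are the extensions of
the invariant irreducible characters of `K`. -/
theorem gl_card_coprime_degree (K : Subgroup G) [hK : K.Normal] (hcop : (Nat.card K).Coprime K.index) :
    Nat.card {χ : IrrCharacter G // (charDegree (χ : G → ℂ)).Coprime K.index} =
      Nat.card {θ : IrrCharacter K // ∀ (g : G) (n : K),
        (θ : K → ℂ) ⟨g * n * g⁻¹, hK.conj_mem n n.2 g⟩ = (θ : K → ℂ) n} * Nat.card (G ⧸ K →* ℂˣ) := by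
  have := Fintype.ofFinite G
  have := Fintype.ofFinite K
  have hext : ∀ θ : {θ : IrrCharacter K // ∀ (g : G) (n : K),
      (θ : K → ℂ) ⟨g * n * g⁻¹, hK.conj_mem n n.2 g⟩ = (θ : K → ℂ) n},
      ∃ χ, IsIrrCharacter G χ ∧ ∀ n : K, χ n = (θ.1 : K → ℂ) n := fun θ =>
    exists_extension_of_hall θ.1.2 θ.2 θ.1.2.cast_charDegree.symm
      (isIrr_degree_dvd_card θ.1.2 θ.1.2.cast_charDegree.symm) hcop
  choose ψ hψ hψK using hext
  have hres : ∀ θ, (fun n : K => ψ θ n) = θ.1 := fun θ => funext (hψK θ)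
  have hresirr : ∀ θ, IsIrrCharacter K (fun n : K => ψ θ n) := fun θ => by rw [hres]; exact θ.1.2
  have hmk : ∀ n : K, ((n : G) : G ⧸ K) = 1 := fun n => (QuotientGroup.eq_one_iff _).mpr n.2
  rw [← Nat.card_prod]
  symm
  refine Nat.card_congr (Equiv.ofBijective (fun x => ⟨⟨fun g => (x.2 g : ℂ) * ψ x.1 g,
    (hψ x.1).monoidHom_mul (x.2.comp (QuotientGroup.mk' K))⟩, ?_⟩) ⟨?_, ?_⟩)
  · have h1 : charDegree (fun g : G => (x.2 g : ℂ) * ψ x.1 g) = charDegree (x.1.1 : K → ℂ) := by
      refine charDegree_eq_of_eq ?_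
      rw [x.1.1.2.cast_charDegree, ← hψK]
      simp
    simp only [h1]
    exact hcop.coprime_dvd_left (isIrr_degree_dvd_card x.1.1.2 x.1.1.2.cast_charDegree.symm)
  · rintro ⟨θ, lam⟩ ⟨θ', lam'⟩ e
    have e1 : (fun g : G => (lam g : ℂ) * ψ θ g) = fun g : G => (lam' g : ℂ) * ψ θ' g :=
      congrArg (fun x => x.1.1) e
    have e2 : θ = θ' := Subtype.ext (Subtype.ext (funext fun n => by
      simpa [hmk, hψK] using congrFun e1 n))
    subst e2
    have e3 := gallagher_inj (hψ θ).isCharacter (hresirr θ) (β := fun g : G => (lam g : ℂ))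
      (γ := fun g : G => (lam' g : ℂ)) (le_charKer_inflate (fun q => (lam q : ℂ)))
      (le_charKer_inflate (fun q => (lam' q : ℂ))) e1
    refine Prod.ext rfl (MonoidHom.ext fun q => ?_)
    induction q using QuotientGroup.induction_on with
    | H g => exact Units.ext (congrFun e3 g)
  · rintro ⟨χ, hχ⟩
    obtain ⟨θ, hθ, h1⟩ := exists_irr_constituent_restrict K χ.2
    set θ' : {θ : IrrCharacter K // ∀ (g : G) (n : K),
      (θ : K → ℂ) ⟨g * n * g⁻¹, hK.conj_mem n n.2 g⟩ = (θ : K → ℂ) n} :=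
      ⟨⟨θ, hθ⟩, gl_invariant_of_coprime_degree K χ.2 hχ hθ h1⟩
    obtain ⟨β, hβ, hβK, e⟩ := gallagher_surj (hψ θ').isCharacter (hresirr θ') χ.2 (by rw [hres]; exact h1)
    have h2 : charDegree (χ : G → ℂ) = charDegree β * charDegree (ψ θ') := by
      refine charDegree_eq_of_eq ?_
      rw [e, Nat.cast_mul, hβ.cast_charDegree, (hψ θ').cast_charDegree, Pi.mul_apply]
    have h3 : charDegree β = 1 := Nat.eq_one_of_dvd_coprimes hχ (h2 ▸ dvd_mul_right _ _)
      (gl_degree_dvd_index_of_le_charKer K hβ hβK)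
    obtain ⟨β', hβ', rfl⟩ := hβ.exists_quotient K hβK
    obtain ⟨lam, rfl⟩ := hβ'.isCharacter.exists_monoidHom_of_one
      (by simpa using hβ.isCharacter.charDegree_eq_one_iff.mp h3)
    exact ⟨(θ', lam), Subtype.ext (Subtype.ext e.symm)⟩

end CL.Char
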