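/-
Reduction of a coprime situation `N ≤ G ⊴ Γ` over an invariant character of `N` to a coprime action, via the
central extension `CharCover`; Isaacs 13.31.
-/
import Cfsg.Agent.Char.GlaubInv
import Cfsg.Agent.Char.Triple

set_option autoImplicit false

open Cfsg
open scoped ComplexConjugate

namespace CL.Char

theorem gl_exists_split (n r : ℕ) (hr : r ≠ 0) :
    ∃ r₁ r₂ : ℕ, r = r₁ * r₂ ∧ r₂.Coprime n ∧ ∀ m : ℕ, m.Coprime n → m.Coprime r₁ := by
  induction r using induction_on_primes with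
  | zero => exact absurd rfl hr
  | one => exact ⟨1, 1, rfl, by simp, by simp⟩
  | prime_mul p r hp ih =>
    obtain ⟨r₁, r₂, rfl, h1, h2⟩ := ih (right_ne_zero_of_mul hr)
    by_cases h : p ∣ n
    · exact ⟨p * r₁, r₂, by ring, h1, fun m hm => Nat.Coprime.mul_right (hm.coprime_dvd_right h) (h2 m hm)⟩
    · exact ⟨r₁, p * r₂, by ring, Nat.Coprime.mul_left ((Nat.Prime.coprime_iff_not_dvd hp).mpr h) h1, h2⟩

theorem gl_card_coprime_of_pow_eq_one {H : Type*} [Group H] [Finite H] {r n : ℕ} (h : ∀ x : H, x ^ r = 1)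
    (hr : r.Coprime n) : (Nat.card H).Coprime n := by
  refine Nat.Coprime.symm (Nat.coprime_of_dvd' fun p hp h1 h2 => ?_)
  have := Fact.mk hp
  obtain ⟨x, hx⟩ := exists_prime_orderOf_dvd_card' p h2
  exact hr.gcd_eq_one ▸ Nat.dvd_gcd (hx ▸ orderOf_dvd_of_pow_eq_one (h x)) h1

/-- Schur–Zassenhaus modulo a normal subgroup. -/
theorem gl_exists_compl_over {Γ : Type*} [Group Γ] [Finite Γ] {G N : Subgroup Γ} [G.Normal] [N.Normal]
    (hNG : N ≤ G) (hcop : (N.relIndex G).Coprime G.index) :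
    ∃ S : Subgroup Γ, G ⊔ S = ⊤ ∧ G ⊓ S = N ∧ N.relIndex S = G.index := by
  have hs := QuotientGroup.mk'_surjective N
  have := Subgroup.Normal.map ‹G.Normal› _ hs
  have hc : (G.map (QuotientGroup.mk' N)).comap (QuotientGroup.mk' N) = G := by
    rw [Subgroup.comap_map_eq, QuotientGroup.ker_mk', sup_eq_left.mpr hNG]
  have hi : (G.map (QuotientGroup.mk' N)).index = G.index := by
    conv_rhs => rw [← hc, Subgroup.index_comap_of_surjective _ hs]
  have hrel : ∀ H : Subgroup (Γ ⧸ N), N.relIndex (H.comap (QuotientGroup.mk' N)) = Nat.card H := by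
    intro H
    have := Subgroup.relIndex_ker (H.comap (QuotientGroup.mk' N)) (QuotientGroup.mk' N)
    rwa [QuotientGroup.ker_mk', Subgroup.map_comap_eq_self_of_surjective hs] at this
  obtain ⟨H, hH⟩ := Subgroup.exists_right_complement'_of_coprime (N := G.map (QuotientGroup.mk' N))
    (by rw [hi, ← hrel, hc]; exact hcop)
  refine ⟨H.comap (QuotientGroup.mk' N), ?_, ?_, ?_⟩
  · rw [← hc, Subgroup.comap_sup_eq _ _ _ hs, hH.sup_eq_top, Subgroup.comap_top]
  · rw [← hc, ← Subgroup.comap_inf, hH.disjoint.eq_bot, MonoidHom.comap_bot, QuotientGroup.ker_mk']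
  · rw [hrel, ← hi, hH.symm.index_eq_card]

universe u

namespace CharCover

variable {Γ : Type u} [Group Γ] [Finite Γ] {N : Subgroup Γ} [hN : N.Normal] {θ : N → ℂ} (C : CharCover N θ)

/-- The projection of the preimage of `N` (inside the preimage of `G`) onto `N`. -/
def glProj (G : Subgroup Γ) : (N.comap C.π).subgroupOf (G.comap C.π) →* N :=
  (C.π.comp ((G.comap C.π).subtype.comp (Subgroup.subtype _))).codRestrict N fun x => x.2

omit [Finite Γ] in
theorem glProj_surj {G : Subgroup Γ} (hNG : N ≤ G) : Function.Surjective (C.glProj G) := fun n =>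
  ⟨⟨C.ιH hNG n, C.ι_mem_comap le_rfl n⟩, Subtype.ext (C.π_ι n)⟩

/-- The coprime model: after twisting by an invariant linear character the extension `C.ext` agrees with the
inflation of `θ` on a normal subgroup `M` of index coprime to `n`. -/
theorem exists_model (G : Subgroup Γ) [hG : G.Normal] (hNG : N ≤ G) {n : ℕ} (hn : (N.relIndex G).Coprime n) :
    ∃ (M : Subgroup (G.comap C.π)) (ξ : G.comap C.π → ℂ)
      (lam : (N.comap C.π).subgroupOf (G.comap C.π) →* ℂˣ), M.Normal ∧
      (∀ x : C.Γ, ∀ m ∈ M, MulAut.conjNormal x m ∈ M) ∧ (∀ m, C.ιH hNG m ∈ M) ∧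
      M ≤ (N.comap C.π).subgroupOf (G.comap C.π) ∧ M.index.Coprime n ∧ IsCharacter _ ξ ∧
      (∀ (x : C.Γ) y, ξ (MulAut.conjNormal x y) = ξ y) ∧ 
      (∀ x : (N.comap C.π).subgroupOf (G.comap C.π), (x : G.comap C.π) ∈ M → lam x = 1) ∧
      (∀ (x : C.Γ) (y y' : (N.comap C.π).subgroupOf (G.comap C.π)),
        (y' : G.comap C.π) = MulAut.conjNormal x (y : G.comap C.π) → lam y' = lam y) ∧
      ∀ x : (N.comap C.π).subgroupOf (G.comap C.π), ξ x = lam x * θ (C.glProj G x) := by
  set H := G.comap C.π with hH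
  set L := (N.comap C.π).subgroupOf H with hL
  let ι : N →* L := (C.ιH hNG).codRestrict L fun m => C.ι_mem_comap le_rfl m
  have hι : ι.range.Normal := ⟨by
    rintro _ ⟨m, rfl⟩ x
    exact ⟨_, Subtype.ext (Subtype.ext (C.ι_conj x m).symm)⟩⟩
  have hpι : ∀ m, C.glProj G (ι m) = m := fun m => Subtype.ext (C.π_ι m)
  obtain ⟨lam, hl1, hl2⟩ := exists_linear_mul_of_comp_eq ι hι
    (C.base_irr.isCharacter.comp (C.glProj G)) ((C.ext_irr.isCharacter.restrict H).restrict L)
    (by simpa only [hpι] using C.base_irr) (fun m => by rw [hpι]; exact C.ext_ι m)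
  have hdec : ∀ y : L, ∃ (m : N) (z : L), ((z : H) : C.Γ) ∈ C.π.ker ∧ y = ι m * z := by
    intro y
    obtain ⟨z, hz⟩ := C.exists_eq_ι_mul (x := ((y : H) : C.Γ)) y.2
    exact ⟨_, ⟨⟨z, C.ker_le_comap G z.2⟩, C.ker_le_comap N z.2⟩, z.2, Subtype.ext (Subtype.ext hz)⟩
  have hinv : ∀ (mu : L →* ℂˣ), (∀ m, mu (ι m) = 1) →
      ∀ (x : C.Γ) (y y' : L), (y' : H) = MulAut.conjNormal x (y : H) → mu y' = mu y := by
    intro mu hmu x y y' e
    obtain ⟨m, z, hz, rfl⟩ := hdec y
    have : y' = ι ⟨C.π x * m * (C.π x)⁻¹, hN.conj_mem m m.2 _⟩ * z := by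
      refine Subtype.ext (e.trans (Subtype.ext ?_))
      change x * (C.ι m * ((z : H) : C.Γ)) * x⁻¹ = C.ι _ * ((z : H) : C.Γ)
      rw [← C.ι_conj, mul_assoc, mul_assoc, ← C.ker_comm ⟨_, hz⟩ x⁻¹]
      simp [mul_assoc]
    rw [this, map_mul, map_mul, hmu, hmu]
  obtain ⟨r₁, r₂, hr, hr₂, hr₁⟩ := gl_exists_split n (orderOf lam) (orderOf_pos lam).ne'
  set M := (lam ^ r₁).ker.map L.subtype with hM
  have hML : M ≤ L := Subgroup.map_subtype_le _
  have hmem : ∀ y : L, (y : H) ∈ M ↔ lam y ^ r₁ = 1 := fun y =>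
    (Subgroup.mem_map_iff_mem L.subtype_injective).trans Iff.rfl
  have hMinv : ∀ x : C.Γ, ∀ m ∈ M, MulAut.conjNormal x m ∈ M := by
    intro x m hm
    have hm' : MulAut.conjNormal x m ∈ L :=
      (inferInstance : (N.comap C.π).Normal).conj_mem _ (hML hm) x
    rw [hmem ⟨_, hm'⟩, hinv lam hl1 x ⟨m, hML hm⟩ _ rfl]
    exact (hmem ⟨m, hML hm⟩).mp hm
  have hMn : M.Normal := ⟨fun m hm x => hMinv x m hm⟩
  have hidx : M.index.Coprime n := by
    rw [← Subgroup.relIndex_mul_index hML]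
    refine Nat.Coprime.mul_left ?_ ?_
    · have : M.subgroupOf L = (lam ^ r₁).ker :=
        Subgroup.comap_map_eq_self_of_injective L.subtype_injective _
      rw [Subgroup.relIndex, this, Subgroup.index_ker]
      have : Finite (lam ^ r₁).range := Finite.of_surjective _ (lam ^ r₁).rangeRestrict_surjective
      refine gl_card_coprime_of_pow_eq_one (r := r₂) ?_ hr₂
      rintro ⟨_, y, rfl⟩
      refine Subtype.ext ?_
      change (lam y ^ r₁) ^ r₂ = 1
      rw [← pow_mul, ← hr, ← MonoidHom.pow_apply, pow_orderOf_eq_one, MonoidHom.one_apply]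
    · change ((N.comap C.π).relIndex (G.comap C.π)).Coprime n
      rwa [Subgroup.relIndex_comap, Subgroup.map_comap_eq_self_of_surjective C.π_surj]
  have hord : Nat.Coprime M.index (orderOf (lam.comp (Subgroup.inclusion hML))) :=
    (hr₁ _ hidx).coprime_dvd_right (orderOf_dvd_of_pow_eq_one (MonoidHom.ext fun m =>
      (hmem (Subgroup.inclusion hML m)).mp m.2))
  obtain ⟨mu, hmu1, hmu2⟩ := exists_linear_extension_of_coprime (lam.comp (Subgroup.inclusion hML))
    (fun g m => hinv lam hl1 g _ _ rfl) hord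
  have hmuinv : ∀ (x : C.Γ) y, mu (MulAut.conjNormal x y) = mu y := by
    intro x y
    have h1 : orderOf (mu.comp (MulAut.conjNormal x : MulAut H).toMonoidHom) ∣ orderOf mu :=
      orderOf_dvd_of_pow_eq_one (MonoidHom.ext fun y => by
        change (mu ^ orderOf mu) _ = 1
        rw [pow_orderOf_eq_one, MonoidHom.one_apply])
    have := linear_extension_unique (N := M) (μ := mu.comp (MulAut.conjNormal x : MulAut H).toMonoidHom)
      (μ' := mu) (fun m hm => by
        change mu (MulAut.conjNormal x m) = mu m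
        rw [hmu1 ⟨_, hMinv x m hm⟩, hmu1 ⟨m, hm⟩]
        exact hinv lam hl1 x _ _ rfl) ((hmu2 ▸ hord).coprime_dvd_right h1) (hmu2 ▸ hord)
    exact DFunLike.congr_fun this y
  have hιM : ∀ m, C.ιH hNG m ∈ M := fun m => (hmem (ι m)).mpr (by rw [hl1, one_pow])
  refine ⟨M, fun y => (mu⁻¹ y : ℂ) * C.ext y, (mu.comp L.subtype)⁻¹ * lam, hMn, hMinv, hιM, hML, hidx,
    (isIrrCharacter_linear mu⁻¹).isCharacter.mul (C.ext_irr.isCharacter.restrict H), fun x y => ?_,
    fun x hx => ?_, hinv _ fun m => ?_, fun x => ?_⟩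
  · simp only [MonoidHom.inv_apply, hmuinv]
    congr 1
    exact C.ext_irr.isClassFunction _ _
  · have : mu x = lam x := hmu1 ⟨x, hx⟩
    simp [this]
  · have : mu (ι m) = lam (ι m) := hmu1 ⟨_, hιM m⟩
    simp [this]
  · simp only [congrFun hl2 x]
    simp [mul_assoc]

end CharCover

/-- Isaacs 13.31. -/
theorem gl_exists_inv_over_normal {Γ : Type*} [Group Γ] [Finite Γ] (G N : Subgroup Γ) [hG : G.Normal]
    [hN : N.Normal] [Fintype N] (hNG : N ≤ G) (hcop : G.index.Coprime (N.relIndex G))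
    (hsolv : Group.IsSolvable (Γ ⧸ G) ∨ Group.IsSolvable (G ⧸ N.subgroupOf G)) {θ : N → ℂ}
    (hθ : IsIrrCharacter N θ) (hinv : ∀ (x : Γ) (n : N), θ ⟨x * n * x⁻¹, hN.conj_mem n n.2 x⟩ = θ n) :
    ∃ χ, IsIrrCharacter G χ ∧ (∀ (x : Γ) (g : G), χ ⟨x * g * x⁻¹, hG.conj_mem g g.2 x⟩ = χ g) ∧
      classInner (fun n : N => χ ⟨n, hNG n.2⟩) θ ≠ 0 := by
  obtain ⟨S, hS1, hS2, hS3⟩ := gl_exists_compl_over hNG hcop.symm
  have hNS : N ≤ S := hS2 ▸ inf_le_right
  suffices h : ∃ χ, IsIrrCharacter G χ ∧ (∀ x ∈ S, ∀ g : G, χ ⟨x * g * x⁻¹, hG.conj_mem g g.2 x⟩ = χ g) ∧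
      classInner (fun n : N => χ ⟨n, hNG n.2⟩) θ ≠ 0 by
    obtain ⟨χ, h1, h2, h3⟩ := h
    refine ⟨χ, h1, ?_, h3⟩
    rw [← inertia_eq_top_iff, eq_top_iff, ← hS1]
    exact sup_le (le_inertia h1.isClassFunction) h2
  rcases hsolv with hsolv | hsolv
  · obtain ⟨C⟩ := nonempty_charCover N hθ hinv
    obtain ⟨M, ξ, lam, hMn, hMinv, hιM, hML, hidx, hξ, hξinv, hlM, hlinv, hξL⟩ :=
      C.exists_model G hNG hcop.symm
    let H := G.comap C.π
    let L := (N.comap C.π).subgroupOf H
    have := Fintype.ofFinite H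
    have := Fintype.ofFinite L
    let φ : S.comap C.π →* MulAut H := MulAut.conjNormal.comp (S.comap C.π).subtype
    have hBs : Group.IsSolvable (S.comap C.π ⧸ (N.comap C.π).subgroupOf (S.comap C.π)) := by
      let f : S.comap C.π →* Γ ⧸ G := (QuotientGroup.mk' G).comp (C.π.comp (S.comap C.π).subtype)
      have hf : (N.comap C.π).subgroupOf (S.comap C.π) = f.ker := by
        ext x
        change C.π x ∈ N ↔ _
        exact ⟨fun h => (QuotientGroup.eq_one_iff _).mpr (hNG h),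
          fun h => hS2.le ⟨(QuotientGroup.eq_one_iff _).mp h, x.2⟩⟩
      exact Group.isSolvable_of_isSolvable_injective
        (f := (QuotientGroup.kerLift f).comp (QuotientGroup.quotientMulEquivOfEq hf).toMonoidHom)
        ((QuotientGroup.kerLift_injective f).comp (QuotientGroup.quotientMulEquivOfEq hf).injective)
    obtain ⟨η, hη, hηi, hηM, h1⟩ := gl_exists_inv_over_rel φ M (fun a => hMinv a)
      ((N.comap C.π).subgroupOf (S.comap C.π)) (fun b hb g => by
        obtain ⟨z, hz⟩ := C.exists_eq_ι_mul (x := (b : C.Γ)) hb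
        generalize (⟨C.π b, hb⟩ : N) = w at hz
        have h2 := M.mul_mem (hMn.conj_mem _ (hιM w) g⁻¹) (M.inv_mem (hιM w))
        convert h2 using 1
        refine Subtype.ext ?_
        change (g : C.Γ)⁻¹ * (b * g * (b : C.Γ)⁻¹) = (g : C.Γ)⁻¹ * C.ι w * (g : C.Γ)⁻¹⁻¹ * (C.ι w)⁻¹
        rw [hz, mul_assoc (C.ι w), ← C.ker_comm z g]
        group)
      (by
        change ((N.comap C.π).relIndex (S.comap C.π)).Coprime _
        rw [Subgroup.relIndex_comap, Subgroup.map_comap_eq_self_of_surjective C.π_surj, hS3]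
        exact hidx.symm) L
      (fun a n hn => (inferInstance : (N.comap C.π).Normal).conj_mem _ hn a) (isIrrCharacter_linear lam⁻¹)
      (by
        rw [charKer_monoidHom]
        intro x hx
        simp [MonoidHom.mem_ker, hlM x hx])
      (fun a n => by
        simp only [MonoidHom.inv_apply]
        rw [hlinv a n _ rfl])
    have h2 := clifford_of_invariant hη (isIrrCharacter_linear lam⁻¹) (fun g n => by
      simp only [MonoidHom.inv_apply]
      rw [hlinv g n _ rfl]) h1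
    set e := classInner (fun n : L => η n) (fun g => (lam⁻¹ g : ℂ))
    have h3 : ∀ x : L, (η * ξ) x = e * θ (C.glProj G x) := fun x => by
      rw [Pi.mul_apply, congrFun h2 x, hξL]
      simp [mul_assoc]
    have hpι : ∀ m, C.glProj G ⟨C.ιH hNG m, hML (hιM m)⟩ = m := fun m => Subtype.ext (C.π_ι m)
    have hξι : ∀ m, ξ (C.ιH hNG m) = θ m := fun m => by
      have := hξL ⟨C.ιH hNG m, hML (hιM m)⟩
      rwa [hlM _ (hιM m), hpι, Units.val_one, one_mul] at this
    have := C.normal_range_ιH hNG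
    have h4 : IsIrrCharacter H (η * ξ) := gallagher_irr hξ
      (isIrrCharacter_range_of_comp _ (C.ιH_injective hNG) (by simpa only [hξι] using hθ)) hη
      (by rintro _ ⟨m, rfl⟩; exact hηM (hιM m))
    obtain ⟨χ, hχ, h5⟩ := h4.exists_comp_eq (C.πH G) (C.πH_surj G) fun z hz => by
      have hz' : C.π z = 1 := congrArg Subtype.val hz
      have hzL : z ∈ L := by
        change C.π z ∈ N
        rw [hz']
        exact one_mem _
      rw [h4.mem_charKer]
      refine (h3 ⟨z, hzL⟩).trans (Eq.trans ?_ (h3 1).symm)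
      rw [map_one]
      congr 2
      exact Subtype.ext hz'
    refine ⟨χ, hχ, fun x hx g => ?_, ?_⟩
    · obtain ⟨x, rfl⟩ := C.π_surj x
      obtain ⟨g, rfl⟩ := C.πH_surj G g
      have e1 := congrFun h5 (MulAut.conjNormal x g)
      have e2 := congrFun h5 g
      simp only [Pi.mul_apply, hξinv] at e1 e2
      rw [← e2, ← hηi ⟨x, hx⟩ g]
      refine Eq.trans (congrArg χ (Subtype.ext ?_)) e1.symm
      simp [C.πH_apply]
    · have : (fun n : N => χ ⟨n, hNG n.2⟩) = e • θ := by
        funext m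
        rw [← C.πH_ιH hNG, ← congrFun h5, h3 ⟨C.ιH hNG m, hML (hιM m)⟩, hpι]
        rfl
      rw [this, classInner_smul_left, hθ.classInner_self, mul_one]
      exact h1
  · have hr : (Subgroup.inclusion hNG).range = N.subgroupOf G := Subgroup.inclusion_range hNG
    have hn : (Subgroup.inclusion hNG).range.Normal := hr ▸ inferInstance
    obtain ⟨χ, hχ, hχi, h1⟩ := gl_exists_inv_over_solv_aux (MulAut.conjNormal.comp S.subtype) (N.subgroupOf S)
      hθ (fun a n => hinv a n) _ G rfl (MulAut.conjNormal.comp S.subtype) (Subgroup.inclusion hNG)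
      (Subgroup.inclusion_injective hNG) (fun _ _ => rfl) (fun b hb => ⟨⟨b, hb⟩, fun g => rfl⟩)
      (by rw [hr]; rw [← hS3] at hcop; exact hcop)
      (Group.isSolvable_of_surjective (f := (QuotientGroup.quotientMulEquivOfEq hr).symm.toMonoidHom)
        (QuotientGroup.quotientMulEquivOfEq hr).symm.surjective)
    exact ⟨χ, hχ, fun x hx g => hχi ⟨x, hx⟩ g, h1⟩

end CL.Char
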