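import Cfsg.Agent.Base
import Cfsg.Agent.Char.FSParity
import Cfsg.Agent.Char.Unitary
import Cfsg.Agent.Char.Integrality

/-!
# Characters of real representations (Frobenius-Schur)
-/

namespace CL.Char

open Cfsg Matrix ComplexConjugate
open scoped InnerProductSpace

variable {G : Type*} [Group G]

theorem exists_unitary_irr_fin [Finite G] {χ : G → ℂ} (hχ : IsIrrCharacter G χ) :
    ∃ (n : ℕ) (ρ : Representation ℂ G (Fin n → ℂ)), ρ.IsIrreducible ∧ ρ.character = χ ∧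
      ∀ g, (fsMat ρ g)ᴴ * fsMat ρ g = 1 := by
  classical
  obtain ⟨σ, hU, hirr, hσ⟩ := exists_unitary_irr_rep hχ
  let e := WithLp.linearEquiv 2 ℂ (Fin (charDegree χ) → ℂ)
  refine ⟨_, repConj σ e, isIrreducible_of_equiv (repConjEquiv σ e),
    (Representation.char_iso (repConjEquiv σ e)).symm.trans hσ, fun g => ?_⟩
  ext i j
  have h1 := hU g (e.symm (Pi.single i 1)) (e.symm (Pi.single j 1))
  rw [PiLp.inner_apply, PiLp.inner_apply] at h1
  rw [Matrix.mul_apply]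
  convert h1 using 1
  · refine Finset.sum_congr rfl fun k _ => ?_
    simp [fsMat_apply, LinearMap.toMatrix'_apply, repConj_apply, e, mul_comm]
  · simp [e, Pi.single_apply, Matrix.one_apply, eq_comm]

theorem real_rep_of_fsInd [Fintype G] {χ : G → ℂ} (hχ : IsIrrCharacter G χ) (h : fsInd χ = 1) :
    ∃ (n : ℕ) (ρ : Representation ℝ G (Fin n → ℝ)),
      ∀ g : G, ((LinearMap.trace ℝ (Fin n → ℝ) (ρ g) : ℝ) : ℂ) = χ g := by
  classical
  obtain ⟨n, ρ, hirr, rfl, hU⟩ := exists_unitary_irr_fin hχ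
  have hinv : ∀ s, ρ.character s⁻¹ = ρ.character s := fun s =>
    (fs_im_eq_zero_iff hχ.isCharacter s).1 (fsInd_real hχ (by rw [h]; exact one_ne_zero) s)
  obtain ⟨⟨X, hX, hX0⟩, h1⟩ := fsp_form ρ hinv
  have hXT : Xᵀ = X := by rw [h1 X hX, h, one_smul]
  let c : Matrix (Fin n) (Fin n) ℂ →+* Matrix (Fin n) (Fin n) ℂ := (starRingEnd ℂ).mapMatrix
  have hc : ∀ Y : Matrix (Fin n) (Fin n) ℂ, c Y = (Yᴴ)ᵀ := fun _ => rfl
  have hcc : ∀ Y, c (c Y) = Y := fun Y => by ext i j; simp [c]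
  have hcs : ∀ (a : ℂ) Y, c (a • Y) = conj a • c Y := fun a Y => by ext i j; simp [c]
  have hA : ∀ g, fsMat ρ g * X = X * c (fsMat ρ g) := by
    intro g
    have h2 : fsMat ρ g * X * (fsMat ρ g)ᵀ = X := hX g
    have h3 : (fsMat ρ g)ᵀ * c (fsMat ρ g) = 1 := by
      rw [hc, ← transpose_mul, hU, transpose_one]
    conv_rhs => rw [← h2]
    rw [Matrix.mul_assoc, h3, Matrix.mul_one]
  obtain ⟨ω, hω⟩ := exists_scalar_of_commute ρ (Matrix.toLin' (X * c X)) (fun g => by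
    have h2 := congrArg c (hA g)
    rw [map_mul, map_mul, hcc] at h2
    have h3 : X * c X * fsMat ρ g = fsMat ρ g * (X * c X) := by
      rw [Matrix.mul_assoc, ← h2, ← Matrix.mul_assoc, ← hA, Matrix.mul_assoc]
    apply (LinearMap.toMatrix' (R := ℂ)).injective
    rw [Module.End.mul_eq_comp, Module.End.mul_eq_comp, LinearMap.toMatrix'_comp,
      LinearMap.toMatrix'_comp, LinearMap.toMatrix'_toLin', ← fsMat_apply, h3])
  have hω' : X * c X = ω • (1 : Matrix (Fin n) (Fin n) ℂ) := by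
    have := congrArg (LinearMap.toMatrix' (R := ℂ)) hω
    rwa [LinearMap.toMatrix'_toLin', map_smul, LinearMap.toMatrix'_id] at this
  obtain ⟨r, hr0, rfl⟩ : ∃ r : ℝ, 0 < r ∧ ω = r := by
    obtain ⟨i, j, hij⟩ : ∃ i j, X i j ≠ 0 := by
      by_contra hcon
      push Not at hcon
      exact hX0 (Matrix.ext hcon)
    refine ⟨∑ k, ‖X i k‖ ^ 2, Finset.sum_pos' (fun _ _ => by positivity)
      ⟨j, Finset.mem_univ _, by positivity⟩, ?_⟩
    have := congrFun (congrFun hω' i) i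
    rw [Matrix.smul_apply, Matrix.one_apply_eq, smul_eq_mul, mul_one, Matrix.mul_apply] at this
    rw [← this, Complex.ofReal_sum]
    refine Finset.sum_congr rfl fun k _ => ?_
    have h2 : X k i = X i k := congrFun (congrFun hXT i) k
    simp [c, h2, Complex.mul_conj, Complex.normSq_eq_norm_sq]
  set M := (((√r)⁻¹ : ℝ) : ℂ) • X with hM
  have hMM : M * c M = 1 := by
    rw [hM, hcs, Complex.conj_ofReal, Matrix.smul_mul, Matrix.mul_smul, hω', smul_smul, smul_smul,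
      ← Complex.ofReal_mul, ← Complex.ofReal_mul, ← mul_inv, Real.mul_self_sqrt hr0.le,
      inv_mul_cancel₀ hr0.ne', Complex.ofReal_one, one_smul]
  have hAM : ∀ g, fsMat ρ g * M = M * c (fsMat ρ g) := fun g => by
    rw [hM, Matrix.mul_smul, Matrix.smul_mul, hA]
  have hne : ∀ t : ℝ, (1 - t * Complex.I : ℂ) ≠ 0 := fun t h0 => by
    simpa using congrArg Complex.re h0
  obtain ⟨t, ht⟩ : ∃ t : ℝ, -(1 + t * Complex.I) / (1 - t * Complex.I) ∉ spectrum ℂ M := by
    have hinj : Function.Injective fun t : ℝ => -(1 + t * Complex.I) / (1 - t * Complex.I) := by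
      intro s t hst
      simp only at hst
      rw [div_eq_div_iff (hne s) (hne t)] at hst
      have := congrArg Complex.im hst
      simp at this
      linarith
    exact ((Matrix.finite_spectrum M).preimage hinj.injOn).exists_notMem
  set P := (1 + t * Complex.I : ℂ) • (1 : Matrix (Fin n) (Fin n) ℂ) + (1 - t * Complex.I : ℂ) • M
    with hP
  have hPu : IsUnit P := by
    rw [spectrum.notMem_iff] at ht
    have : P = (-(1 - t * Complex.I) : ℂ) •
        (algebraMap ℂ _ (-(1 + t * Complex.I) / (1 - t * Complex.I)) - M) := by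
      rw [Algebra.algebraMap_eq_smul_one, smul_sub, smul_smul, neg_smul _ M, sub_neg_eq_add,
        neg_mul, mul_div_cancel₀ _ (hne t), neg_neg]
    rw [this, Algebra.smul_def]
    exact ((IsUnit.mk0 _ (neg_ne_zero.mpr (hne t))).map (algebraMap ℂ _)).mul ht
  obtain ⟨U, hU'⟩ := hPu
  have hMP : M * c U = U := by
    rw [hU', hP, map_add, hcs, hcs, map_one, Matrix.mul_add, Matrix.mul_smul, Matrix.mul_smul, hMM,
      Matrix.mul_one, add_comm]
    simp [sub_eq_add_neg]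
  have hB : ∀ g, c (U⁻¹ * fsMat ρ g * U) = U⁻¹ * fsMat ρ g * U := by
    intro g
    have h2 : c (U⁻¹ : (Matrix (Fin n) (Fin n) ℂ)ˣ) = (U⁻¹ : (Matrix (Fin n) (Fin n) ℂ)ˣ) * M := by
      have h3 : c U * c (U⁻¹ : (Matrix (Fin n) (Fin n) ℂ)ˣ) = 1 := by
        rw [← map_mul, Units.mul_inv, map_one]
      calc _ = ((U⁻¹ : (Matrix (Fin n) (Fin n) ℂ)ˣ) * (M * c U)) *
            c (U⁻¹ : (Matrix (Fin n) (Fin n) ℂ)ˣ) := by rw [hMP, Units.inv_mul, one_mul]
        _ = _ := by rw [mul_assoc, mul_assoc, h3, mul_one]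
    rw [map_mul, map_mul, h2, mul_assoc _ M, ← hAM, mul_assoc, mul_assoc, hMP, ← mul_assoc]
  let ι : Matrix (Fin n) (Fin n) ℝ →+* Matrix (Fin n) (Fin n) ℂ := Complex.ofRealHom.mapMatrix
  have hι : Function.Injective ι := Matrix.map_injective Complex.ofReal_injective
  have hR : ∀ g, ι ((U⁻¹ * fsMat ρ g * U).map Complex.re) = U⁻¹ * fsMat ρ g * U := by
    intro g
    ext i j
    exact Complex.conj_eq_iff_re.mp (congrFun (congrFun (hB g) i) j)
  let R : G →* Matrix (Fin n) (Fin n) ℝ :=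
    { toFun := fun g => (U⁻¹ * fsMat ρ g * U).map Complex.re
      map_one' := hι (by rw [hR, map_one, map_one, mul_one, Units.inv_mul])
      map_mul' := fun a b => hι (by
        rw [map_mul ι, hR, hR, hR, map_mul]
        simp only [mul_assoc, Units.mul_inv_cancel_left]) }
  refine ⟨n, (Matrix.toLinAlgEquiv' (R := ℝ)).toMonoidHom.comp R, fun g => ?_⟩
  change ((LinearMap.trace ℝ _ (Matrix.toLin' (R g)) : ℝ) : ℂ) = _
  rw [Matrix.trace_toLin'_eq, ← fsMat_trace, ← Matrix.trace_units_conj' U (fsMat ρ g), ← hR]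
  simp [ι, R, Matrix.trace]

theorem fsInd_of_real_rep [Fintype G] {χ : G → ℂ} (hχ : IsIrrCharacter G χ) {n : ℕ}
    (ρ : Representation ℝ G (Fin n → ℝ))
    (h : ∀ g : G, ((LinearMap.trace ℝ (Fin n → ℝ) (ρ g) : ℝ) : ℂ) = χ g) : fsInd χ = 1 := by
  classical
  let ι : Matrix (Fin n) (Fin n) ℝ →+* Matrix (Fin n) (Fin n) ℂ := Complex.ofRealHom.mapMatrix
  let R : G →* Matrix (Fin n) (Fin n) ℝ := (LinearMap.toMatrixAlgEquiv' (R := ℝ)).toMonoidHom.comp ρ
  let σ : Representation ℂ G (Fin n → ℂ) :=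
    (Matrix.toLinAlgEquiv' (R := ℂ)).toMonoidHom.comp (ι.toMonoidHom.comp R)
  have hσ : ∀ g, fsMat σ g = ι (R g) := fun g => by
    rw [fsMat_apply]; exact LinearMap.toMatrix'_toLin' _
  have hχσ : σ.character = χ := by
    funext g
    rw [← fsMat_trace, hσ, ← h, ← Matrix.toLin'_toMatrix' (ρ g), Matrix.trace_toLin'_eq]
    simp [ι, R, Matrix.trace]
  subst hχσ
  haveI := isIrreducible_of_isIrrCharacter σ hχ
  have hinv : ∀ s, σ.character s⁻¹ = σ.character s := fun s =>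
    (fs_im_eq_zero_iff hχ.isCharacter s).1 (by rw [← h, Complex.ofReal_im])
  obtain ⟨-, h1⟩ := fsp_form σ hinv
  have h2 := h1 (∑ g, fsMat σ g * (fsMat σ g)ᵀ) (fun g => by
    rw [fsRep_apply, Finset.mul_sum, Finset.sum_mul]
    refine Fintype.sum_equiv (Equiv.mulLeft g) _ _ fun x => ?_
    simp [Matrix.mul_assoc])
  have h3 : (∑ g, fsMat σ g * (fsMat σ g)ᵀ)ᵀ = ∑ g, fsMat σ g * (fsMat σ g)ᵀ := by
    rw [Matrix.transpose_sum]
    simp
  rw [h3] at h2
  have hn : 0 < n := by simpa using finrank_pos_of_irr σ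
  have h4 : (∑ g, fsMat σ g * (fsMat σ g)ᵀ) ⟨0, hn⟩ ⟨0, hn⟩ =
      ((∑ g, ∑ k, R g ⟨0, hn⟩ k ^ 2 : ℝ) : ℂ) := by
    simp [Matrix.sum_apply, Matrix.mul_apply, hσ, ι, pow_two]
  have h5 : 0 < ∑ g, ∑ k, R g ⟨0, hn⟩ k ^ 2 :=
    Finset.sum_pos' (fun _ _ => by positivity) ⟨1, Finset.mem_univ _,
      Finset.sum_pos' (fun _ _ => by positivity) ⟨⟨0, hn⟩, Finset.mem_univ _, by simp⟩⟩
  have h6 := congrFun (congrFun h2 ⟨0, hn⟩) ⟨0, hn⟩
  rw [Matrix.smul_apply, h4, smul_eq_mul] at h6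
  exact mul_right_cancel₀ (by exact_mod_cast h5.ne') (h6.symm.trans (one_mul _).symm)

end CL.Char
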