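/-
The real-vector criterion for the `k(GV)` problem: the counting argument.
-/
import Cfsg.Agent.Char.KGV2
import Cfsg.Agent.Perm.PermChar2

set_option autoImplicit false

namespace CL.Char.RV

open Cfsg ComplexConjugate

/-- `x` is an algebraic integer with a power divisible by `p`. -/
def Nil (p : ℕ) (x : ℂ) : Prop := ∃ hx : x ∈ integralClosure ℤ ℂ,
  (⟨x, hx⟩ : integralClosure ℤ ℂ) ∈ (Ideal.span {(p : integralClosure ℤ ℂ)}).radical

section Nil
variable {p : ℕ} {x y : ℂ}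

theorem Nil.of_pow (hx : IsIntegral ℤ x) (k : ℕ) (h : CongMod p (x ^ k) 0) : Nil p x := by
  obtain ⟨r, hr, e⟩ := h
  exact ⟨hx, k, Ideal.mem_span_singleton'.2 ⟨⟨r, hr⟩, Subtype.ext (by simp [e, mul_comm])⟩⟩

theorem Nil.zero : Nil p 0 := ⟨zero_mem _, zero_mem _⟩

theorem Nil.add (h : Nil p x) (h' : Nil p y) : Nil p (x + y) :=
  ⟨add_mem h.1 h'.1, add_mem h.2 h'.2⟩

theorem Nil.mul_left (hy : IsIntegral ℤ y) (h : Nil p x) : Nil p (y * x) :=
  ⟨mul_mem hy h.1, Ideal.mul_mem_left _ ⟨y, hy⟩ h.2⟩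

theorem Nil.mul_right (h : Nil p x) (hy : IsIntegral ℤ y) : Nil p (x * y) :=
  mul_comm y x ▸ h.mul_left hy

theorem Nil.sub (h : Nil p x) (h' : Nil p y) : Nil p (x - y) :=
  ⟨sub_mem h.1 h'.1, sub_mem h.2 h'.2⟩

theorem Nil.sum {ι : Type*} (s : Finset ι) {f : ι → ℂ} (h : ∀ i ∈ s, Nil p (f i)) :
    Nil p (∑ i ∈ s, f i) :=
  Finset.sum_induction f (Nil p) (fun _ _ => Nil.add) Nil.zero h

theorem Nil.of_dvd {n : ℕ} (h : p ∣ n) : Nil p n := by
  obtain ⟨m, rfl⟩ := h
  exact Nil.of_pow (isIntegral_natCast _) 1 ⟨m, isIntegral_natCast _, by simp⟩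

theorem Nil.dvd (hp : p.Prime) {n : ℕ} (h : Nil p n) : p ∣ n := by
  obtain ⟨_, k, hk⟩ := h
  obtain ⟨r, hr⟩ := Ideal.mem_span_singleton'.1 hk
  have h1 : CongMod p ((n ^ k : ℕ) : ℤ) (0 : ℤ) :=
    ⟨r, r.2, by simpa [mul_comm] using (congrArg Subtype.val hr).symm⟩
  exact hp.dvd_of_dvd_pow (Int.natCast_dvd_natCast.1 (Int.modEq_zero_iff_dvd.1 h1.intModEq))

end Nil

theorem isIntegral_conj {x : ℂ} (h : IsIntegral ℤ x) : IsIntegral ℤ (conj x) :=
  map_isIntegral_int (starRingEnd ℂ) h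

theorem isIntegral_of_coprime {x : ℂ} {a b : ℕ} (h : a.Coprime b) (ha : IsIntegral ℤ (a * x))
    (hb : IsIntegral ℤ (b * x)) : IsIntegral ℤ x := by
  obtain ⟨u, v, e⟩ := Nat.isCoprime_iff_coprime.2 h
  have e' : (u : ℂ) * a + v * b = 1 := by exact_mod_cast congrArg (Int.cast : ℤ → ℂ) e
  have : x = u * (a * x) + v * (b * x) := by linear_combination (-x) * e'
  rw [this]
  exact ((isIntegral_intCast u).mul ha).add ((isIntegral_intCast v).mul hb)

theorem exists_one_le_norm {x : ℂ} (h0 : x ≠ 0) (hx : IsIntegral ℤ x) :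
    ∃ σ : ℂ ≃+* ℂ, 1 ≤ ‖σ x‖ := by
  by_contra! h
  have := norm_eq_one_of_forall_norm_le_one h0 hx fun σ => (h σ).le
  exact (h (RingEquiv.refl ℂ)).ne this

theorem card_le_of_gal {ι : Type*} [Fintype ι] (c : ι → ℂ) (h0 : ∀ i, c i ≠ 0)
    (hc : ∀ i, IsIntegral ℤ (c i)) {B : ℝ} (h : ∀ σ : ℂ ≃+* ℂ, ∑ i, ‖σ (c i)‖ ^ 2 ≤ B) :
    (Fintype.card ι : ℝ) ≤ B := by
  obtain ⟨σ, hσ⟩ := exists_one_le_norm (Finset.prod_ne_zero_iff.2 fun i _ => h0 i)
    (IsIntegral.prod (s := Finset.univ) _ fun i _ => hc i)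
  refine (card_le_sum_of_one_le_prod Finset.univ _ (fun i _ => by positivity) ?_).trans (h σ)
  rw [Finset.prod_pow, ← norm_prod, ← map_prod]
  exact one_le_pow₀ hσ

section ISpan
variable {H : Type*} [Group H] [Fintype H]

/-- Combinations of characters with algebraic integer coefficients. -/
def ISpan (f : H → ℂ) : Prop :=
  IsClassFunction H f ∧ ∀ φ, IsCharacter H φ → IsIntegral ℤ (classInner f φ)

variable {f g : H → ℂ}

theorem ISpan.of_char (h : IsCharacter H f) : ISpan f :=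
  ⟨h.isClassFunction, fun φ hφ => by
    obtain ⟨n, e⟩ := h.exists_nat_classInner hφ
    rw [e]; exact isIntegral_natCast _⟩

theorem ISpan.add (h : ISpan f) (h' : ISpan g) : ISpan (f + g) :=
  ⟨h.1.add h'.1, fun φ hφ => by rw [classInner_add_left]; exact (h.2 φ hφ).add (h'.2 φ hφ)⟩

theorem ISpan.sub (h : ISpan f) (h' : ISpan g) : ISpan (f - g) :=
  ⟨h.1.sub h'.1, fun φ hφ => by rw [classInner_sub_left]; exact (h.2 φ hφ).sub (h'.2 φ hφ)⟩

theorem ISpan.smul (h : ISpan f) {c : ℂ} (hc : IsIntegral ℤ c) : ISpan (c • f) :=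
  ⟨h.1.smul c, fun φ hφ => by rw [classInner_smul_left]; exact hc.mul (h.2 φ hφ)⟩

theorem ISpan.const {c : ℂ} (hc : IsIntegral ℤ c) : ISpan (fun _ : H => c) := by
  have := (ISpan.of_char (irrOne H).2.isCharacter).smul hc
  convert this using 1
  funext x; simp

theorem ISpan.sum {ι : Type*} (s : Finset ι) {F : ι → H → ℂ} (h : ∀ i ∈ s, ISpan (F i)) :
    ISpan (∑ i ∈ s, F i) :=
  Finset.sum_induction F ISpan (fun _ _ => ISpan.add) (ISpan.const isIntegral_zero) h

theorem ISpan.mul (h : ISpan f) (h' : ISpan g) : ISpan (f * g) := by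
  rw [h'.1.eq_sum_irr, Finset.mul_sum]
  refine ISpan.sum _ fun ψ _ => ?_
  rw [mul_smul_comm]
  refine ISpan.smul ⟨h.1.mul ψ.2.isCharacter.isClassFunction, fun φ hφ => ?_⟩ (h'.2 _ ψ.2.isCharacter)
  have := h.2 _ (ψ.2.conj.isCharacter.mul hφ)
  convert this using 1
  simp [classInner_def, mul_assoc]

theorem ISpan.tw {V : Type*} [AddCommGroup V] [Module ℂ V] [FiniteDimensional ℂ V]
    (ρ : Representation ℂ H V) {T : Module.End ℂ V} (hT : ∀ g, Commute T (ρ g))
    (hint : IsIntegral ℤ T) : ISpan (CL.Perm.twTrace ρ T) :=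
  ⟨CL.Perm.isClassFunction_twTrace ρ hT, fun _ hφ =>
    CL.Perm.isIntegral_classInner_twTrace ρ hT hint hφ⟩

/-- A function with prime power values is invertible up to a power of the prime. -/
theorem ISpan.exists_inv {p : ℕ} {π : H → ℕ} (h : ISpan fun x => (π x : ℂ)) (n : ℕ) :
    ∃ (N : ℕ) (g : H → ℂ), ISpan g ∧ ∀ x, (∃ i < n, π x = p ^ i) → g x * π x = (p : ℂ) ^ N := by
  induction n with
  | zero => exact ⟨0, _, h, fun x ⟨i, hi, _⟩ => absurd hi (Nat.not_lt_zero i)⟩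
  | succ n ih =>
    obtain ⟨N, g, hg, e⟩ := ih
    refine ⟨N + n, (fun _ => (p : ℂ) ^ N) + g * ((fun _ => (p : ℂ) ^ n) - fun x => (π x : ℂ)),
      (ISpan.const ((isIntegral_natCast p).pow N)).add
        (hg.mul ((ISpan.const ((isIntegral_natCast p).pow n)).sub h)), fun x ⟨i, hi, hx⟩ => ?_⟩
    simp only [Pi.add_apply, Pi.mul_apply, Pi.sub_apply, pow_add]
    rcases Nat.lt_succ_iff_lt_or_eq.1 hi with h1 | rfl
    · linear_combination ((p : ℂ) ^ n - π x) * e x ⟨i, h1, hx⟩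
    · rw [hx]; push_cast; ring

theorem parseval (h : IsClassFunction H f) :
    (∑ φ : IrrCharacter H, ‖classInner f φ‖ ^ 2) * Nat.card H = ∑ x, ‖f x‖ ^ 2 := by
  have h1 := h.classInner_eq_sum f
  rw [classInner_def, inv_mul_eq_iff_eq_mul₀ natCard_ne_zero] at h1
  simp only [Complex.mul_conj, Complex.normSq_eq_norm_sq] at h1
  rw [mul_comm]
  exact_mod_cast h1.symm

/-- A square root of the function `k`. -/
structure Root (p : ℕ) (k : H → ℕ) (γ : H → ℂ) : Prop where
  int : ∀ h, IsIntegral ℤ (γ h)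
  span : ∃ N : ℕ, ISpan ((p : ℂ) ^ N • γ)
  nrm : ∀ (σ : ℂ ≃+* ℂ) h, ‖σ (γ h)‖ ^ 2 = k h
  one : γ 1 = 1
  nil : ∀ h, k h ≠ 1 → Nil p (γ h)

theorem Root.mul {p : ℕ} {k k' : H → ℕ} {γ γ' : H → ℂ} (h : Root p k γ) (h' : Root p k' γ') :
    Root p (k * k') (γ * γ') where
  int x := (h.int x).mul (h'.int x)
  span := by
    obtain ⟨N, e⟩ := h.span
    obtain ⟨N', e'⟩ := h'.span
    exact ⟨N + N', by rw [pow_add, ← smul_mul_smul_comm]; exact e.mul e'⟩
  nrm σ x := by simp [mul_pow, h.nrm, h'.nrm]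
  one := by simp [h.one, h'.one]
  nil x hx := by
    by_cases e : k x = 1
    · exact (h'.nil x fun e' => hx (by simp [e, e'])).mul_left (h.int x)
    · exact (h.nil x e).mul_right (h'.int x)

end ISpan

theorem card_cent_le {X : Type*} [Group X] [Finite X] {p : ℕ} [hp : Fact p.Prime] {V : Subgroup X}
    [hV : V.Normal] (hVexp : ∀ v ∈ V, v ^ p = 1) (hVab : ∀ a ∈ V, ∀ b ∈ V, a * b = b * a)
    {G : Subgroup X} (hGV : Subgroup.IsComplement' V G) (hG : ¬ p ∣ Nat.card G) {v : X} (hv : v ∈ V)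
    (h : ↥(G ⊓ Subgroup.centralizer ({v} : Set X))) :
    Nat.card (Subgroup.centralizer ({v * h} : Set X)) ≤
      Nat.card ↥(V ⊓ Subgroup.centralizer ({(h : X)} : Set X)) *
        Nat.card (Subgroup.centralizer ({h} : Set ↥(G ⊓ Subgroup.centralizer ({v} : Set X)))) := by
  rw [← Nat.card_prod]
  have hc : Commute v h := (Subgroup.mem_centralizer_singleton_iff.1 h.2.2).symm
  obtain ⟨m, m1, m2⟩ := Nat.chineseRemainder ((Nat.Prime.coprime_iff_not_dvd hp.out).2 hG) 1 0
  have hm : (v * h) ^ m = v := by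
    rw [hc.mul_pow, pow_eq_pow_of_modEq m1 (hVexp v hv), pow_one,
      pow_eq_pow_of_modEq m2 (orderOf_dvd_iff_pow_eq_one.1 (G.orderOf_dvd_natCard h.2.1)), pow_zero,
      mul_one]
  refine Nat.card_le_card_of_surjective (fun y => ⟨(y.1 : X) * (y.2.1 : X),
    Subgroup.mem_centralizer_singleton_iff.2 ?_⟩) ?_
  · have h1 : Commute (y.1 : X) v := hVab _ y.1.2.1 v hv
    have h2 : Commute (y.1 : X) h := Subgroup.mem_centralizer_singleton_iff.1 y.1.2.2
    have h3 : Commute (y.2.1 : X) v := Subgroup.mem_centralizer_singleton_iff.1 y.2.1.2.2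
    have h4 : Commute (y.2.1 : X) h :=
      congrArg Subtype.val (Subgroup.mem_centralizer_singleton_iff.1 y.2.2)
    exact (h1.mul_right h2).mul_left (h3.mul_right h4)
  · rintro ⟨g, hg⟩
    obtain ⟨⟨a, b⟩, rfl⟩ := hGV.2 g
    have h1 : Commute ((a : X) * b) (v * h) := Subgroup.mem_centralizer_singleton_iff.1 hg
    have h2 : Commute ((a : X) * b) v := hm ▸ h1.pow_right m
    have h3 : Commute ((a : X) * b) h := by
      have := h2.inv_right.mul_right h1
      rwa [inv_mul_cancel_left] at this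
    have h4 : Commute (b : X) v := by
      have := (show Commute (a : X) v from hVab _ a.2 v hv).inv_left.mul_left h2
      rwa [inv_mul_cancel_left] at this
    have h5 : Commute (b : X) h := by
      have e : (b : X) * h * (b : X)⁻¹ * (h : X)⁻¹ = (a : X)⁻¹ * (h * a * (h : X)⁻¹) := by
        calc _ = (a : X)⁻¹ * (a * b * h) * (b : X)⁻¹ * (h : X)⁻¹ := by group
          _ = _ := by rw [h3.eq]; group
      have h6 := Subgroup.disjoint_def.1 hGV.disjoint
        (e ▸ mul_mem (inv_mem a.2) (hV.conj_mem _ a.2 _))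
        (mul_mem (mul_mem (mul_mem b.2 h.2.1) (inv_mem b.2)) (inv_mem h.2.1))
      rwa [mul_inv_eq_one, mul_inv_eq_iff_eq_mul] at h6
    have h6 : Commute (a : X) h := by
      have := h3.mul_left h5.inv_left
      rwa [mul_inv_cancel_right] at this
    exact ⟨(⟨a, a.2, Subgroup.mem_centralizer_singleton_iff.2 h6⟩,
      ⟨⟨b, b.2, Subgroup.mem_centralizer_singleton_iff.2 h4⟩,
        Subgroup.mem_centralizer_singleton_iff.2 (Subtype.ext h5)⟩), rfl⟩

/-- The counting argument of Knörr and Robinson–Thompson. -/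
theorem bound {X : Type*} [Group X] [Finite X] {p : ℕ} [hp : Fact p.Prime] {V : Subgroup X}
    [hV : V.Normal] (hVexp : ∀ v ∈ V, v ^ p = 1) (hidx : ¬ p ∣ V.index)
    (hVab : ∀ a ∈ V, ∀ b ∈ V, a * b = b * a)
    {G : Subgroup X} (hGV : Subgroup.IsComplement' V G) {v : X} (hv : v ∈ V)
    [Fintype ↥(G ⊓ Subgroup.centralizer ({v} : Set X))]
    {k : ↥(G ⊓ Subgroup.centralizer ({v} : Set X)) → ℕ} {γ : _ → ℂ} (hγ : Root p k γ)
    (h1 : ∀ h, h ≠ 1 → k h ≠ 1)
    (h2 : ∀ h, k h * Nat.card ↥(V ⊓ Subgroup.centralizer ({(h : X)} : Set X)) ≤ Nat.card V) :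
    Nat.card (ConjClasses X) ≤ Nat.card V := by
  classical
  have hG : ¬ p ∣ Nat.card G := by rwa [← hGV.symm.index_eq_card]
  have hH : ¬ p ∣ Nat.card ↥(G ⊓ Subgroup.centralizer ({v} : Set X)) := fun h =>
    hG (h.trans (Subgroup.card_dvd_of_le inf_le_left))
  have hc := fun h => card_cent_le hVexp hVab hGV hG hv h
  generalize hHe : G ⊓ Subgroup.centralizer ({v} : Set X) = H at *
  have hvH : ∀ h : H, Commute v h := fun h =>
    (Subgroup.mem_centralizer_singleton_iff.1 (hHe.ge h.2).2).symm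
  have hd : ∀ χ, IsCharacter X χ → ISpan fun h : H => χ (v * h) := by
    rintro _ ⟨n, ρ, rfl⟩
    have := ISpan.tw (ρ.comp H.subtype) (T := ρ v) (fun h => (hvH h).map ρ) (isIntegral_rep ρ v)
    convert this using 1
    funext h
    rw [(hvH h).eq, Representation.character, map_mul]
    rfl
  obtain ⟨N, hN⟩ := hγ.span
  have hp0 : (p : ℂ) ^ N ≠ 0 := pow_ne_zero _ (Nat.cast_ne_zero.2 hp.out.ne_zero)
  have hcl : IsClassFunction H γ := fun a b => mul_left_cancel₀ hp0 (hN.1 a b)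
  have hsum : ∀ (χ : X → ℂ) (φ : H → ℂ), (Nat.card H : ℂ) * classInner (fun h : H => γ h * χ (v * h)) φ =
      ∑ h : H, γ h * χ (v * h) * conj (φ h) := fun χ φ => by
    rw [classInner_def, mul_inv_cancel_left₀ natCard_ne_zero]
  have key := card_le_of_gal (fun i : IrrCharacter X × IrrCharacter H =>
    classInner (fun h : H => γ h * (i.1 : X → ℂ) (v * h)) (i.2 : H → ℂ)) (fun ⟨χ, φ⟩ h0 => ?_)
    (fun ⟨χ, φ⟩ => ?_) (B := Nat.card V * Nat.card (IrrCharacter H)) fun σ => ?_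
  · rw [Fintype.card_prod, ← Nat.card_eq_fintype_card, ← Nat.card_eq_fintype_card, Nat.cast_mul,
      mul_le_mul_iff_left₀ (Nat.cast_pos.2 Nat.card_pos), Nat.cast_le,
      card_irr_eq_card_conjClasses] at key
    exact key
  · have e := hsum χ φ
    simp only at h0
    rw [h0, mul_zero, ← Finset.add_sum_erase _ _ (Finset.mem_univ 1), hγ.one] at e
    obtain ⟨a, -, ha⟩ := χ.2.exists_nat_one
    obtain ⟨b, -, hb⟩ := φ.2.exists_nat_one
    have n1 := Nil.sum (p := p) (Finset.univ.erase 1) fun h hh =>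
      ((hγ.nil h (h1 h (Finset.ne_of_mem_erase hh))).mul_right
        (isChar_isIntegral χ.2.isCharacter (v * h))).mul_right
        (isIntegral_conj (isChar_isIntegral φ.2.isCharacter h))
    have n2 : Nil p ((χ : X → ℂ) v - (χ : X → ℂ) 1) := Nil.of_pow
      ((isChar_isIntegral χ.2.isCharacter _).sub (isChar_isIntegral χ.2.isCharacter _)) (p ^ 1)
      (isGenChar_congMod_sub_pow χ.2.isGeneralizedCharacter hp.out (by simp [hVexp v hv]))
    have n3 : Nil p ((a * b : ℕ) : ℂ) := by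
      have := (Nil.zero.sub n1).sub (n2.mul_right (isIntegral_natCast b))
      convert this using 1
      rw [hb, Complex.conj_natCast, OneMemClass.coe_one, mul_one] at e
      rw [ha]
      push_cast
      linear_combination -e
    rcases (Nat.Prime.dvd_mul hp.out).1 (n3.dvd hp.out) with h | h
    · exact hidx (h.trans (isIrr_degree_dvd_index_of_abelian_normal χ.2 ha V hVab))
    · exact hH (h.trans (isIrr_degree_dvd_card φ.2 hb))
  · refine isIntegral_of_coprime (((Nat.Prime.coprime_iff_not_dvd hp.out).2 hH).pow_left N) ?_ ?_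
    · have := (hN.mul (hd _ χ.2.isCharacter)).2 _ φ.2.isCharacter
      rw [smul_mul_assoc, classInner_smul_left] at this
      rw [Nat.cast_pow]
      exact this
    · rw [hsum]
      exact IsIntegral.sum _ fun h _ => ((hγ.int h).mul (isChar_isIntegral χ.2.isCharacter _)).mul
        (isIntegral_conj (isChar_isIntegral φ.2.isCharacter h))
  · have hpos : (0 : ℝ) < Nat.card H := Nat.cast_pos.2 Nat.card_pos
    rw [← mul_le_mul_iff_left₀ hpos, Fintype.sum_prod_type, Finset.sum_mul]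
    have e1 : ∀ χ : IrrCharacter X, (∑ φ : IrrCharacter H, ‖σ (classInner
        (fun h : H => γ h * (χ : X → ℂ) (v * h)) (φ : H → ℂ))‖ ^ 2) * Nat.card H =
        ∑ h : H, k h * ‖(galIrr σ χ : X → ℂ) (v * h)‖ ^ 2 := fun χ => by
      have e2 := parseval (isClassFunction_gal (hcl.mul (hd _ χ.2.isCharacter).1) σ)
      rw [← (galIrr σ).sum_comp] at e2
      simp only [Pi.mul_apply, map_mul, norm_mul, mul_pow, hγ.nrm] at e2
      simp only [galIrr_apply, ← e2]
      congr 1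
      refine Finset.sum_congr rfl fun φ _ => ?_
      have e3 := classInner_gal_gal (fun h : H => γ h * (χ : X → ℂ) (v * h))
        φ.2.isGeneralizedCharacter σ.toRingHom
      simp only [map_mul, RingEquiv.toRingHom_eq_coe, RingHom.coe_coe] at e3
      rw [← e3]
      rfl
    simp only [e1]
    rw [(galIrr σ).sum_comp (fun χ : IrrCharacter X => ∑ h : H, k h * ‖(χ : X → ℂ) (v * h)‖ ^ 2),
      Finset.sum_comm]
    have e4 : (Nat.card (IrrCharacter H) : ℝ) * Nat.card H =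
        ∑ h : H, (Nat.card (Subgroup.centralizer ({h} : Set H)) : ℝ) := by
      simp only [← sum_irr_norm_sq]
      rw [Finset.sum_comm]
      simp only [fun φ : IrrCharacter H => irr_sum_norm_sq φ.2]
      simp
    rw [mul_assoc, e4, Finset.mul_sum]
    refine Finset.sum_le_sum fun h _ => ?_
    rw [← Finset.mul_sum, sum_irr_norm_sq]
    exact_mod_cast (Nat.mul_le_mul_left _ (hc h)).trans
      (by rw [← mul_assoc]; exact Nat.mul_le_mul_right _ (h2 h))

end CL.Char.RV
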