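/-
Self-dual modules in coprime characteristic over a finite field split into a symplectic and an orthogonal part.
-/
import Cfsg.Agent.Base
import Mathlib.RepresentationTheory.Maschke
import Mathlib.LinearAlgebra.BilinearForm.Properties
import Mathlib.LinearAlgebra.Dual.Lemmas
import Mathlib.Algebra.CharP.Two

set_option autoImplicit false

namespace CL.Char.SelfDual

variable {F : Type*} [Field F] {G : Type*} [Group G] {V : Type*} [AddCommGroup V] [Module F V]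
  (ρ : Representation F G V)

/-- `U` is invariant. -/
def Inv (U : Submodule F V) : Prop := ∀ g : G, ∀ u ∈ U, ρ g u ∈ U

/-- The form `A` is invariant and nondegenerate on `U`. -/
def NI (U : Submodule F V) (A : LinearMap.BilinForm F V) : Prop :=
  (∀ g : G, ∀ x ∈ U, ∀ y ∈ U, A (ρ g x) (ρ g y) = A x y) ∧ ∀ x ∈ U, (∀ y ∈ U, A x y = 0) → x = 0

variable {ρ}

theorem Inv.sup {U T : Submodule F V} (hU : Inv ρ U) (hT : Inv ρ T) : Inv ρ (U ⊔ T) := by
  intro g x hx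
  obtain ⟨u, hu, t, ht, rfl⟩ := Submodule.mem_sup.1 hx
  rw [map_add]
  exact Submodule.add_mem_sup (hU g u hu) (hT g t ht)

theorem inv_bot : Inv ρ ⊥ := fun g u hu => by
  rw [Submodule.mem_bot] at hu ⊢
  rw [hu, map_zero]

theorem exists_proj {U T : Submodule F V} (h : Disjoint U T) :
    ∃ π : V →ₗ[F] V, (∀ v, π v ∈ U) ∧ (∀ u ∈ U, π u = u) ∧ ∀ t ∈ T, π t = 0 := by
  obtain ⟨C, hC, hc⟩ := h.symm.exists_isCompl
  exact ⟨U.projection C hc.symm, fun v => Submodule.projection_apply_mem _ v,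
    fun u hu => Submodule.projection_apply_of_mem_left _ hu,
    fun t ht => (Submodule.projection_apply_eq_zero_iff _).2 (hC ht)⟩

theorem NI.sup {U T : Submodule F V} {A A' : LinearMap.BilinForm F V} (hU : Inv ρ U) (hT : Inv ρ T)
    (h : Disjoint U T) (hA : NI ρ U A) (hA' : NI ρ T A') :
    ∃ π π' : V →ₗ[F] V, NI ρ (U ⊔ T) (A.comp π π + A'.comp π' π') := by
  obtain ⟨π, -, h1, h2⟩ := exists_proj h
  obtain ⟨π', -, h3, h4⟩ := exists_proj h.symm
  have key : ∀ u ∈ U, ∀ t ∈ T, ∀ u' ∈ U, ∀ t' ∈ T,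
      (A.comp π π + A'.comp π' π') (u + t) (u' + t') = A u u' + A' t t' := by
    intro u hu t ht u' hu' t' ht'
    simp [h1 u hu, h1 u' hu', h2 t ht, h2 t' ht', h3 t ht, h3 t' ht', h4 u hu, h4 u' hu']
  refine ⟨π, π', fun g x hx y hy => ?_, fun x hx hx0 => ?_⟩
  · obtain ⟨u, hu, t, ht, rfl⟩ := Submodule.mem_sup.1 hx
    obtain ⟨u', hu', t', ht', rfl⟩ := Submodule.mem_sup.1 hy
    rw [map_add (ρ g), map_add (ρ g), key _ (hU g u hu) _ (hT g t ht) _ (hU g u' hu') _ (hT g t' ht'),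
      key u hu t ht u' hu' t' ht', hA.1 g u hu u' hu', hA'.1 g t ht t' ht']
  · obtain ⟨u, hu, t, ht, rfl⟩ := Submodule.mem_sup.1 hx
    have e1 : u = 0 := hA.2 u hu fun y hy => by
      have := hx0 (y + 0) (Submodule.add_mem_sup hy T.zero_mem)
      rw [key u hu t ht y hy 0 T.zero_mem] at this
      simpa using this
    have e2 : t = 0 := hA'.2 t ht fun y hy => by
      have := hx0 (0 + y) (Submodule.add_mem_sup U.zero_mem hy)
      rw [key u hu t ht 0 U.zero_mem y hy] at this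
      simpa using this
    rw [e1, e2, add_zero]

theorem apply_inv_apply (g : G) (v : V) : ρ g (ρ g⁻¹ v) = v := by
  rw [← Module.End.mul_apply, ← map_mul, mul_inv_cancel, map_one, Module.End.one_apply]

theorem inv_apply_apply (g : G) (v : V) : ρ g⁻¹ (ρ g v) = v := by
  rw [← Module.End.mul_apply, ← map_mul, inv_mul_cancel, map_one, Module.End.one_apply]

theorem exists_inv_isCompl [Finite G] [NeZero (Nat.card G : F)] {U : Submodule F V} (hU : Inv ρ U) :
    ∃ W, Inv ρ W ∧ IsCompl U W := by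
  obtain ⟨W, hW⟩ := exists_isCompl (⟨U, fun g v hv => hU g v hv⟩ : Subrepresentation ρ)
  refine ⟨W.toSubmodule, fun g v hv => W.apply_mem_toSubmodule g hv, ?_, ?_⟩
  · rw [disjoint_iff]
    exact congrArg Subrepresentation.toSubmodule hW.inf_eq_bot
  · rw [codisjoint_iff]
    exact congrArg Subrepresentation.toSubmodule hW.sup_eq_top

/-- Cancellation: a proper self-dual submodule of a self-dual module leaves a nonzero invariant form. -/
theorem exists_form_of_ne_top [Finite F] [FiniteDimensional F V] [Finite G] [NeZero (Nat.card G : F)]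
    {B C : LinearMap.BilinForm F V} (hB : NI ρ ⊤ B) {M : Submodule F V} (hM : Inv ρ M) (hC : NI ρ M C)
    (hne : M ≠ ⊤) : ∃ β : LinearMap.BilinForm F V, β ≠ 0 ∧ (∀ g x y, β (ρ g x) (ρ g y) = β x y) ∧
      (∀ m ∈ M, ∀ y, β m y = 0) ∧ ∀ m ∈ M, ∀ x, β x m = 0 := by
  classical
  by_contra hcon
  push Not at hcon
  obtain ⟨R, hR, hc⟩ := exists_inv_isCompl hM
  let π := R.projection M hc.symm
  have hπR : ∀ r ∈ R, π r = r := fun r hr => Submodule.projection_apply_of_mem_left _ hr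
  have hπM : ∀ m ∈ M, π m = 0 := fun m hm => (Submodule.projection_apply_eq_zero_iff _).2 hm
  have hdec : ∀ v, ∃ m ∈ M, ∃ r ∈ R, m + r = v := fun v =>
    Submodule.mem_sup.1 (hc.sup_eq_top ▸ Submodule.mem_top)
  have hπ : ∀ g v, π (ρ g v) = ρ g (π v) := by
    intro g v
    obtain ⟨m, hm, r, hr, rfl⟩ := hdec v
    simp [hπR r hr, hπM m hm, hπR _ (hR g r hr), hπM _ (hM g m hm)]
  let l : M →ₗ[F] Module.Dual F M := C.restrict M
  have hl : Function.Bijective l := by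
    have hinj : Function.Injective l := by
      rw [injective_iff_map_eq_zero]
      intro x hx
      exact Subtype.ext (hC.2 x x.2 fun y hy => LinearMap.congr_fun hx ⟨y, hy⟩)
    exact ⟨hinj, (LinearMap.injective_iff_surjective_of_finrank_eq_finrank
      Subspace.dual_finrank_eq.symm).1 hinj⟩
  let Φ : V →ₗ[F] V :=
    M.subtype ∘ₗ (LinearEquiv.ofBijective l hl).symm.toLinearMap ∘ₗ M.dualRestrict ∘ₗ B
  have hΦM : ∀ v, Φ v ∈ M := fun v => ((LinearEquiv.ofBijective l hl).symm (M.dualRestrict (B v))).2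
  have hΦ : ∀ v, ∀ m ∈ M, C (Φ v) m = B v m := by
    intro v m hm
    have := LinearMap.congr_fun ((LinearEquiv.ofBijective l hl).apply_symm_apply (M.dualRestrict (B v))) ⟨m, hm⟩
    exact this
  have hΦg : ∀ g v, Φ (ρ g v) = ρ g (Φ v) := by
    intro g v
    rw [← sub_eq_zero]
    refine hC.2 _ (M.sub_mem (hΦM _) (hM g _ (hΦM v))) fun m hm => ?_
    have hm' := hM g⁻¹ m hm
    rw [map_sub, LinearMap.sub_apply, hΦ _ m hm, ← apply_inv_apply (ρ := ρ) g m, hC.1 g _ (hΦM v) _ hm',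
      hB.1 g _ trivial _ trivial, hΦ _ _ hm', sub_self]
  have : Finite V := Module.finite_of_finite F
  let H := {f : V →ₗ[F] V // (∀ g v, f (ρ g v) = ρ g (f v)) ∧ ∀ m ∈ M, f m = 0}
  have : Finite (V →ₗ[F] V) := Finite.of_injective _ DFunLike.coe_injective
  let Ψ : H → H := fun f => ⟨Φ ∘ₗ f.1, fun g v => by simp [f.2.1, hΦg], fun m hm => by simp [f.2.2 m hm]⟩
  have hΨ : Function.Injective Ψ := by
    intro f f' hff
    have h0 : ∀ v, Φ ((f.1 - f'.1) v) = 0 := fun v => by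
      have := LinearMap.congr_fun (congrArg Subtype.val hff) v
      simp only [Ψ, LinearMap.comp_apply] at this
      rw [LinearMap.sub_apply, map_sub, this, sub_self]
    have hβ : B.comp (f.1 - f'.1) π = 0 := by
      by_contra hβ
      obtain ⟨m, hm, x, hx⟩ := hcon _ hβ (fun g x y => by
        simp only [LinearMap.BilinForm.comp_apply, LinearMap.sub_apply, f.2.1, f'.2.1, hπ]
        rw [← map_sub]
        exact hB.1 g _ trivial _ trivial) (fun m hm y => by simp [f.2.2 m hm, f'.2.2 m hm])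
      exact hx (by simp [hπM m hm])
    apply Subtype.ext
    rw [← sub_eq_zero]
    ext v
    refine hB.2 _ trivial fun y _ => ?_
    obtain ⟨m, hm, r, hr, rfl⟩ := hdec y
    have e1 := LinearMap.congr_fun₂ hβ v r
    simp only [LinearMap.BilinForm.comp_apply, hπR r hr, LinearMap.zero_apply] at e1
    rw [map_add, e1, ← hΦ _ m hm, h0, add_zero, map_zero, LinearMap.zero_apply]
  obtain ⟨f, hf⟩ := Finite.injective_iff_surjective.1 hΨ ⟨π, hπ, hπM⟩
  apply hne
  rw [eq_top_iff]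
  intro v _
  obtain ⟨m, hm, r, hr, rfl⟩ := hdec v
  have : Φ (f.1 r) = π r := LinearMap.congr_fun (congrArg Subtype.val hf) r
  rw [hπR r hr] at this
  exact M.add_mem hm (this ▸ hΦM _)

theorem ni_of_minimal {X : Submodule F V} (hX : Inv ρ X)
    (hmin : ∀ Y, Inv ρ Y → Y ≤ X → Y ≠ X → Y = ⊥) {γ : LinearMap.BilinForm F V}
    (hγ : ∀ g : G, ∀ x ∈ X, ∀ y ∈ X, γ (ρ g x) (ρ g y) = γ x y) (h0 : ∃ x ∈ X, ∃ y ∈ X, γ x y ≠ 0) :
    NI ρ X γ := by
  refine ⟨hγ, fun x hx hx0 => ?_⟩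
  let L : Submodule F V :=
    { carrier := {x | x ∈ X ∧ ∀ y ∈ X, γ x y = 0}
      add_mem' := fun {a b} ha hb => ⟨X.add_mem ha.1 hb.1, fun y hy => by simp [ha.2 y hy, hb.2 y hy]⟩
      zero_mem' := ⟨X.zero_mem, fun y _ => by simp⟩
      smul_mem' := fun c a ha => ⟨X.smul_mem c ha.1, fun y hy => by simp [ha.2 y hy]⟩ }
  have hL : L = ⊥ := by
    refine hmin L (fun g a ha => ⟨hX g a ha.1, fun y hy => ?_⟩) (fun a ha => ha.1) fun h => ?_
    · rw [← apply_inv_apply (ρ := ρ) g y, hγ g a ha.1 _ (hX g⁻¹ y hy)]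
      exact ha.2 _ (hX g⁻¹ y hy)
    · obtain ⟨a, ha, b, hb, hab⟩ := h0
      exact hab ((h ▸ ha : a ∈ L).2 b hb)
  exact (Submodule.mem_bot F).1 (hL ▸ (⟨hx, hx0⟩ : x ∈ L))

theorem exists_piece [FiniteDimensional F V] [Finite G] [NeZero (Nat.card G : F)] {M : Submodule F V}
    {β : LinearMap.BilinForm F V} (h0 : β ≠ 0) (hβ : ∀ g x y, β (ρ g x) (ρ g y) = β x y)
    (h1 : ∀ m ∈ M, ∀ y, β m y = 0) (h2 : ∀ m ∈ M, ∀ x, β x m = 0) :
    ∃ T, Inv ρ T ∧ T ≠ ⊥ ∧ Disjoint M T ∧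
      ((∃ A : LinearMap.BilinForm F V, (∀ x, A x x = 0) ∧ NI ρ T A) ∨
       ∃ S : LinearMap.BilinForm F V, (∀ x y, S x y = S y x) ∧ NI ρ T S ∧
        ((2 : F) = 0 → ∀ g, ∀ w ∈ T, ρ g w = w)) := by
  have hL : Inv ρ (LinearMap.ker β) := by
    intro g x hx
    rw [LinearMap.mem_ker] at hx ⊢
    ext y
    rw [← apply_inv_apply (ρ := ρ) g y, hβ, hx]
    rfl
  obtain ⟨X₀, hX₀, hc₀⟩ := exists_inv_isCompl hL
  have hX₀ne : X₀ ≠ ⊥ := by
    rintro rfl
    exact h0 (LinearMap.ker_eq_top.1 (by simpa using hc₀.sup_eq_top))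
  obtain ⟨X, ⟨hX, hXle, hXne⟩, hmin'⟩ := (wellFounded_lt (α := Submodule F V)).has_min
    {X | Inv ρ X ∧ X ≤ X₀ ∧ X ≠ ⊥} ⟨X₀, hX₀, le_rfl, hX₀ne⟩
  have hmin : ∀ Y, Inv ρ Y → Y ≤ X → Y ≠ X → Y = ⊥ := by
    intro Y hY hYX hne
    by_contra hb
    exact hmin' Y ⟨hY, hYX.trans hXle, hb⟩ (lt_of_le_of_ne hYX hne)
  have hXL : ∀ x ∈ X, β x = 0 → x = 0 := fun x hx h =>
    (Submodule.disjoint_def.1 hc₀.disjoint) x h (hXle hx)
  have hMX : Disjoint M X := Submodule.disjoint_def.2 fun x hm hx =>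
    hXL x hx (LinearMap.ext fun y => h1 x hm y)
  by_cases hs : ∃ x ∈ X, ∃ y ∈ X, β x y ≠ 0
  · refine ⟨X, hX, hXne, hMX, ?_⟩
    by_cases ha : ∃ x ∈ X, ∃ y ∈ X, (β - β.flip) x y ≠ 0
    · exact Or.inl ⟨β - β.flip, fun x => by simp, ni_of_minimal hX hmin (fun g x _ y _ => by simp [hβ]) ha⟩
    push Not at ha
    have hsym : ∀ x ∈ X, ∀ y ∈ X, β x y = β y x := fun x hx y hy => by
      have := ha x hx y hy
      simpa [sub_eq_zero] using this
    obtain ⟨π, hπ1, hπ2, -⟩ := exists_proj (disjoint_bot_right (a := X))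
    have hni : NI ρ X (β.comp π π) := by
      refine ni_of_minimal hX hmin (fun g x hx y hy => ?_) ?_
      · simp [hπ2 x hx, hπ2 y hy, hπ2 _ (hX g x hx), hπ2 _ (hX g y hy), hβ]
      · obtain ⟨x, hx, y, hy, h⟩ := hs
        exact ⟨x, hx, y, hy, by simpa [hπ2 x hx, hπ2 y hy] using h⟩
    by_cases halt : ∀ x ∈ X, β x x = 0
    · exact Or.inl ⟨β.comp π π, fun x => halt _ (hπ1 x), hni⟩
    refine Or.inr ⟨β.comp π π, fun x y => hsym _ (hπ1 x) _ (hπ1 y), hni, fun h2' g w hw => ?_⟩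
    have hadd : ∀ a ∈ X, ∀ b ∈ X, β (a + b) (a + b) = β a a + β b b := by
      intro a ha b hb
      simp only [map_add, LinearMap.add_apply]
      rw [hsym b hb a ha]
      linear_combination (β a b) * h2'
    let N : Submodule F V :=
      { carrier := {x | x ∈ X ∧ β x x = 0}
        add_mem' := fun {a b} ha hb => ⟨X.add_mem ha.1 hb.1, by rw [hadd a ha.1 b hb.1, ha.2, hb.2, add_zero]⟩
        zero_mem' := ⟨X.zero_mem, by simp⟩
        smul_mem' := fun c a ha => ⟨X.smul_mem c ha.1, by simp [ha.2]⟩ }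
    have hN : N = ⊥ := hmin N (fun g a ha => ⟨hX g a ha.1, by rw [hβ]; exact ha.2⟩) (fun a ha => ha.1)
      fun h => halt fun x hx => (h ▸ hx : x ∈ N).2
    have : ρ g w + -w ∈ N := by
      refine ⟨X.add_mem (hX g w hw) (X.neg_mem hw), ?_⟩
      rw [hadd _ (hX g w hw) _ (X.neg_mem hw), hβ]
      simp only [map_neg, LinearMap.neg_apply, neg_neg]
      linear_combination (β w w) * h2'
    rw [hN, Submodule.mem_bot, add_neg_eq_zero] at this
    exact this
  push Not at hs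
  let P : Submodule F V :=
    { carrier := {y | ∀ x ∈ X, β x y = 0}
      add_mem' := fun {a b} ha hb x hx => by rw [map_add, ha x hx, hb x hx, add_zero]
      zero_mem' := fun x _ => by simp
      smul_mem' := fun c a ha x hx => by simp [ha x hx] }
  have hP : Inv ρ P := fun g y hy x hx => by
    rw [← apply_inv_apply (ρ := ρ) g x, hβ]
    exact hy _ (hX g⁻¹ x hx)
  obtain ⟨Y, hY, hc⟩ := exists_inv_isCompl hP
  have hXP : X ≤ P := fun y hy x hx => hs x hx y hy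
  have hMP : M ≤ P := fun m hm x _ => h2 m hm x
  have hXY : Disjoint X Y := hc.disjoint.mono_left hXP
  obtain ⟨π, -, h3, h4⟩ := exists_proj hXY
  obtain ⟨π', -, h5, h6⟩ := exists_proj hXY.symm
  have key : ∀ x ∈ X, ∀ y ∈ Y, ∀ x' ∈ X, ∀ y' ∈ Y,
      (β.comp π π' - (β.comp π π').flip) (x + y) (x' + y') = β x y' - β x' y := by
    intro x hx y hy x' hx' y' hy'
    simp [h3 x hx, h3 x' hx', h4 y hy, h4 y' hy', h5 y hy, h5 y' hy', h6 x hx, h6 x' hx']
  refine ⟨X ⊔ Y, hX.sup hY, fun h => hXne (le_bot_iff.1 (le_sup_left.trans h.le)), ?_,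
    Or.inl ⟨β.comp π π' - (β.comp π π').flip, fun x => by simp, fun g v hv w hw => ?_, fun v hv hv0 => ?_⟩⟩
  · rw [Submodule.disjoint_def]
    intro v hm hv
    obtain ⟨x, hx, y, hy, rfl⟩ := Submodule.mem_sup.1 hv
    have : y = 0 := (Submodule.disjoint_def.1 hc.disjoint) y
      (by simpa using P.sub_mem (hMP hm) (hXP hx)) hy
    rw [this, add_zero] at hm ⊢
    exact (Submodule.disjoint_def.1 hMX) x hm hx
  · obtain ⟨x, hx, y, hy, rfl⟩ := Submodule.mem_sup.1 hv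
    obtain ⟨x', hx', y', hy', rfl⟩ := Submodule.mem_sup.1 hw
    rw [map_add (ρ g), map_add (ρ g), key _ (hX g x hx) _ (hY g y hy) _ (hX g x' hx') _ (hY g y' hy'),
      key x hx y hy x' hx' y' hy', hβ, hβ]
  · obtain ⟨x, hx, y, hy, rfl⟩ := Submodule.mem_sup.1 hv
    have e1 : x = 0 := by
      refine hXL x hx (LinearMap.ext fun v => ?_)
      obtain ⟨a, ha, b, hb, rfl⟩ := Submodule.mem_sup.1 (hc.sup_eq_top ▸ Submodule.mem_top (x := v))
      have := hv0 (0 + b) (Submodule.add_mem_sup X.zero_mem hb)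
      rw [key x hx y hy 0 X.zero_mem b hb] at this
      rw [map_add, ha x hx]
      simpa using this
    have e2 : y = 0 := by
      refine (Submodule.disjoint_def.1 hc.disjoint) y (fun x' hx' => ?_) hy
      have := hv0 (x' + 0) (Submodule.add_mem_sup hx' Y.zero_mem)
      rw [key x hx y hy x' hx' 0 Y.zero_mem] at this
      simpa using this
    rw [e1, e2, add_zero]

/-- A self-dual coprime module over a finite field is the direct sum of a symplectic and an orthogonal module; in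
characteristic two the orthogonal part can be chosen trivial. -/
theorem exists_split [Finite F] [FiniteDimensional F V] [Finite G] [NeZero (Nat.card G : F)]
    {B : LinearMap.BilinForm F V} (hB : NI ρ ⊤ B) :
    ∃ U W : Submodule F V, IsCompl U W ∧ Inv ρ U ∧ Inv ρ W ∧
      (∃ A : LinearMap.BilinForm F V, (∀ x, A x x = 0) ∧ NI ρ U A) ∧
      (∃ S : LinearMap.BilinForm F V, (∀ x y, S x y = S y x) ∧ NI ρ W S) ∧
      ((2 : F) = 0 → ∀ g, ∀ w ∈ W, ρ g w = w) := by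
  have hbot : ∀ A : LinearMap.BilinForm F V, NI ρ ⊥ A := fun A =>
    ⟨fun g x hx y _ => by simp [(Submodule.mem_bot F).1 hx], fun x hx _ => (Submodule.mem_bot F).1 hx⟩
  obtain ⟨M, ⟨U, W, rfl, hd, hU, hW, ⟨A, hA1, hA⟩, ⟨S, hS1, hS⟩, h2⟩, hmax⟩ :=
    (wellFounded_gt (α := Submodule F V)).has_min
    {M | ∃ U W : Submodule F V, U ⊔ W = M ∧ Disjoint U W ∧ Inv ρ U ∧ Inv ρ W ∧
      (∃ A : LinearMap.BilinForm F V, (∀ x, A x x = 0) ∧ NI ρ U A) ∧
      (∃ S : LinearMap.BilinForm F V, (∀ x y, S x y = S y x) ∧ NI ρ W S) ∧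
      ((2 : F) = 0 → ∀ g, ∀ w ∈ W, ρ g w = w)}
    ⟨⊥, ⊥, ⊥, by simp, disjoint_bot_left, inv_bot, inv_bot, ⟨0, fun _ => rfl, hbot 0⟩,
      ⟨0, fun _ _ => rfl, hbot 0⟩, fun _ g w hw => by simp [(Submodule.mem_bot F).1 hw]⟩
  by_cases htop : U ⊔ W = ⊤
  · exact ⟨U, W, ⟨hd, codisjoint_iff.2 htop⟩, hU, hW, ⟨A, hA1, hA⟩, ⟨S, hS1, hS⟩, h2⟩
  exfalso
  obtain ⟨π, π', hC⟩ := hA.sup hU hW hd hS
  obtain ⟨β, h0, hβ, hβ1, hβ2⟩ := exists_form_of_ne_top hB (hU.sup hW) hC htop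
  obtain ⟨T, hT, hT0, hdT, hcase⟩ := exists_piece h0 hβ hβ1 hβ2
  have hlt : U ⊔ W < U ⊔ W ⊔ T := by
    refine lt_of_le_of_ne le_sup_left fun h => hT0 ?_
    exact (hdT.symm.eq_bot_of_le (le_sup_right.trans h.ge))
  rcases hcase with ⟨A', hA1', hA'⟩ | ⟨S', hS1', hS', h2'⟩
  · obtain ⟨τ, τ', hn⟩ := hA.sup hU hT (hdT.mono_left le_sup_left) hA'
    refine hmax _ ⟨U ⊔ T, W, sup_right_comm U T W, ?_, hU.sup hT, hW, ⟨_, fun x => ?_, hn⟩, ⟨S, hS1, hS⟩, h2⟩ hlt
    · exact (hd.symm.disjoint_sup_right_of_disjoint_sup_left (sup_comm U W ▸ hdT)).symm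
    · simp [hA1, hA1']
  · obtain ⟨τ, τ', hn⟩ := hS.sup hW hT (hdT.mono_left le_sup_right) hS'
    refine hmax _ ⟨U, W ⊔ T, (sup_assoc U W T).symm, ?_, hU, hW.sup hT, ⟨A, hA1, hA⟩, ⟨_, fun x y => ?_, hn⟩,
      fun h g w hw => ?_⟩ hlt
    · exact hd.disjoint_sup_right_of_disjoint_sup_left hdT
    · simp only [LinearMap.add_apply, LinearMap.BilinForm.comp_apply]
      rw [hS1, hS1']
    · obtain ⟨a, ha, b, hb, rfl⟩ := Submodule.mem_sup.1 hw
      rw [map_add, h2 h g a ha, h2' h g b hb]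

end CL.Char.SelfDual
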