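/-
The real-vector criterion for the `k(GV)` problem: square roots for self-dual modules.
-/
import Cfsg.Agent.Char.RealVec1
import Cfsg.Agent.Char.SelfDual
import Cfsg.Agent.Char.ItoLinear
import Cfsg.Agent.Char.SchurAvg

set_option autoImplicit false
set_option linter.unusedSectionVars false

namespace CL.Char.RV

open Cfsg ComplexConjugate LinearMap CL.Perm SelfDual

variable {p : ℕ} [hp : Fact p.Prime] {H : Type*} [Group H] [Fintype H] {W : Type*} [AddCommGroup W]
  [Module (ZMod p) W] [Finite W] (ρ : Representation (ZMod p) H W)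

/-- the number of fixed vectors -/
noncomputable def fx (h : H) : ℕ := Nat.card (ker (ρ h - 1))

/-- the index of the fixed space -/
noncomputable def kk (h : H) : ℕ := Nat.card (W ⧸ ker (ρ h - 1))

theorem fx_mul (h : H) : fx ρ h * kk ρ h = Nat.card W := (Submodule.card_eq_card_quotient_mul_card _).symm

theorem fx_ne (h : H) : (fx ρ h : ℂ) ≠ 0 := Nat.cast_ne_zero.2 Nat.card_pos.ne'

theorem mem_fix {h : H} {w : W} : w ∈ ker (ρ h - 1) ↔ ρ h w = w := by simp [sub_eq_zero]

theorem card_pow (U : Type*) [AddCommGroup U] [Module (ZMod p) U] [Finite U] :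
    Nat.card U = p ^ Module.finrank (ZMod p) U := by
  rw [Module.natCard_eq_pow_finrank (K := ZMod p), Nat.card_zmod]

theorem dvd_kk {h : H} (e : kk ρ h ≠ 1) : p ∣ kk ρ h := by
  have : Finite (W ⧸ ker (ρ h - 1)) := .of_surjective _ (Submodule.mkQ_surjective _)
  rw [kk, card_pow (p := p)] at e ⊢
  exact dvd_pow_self p fun k => e (by rw [k, pow_zero])

theorem span_of {γ f : H → ℂ} (hf : ISpan f) (n : ℕ) (e : ∀ h, (p : ℂ) ^ n * γ h * fx ρ h = f h) :
    ∃ N : ℕ, ISpan ((p : ℂ) ^ N • γ) := by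
  let _ : MulAction H W := MulAction.compHom W ρ
  have h1 : ISpan fun h => (fx ρ h : ℂ) := by
    convert ISpan.of_char (isCharacter_card_fixedBy (G := H) W) using 3 with h
    exact Nat.card_congr (Equiv.subtypeEquivRight fun _ => mem_fix ρ)
  obtain ⟨N, g, hg, e'⟩ := h1.exists_inv (p := p) (Module.finrank (ZMod p) W + 1)
  refine ⟨N + n, ?_⟩
  convert hg.mul hf using 1
  funext h
  have := e' h ⟨_, Nat.lt_succ_of_le (Submodule.finrank_le _), card_pow (ker (ρ h - 1))⟩
  rw [Pi.smul_apply, Pi.mul_apply, ← e, pow_add, ← this, smul_eq_mul]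
  ring

theorem kk_eq_one {h : H} : kk ρ h = 1 ↔ ∀ w, ρ h w = w := by
  have : Finite (W ⧸ ker (ρ h - 1)) := .of_surjective _ (Submodule.mkQ_surjective _)
  rw [kk, Nat.card_eq_one_iff_unique, and_iff_left ⟨0⟩, Submodule.Quotient.subsingleton_iff, eq_top_iff]
  exact ⟨fun k w => (mem_fix ρ).1 (k trivial), fun k w _ => (mem_fix ρ).2 (k w)⟩

variable {ρ}

theorem card_compl {h : H} {C : Submodule (ZMod p) W} (hC : IsCompl (ker (ρ h - 1)) C) : Nat.card C = kk ρ h :=
  (Nat.card_congr (Submodule.quotientEquivOfIsCompl _ _ hC).toEquiv).symm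

theorem sum_compl [Fintype W] {h : H} {C : Submodule (ZMod p) W} [Fintype C] (hC : IsCompl (ker (ρ h - 1)) C)
    (f : W → ℂ) (hf : ∀ x r, ρ h r = r → f (x + r) = f x) : (∑ c : C, f c) * fx ρ h = ∑ w, f w := by
  classical
  rw [← Equiv.sum_comp (Submodule.prodEquivOfIsCompl _ _ hC.symm).toEquiv f, Fintype.sum_prod_type, Finset.sum_mul]
  refine Finset.sum_congr rfl fun c _ => ?_
  refine Eq.trans ?_ (Finset.sum_congr rfl (f := fun _ => f c)
    fun (r : ker (ρ h - 1)) _ => (hf c r ((mem_fix ρ).1 r.2)).symm)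
  rw [Finset.sum_const, nsmul_eq_mul, Finset.card_univ, ← Nat.card_eq_fintype_card, mul_comm, fx]

theorem fix_of_sq (hH : ¬ p ∣ Nat.card H) {h : H} {r : W} (e : ρ h (ρ h r - r) = ρ h r - r) : ρ h r = r := by
  have h1 : ∀ n : ℕ, ρ (h ^ n) r = r + (n : ZMod p) • (ρ h r - r) := fun n => by
    induction n with
    | zero => simp
    | succ n ih => rw [pow_succ', map_mul, Module.End.mul_apply, ih, map_add, map_smul, e]; push_cast; module
  have h2 := h1 (Nat.card H)
  rw [pow_card_eq_one', map_one, Module.End.one_apply, left_eq_add, smul_eq_zero, ZMod.natCast_eq_zero_iff] at h2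
  exact sub_eq_zero.1 (h2.resolve_left hH)

section Symm

variable {S : LinearMap.BilinForm (ZMod p) W}

/-- the quadratic form attached to a group element -/
def qf (ρ : Representation (ZMod p) H W) (S : LinearMap.BilinForm (ZMod p) W) (h : H) (w : W) : ZMod p :=
  S w (ρ h w) - S w w

theorem qf_add (hs : ∀ x y, S x y = S y x) (hS : NI ρ ⊤ S) (h : H) (x y : W) :
    qf ρ S h (x + y) = qf ρ S h x + qf ρ S h y + S (ρ h (ρ h y - y) - (ρ h y - y)) (ρ h x) := by
  have e := fun x y => hS.1 h x trivial y trivial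
  simp only [qf, map_add, map_sub, LinearMap.add_apply, LinearMap.sub_apply, e, hs x y, hs x (ρ h y)]
  ring

theorem qf_fix (hs : ∀ x y, S x y = S y x) (hS : NI ρ ⊤ S) {h : H} {r : W} (e : ρ h r = r) (x : W) :
    qf ρ S h (x + r) = qf ρ S h x := by
  rw [qf_add hs hS]; simp [qf, e]

theorem gauss [Fintype W] (hH : ¬ p ∣ Nat.card H) (hs : ∀ x y, S x y = S y x) (hS : NI ρ ⊤ S) {ψ : AddChar (ZMod p) ℂ}
    (hψ : ψ ≠ 1) (h : H) : ‖∑ w, ψ (qf ρ S h w)‖ ^ 2 = Nat.card W * fx ρ h := by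
  classical
  have key : (∑ w, ψ (qf ρ S h w)) * conj (∑ w, ψ (qf ρ S h w)) = Nat.card W * fx ρ h := by
    rw [map_sum, Finset.mul_sum]
    have e1 : ∀ x, (∑ w, ψ (qf ρ S h w)) * conj (ψ (qf ρ S h x)) =
        ∑ y, ψ (qf ρ S h y) * ψ (S (ρ h (ρ h y - y) - (ρ h y - y)) (ρ h x)) := fun x => by
      rw [← Equiv.sum_comp (Equiv.addLeft x) (fun w => ψ (qf ρ S h w)), Finset.sum_mul]
      refine Finset.sum_congr rfl fun y _ => ?_
      rw [← ψ.map_neg_eq_conj, ← ψ.map_add_eq_mul, ← ψ.map_add_eq_mul, Equiv.coe_addLeft, qf_add hs hS]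
      congr 1; ring
    simp only [e1]
    rw [Finset.sum_comm, fx, Nat.card_eq_fintype_card (α := ker _), Fintype.card_subtype, Finset.card_filter]
    push_cast
    rw [Finset.mul_sum]
    refine Finset.sum_congr rfl fun y _ => ?_
    rw [← Finset.mul_sum]
    split_ifs with e
    · rw [mem_fix] at e
      simp [e, qf]
    · rw [mul_zero]
      refine mul_eq_zero_of_right _ (AddChar.sum_eq_zero_of_ne_one (ψ := ψ.compAddMonoidHom
        (S (ρ h (ρ h y - y) - (ρ h y - y)) ∘ₗ ρ h).toAddMonoidHom) ?_)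
      obtain ⟨a, ha⟩ := AddChar.ne_one_iff.1 hψ
      obtain ⟨x, hx⟩ : ∃ x, S (ρ h (ρ h y - y) - (ρ h y - y)) x ≠ 0 := by
        by_contra! k
        exact e ((mem_fix ρ).2 (fix_of_sq hH (sub_eq_zero.1 (hS.2 _ trivial fun x _ => k x))))
      refine AddChar.ne_one_iff.2 ⟨ρ h⁻¹ ((a / S (ρ h (ρ h y - y) - (ρ h y - y)) x) • x), ?_⟩
      change ψ (S (ρ h (ρ h y - y) - (ρ h y - y)) (ρ h (ρ h⁻¹ _))) ≠ 1
      rwa [apply_inv_apply, map_smul, smul_eq_mul, div_mul_cancel₀ a hx]
  rw [Complex.mul_conj, Complex.normSq_eq_norm_sq] at key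
  exact_mod_cast key

theorem ispan_gauss [Fintype W] (hS : NI ρ ⊤ S) (ψ : AddChar (ZMod p) ℂ) : ISpan fun h => ∑ w, ψ (qf ρ S h w) := by
  classical
  let _ : MulAction H W := MulAction.compHom W ρ
  have sm : ∀ (g : H) (w : W), g • w = ρ g w := fun _ _ => rfl
  have e := fun g x y => hS.1 g x trivial y trivial
  let M : ZMod p → Matrix W W ℤ := fun a x y => if S x y - S x x = a then 1 else 0
  convert ISpan.sum Finset.univ fun a _ => (ISpan.tw (permRep ℂ H W) (T := intOp (M a))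
    (commute_intOp fun g x y => by simp only [M, sm, e]) (isIntegral_intOp _)).smul
    (IsIntegral.of_pow hp.out.pos (x := ψ a) (by
      rw [← ψ.map_nsmul_eq_pow, nsmul_eq_mul, ZMod.natCast_self, zero_mul, ψ.map_zero_eq_one]
      exact isIntegral_one)) using 1
  funext h
  simp only [Finset.sum_apply, Pi.smul_apply, twTrace_intOp, smul_eq_mul]
  simp only [M]
  push_cast
  simp only [Finset.mul_sum]
  rw [Finset.sum_comm]
  refine (Fintype.sum_equiv (MulAction.toPerm h⁻¹) _ _ fun w => ?_).symm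
  simp [qf, sm]

theorem root_symm (hH : ¬ p ∣ Nat.card H) (hs : ∀ x y, S x y = S y x) (hS : NI ρ ⊤ S) :
    ∃ γ, Root p (kk ρ) γ := by
  classical
  let _ := Fintype.ofFinite W
  choose C hC using fun h : H => (ker (ρ h - 1)).exists_isCompl
  have cC : ∀ h, Fintype.card (C h) = kk ρ h := fun h => by rw [← Nat.card_eq_fintype_card, card_compl (hC h)]
  have e1 : ∀ (ψ : AddChar (ZMod p) ℂ) h, (∑ c : C h, ψ (qf ρ S h c)) * fx ρ h = ∑ w, ψ (qf ρ S h w) := fun ψ h =>
    sum_compl (hC h) (fun w => ψ (qf ρ S h w)) fun x r e => congrArg ψ (qf_fix hs hS e x)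
  let ψ : AddChar (ZMod p) ℂ := ZMod.stdAddChar
  have ψp : ∀ a, ψ a ^ p = 1 := fun a => by
    rw [← ψ.map_nsmul_eq_pow, nsmul_eq_mul, ZMod.natCast_self, zero_mul, ψ.map_zero_eq_one]
  have ψi : ∀ a, IsIntegral ℤ (ψ a) := fun a => IsIntegral.of_pow hp.out.pos (ψp a ▸ isIntegral_one)
  refine ⟨fun h => ∑ c : C h, ψ (qf ρ S h c), fun h => IsIntegral.sum _ fun c _ => ψi _,
    span_of ρ (ispan_gauss hS ψ) 0 fun h => by rw [pow_zero, one_mul, e1], fun σ h => ?_, ?_, fun h e => ?_⟩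
  · have e2 := gauss hH hs hS (ψ := σ.toMonoidHom.compAddChar ψ) (AddChar.ne_one_iff.2 ⟨1, fun k => one_ne_zero
      (ZMod.injective_stdAddChar ((σ.injective (k.trans (map_one σ).symm)).trans ψ.map_zero_eq_one.symm))⟩) h
    rw [← e1, ← fx_mul ρ h, norm_mul, mul_pow, Complex.norm_natCast, Nat.cast_mul] at e2
    have e3 : (0 : ℝ) < fx ρ h := Nat.cast_pos.2 Nat.card_pos
    rw [map_sum]
    exact mul_right_cancel₀ (pow_pos e3 2).ne' (e2.trans (by ring))
  · have : C 1 = ⊥ := by simpa using (hC 1).disjoint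
    have : Unique (C 1) := this ▸ inferInstance
    simp [qf]
  · have := (Nil.sum Finset.univ fun (c : C h) _ => Nil.of_pow ((ψi (qf ρ S h c)).sub isIntegral_one) (p ^ 1) (by
      simpa [ψp] using congMod_sub_pow hp.out (ψi (qf ρ S h c)) isIntegral_one 1)).add (Nil.of_dvd (dvd_kk ρ e))
    simpa [cC] using this

end Symm

end CL.Char.RV
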