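/-
The real-vector criterion for the `k(GV)` problem: symplectic modules.
-/
import Cfsg.Agent.Char.RealVec2
import Cfsg.Agent.Char.Extension

set_option autoImplicit false
set_option linter.unusedSectionVars false

namespace CL.Char.RV

open Cfsg ComplexConjugate LinearMap SelfDual
open scoped commutatorElement

/-- `x` and its conjugate are congruent to the same natural number. -/
def Bp (p : ℕ) (x : ℂ) : Prop := ∃ n : ℕ, Nil p (x - n) ∧ Nil p (conj x - n)

section Bp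
variable {p : ℕ} {x y : ℂ}

theorem Bp.zero : Bp p 0 := ⟨0, by simpa using Nil.zero, by simpa using Nil.zero⟩

theorem Bp.add (h : Bp p x) (h' : Bp p y) : Bp p (x + y) := by
  obtain ⟨n, a, b⟩ := h
  obtain ⟨m, c, d⟩ := h'
  refine ⟨n + m, ?_, ?_⟩
  · convert a.add c using 1; push_cast; ring
  · convert b.add d using 1; rw [map_add]; push_cast; ring

theorem Bp.root (hp : p.Prime) (h : x ^ p = 1) : Bp p x := by
  have k : ∀ y : ℂ, y ^ p = 1 → Nil p (y - (1 : ℕ)) := fun y hy => by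
    have i : IsIntegral ℤ y := IsIntegral.of_pow hp.pos (hy ▸ isIntegral_one)
    rw [Nat.cast_one]
    exact Nil.of_pow (i.sub isIntegral_one) (p ^ 1) (by simpa [hy] using congMod_sub_pow hp i isIntegral_one 1)
  exact ⟨1, k x h, k _ (by rw [← map_pow, h, map_one])⟩

theorem Bp.int (h : Bp p x) : IsIntegral ℤ x := by
  obtain ⟨n, ⟨a, -⟩, -⟩ := h
  simpa using (show IsIntegral ℤ _ from a).add (isIntegral_natCast n)

theorem Bp.nil (hp : p.Prime) {m k : ℕ} (hm : 0 < m) (h : Bp p (x ^ m)) (e : x * conj x = k) (hk : p ∣ k) :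
    Nil p x := by
  have i := h.int
  obtain ⟨n, a, b⟩ := h
  have h1 : Nil p ((n ^ 2 : ℕ) : ℂ) := by
    convert ((Nil.of_dvd (dvd_pow hk hm.ne')).sub (a.mul_right (isIntegral_conj i))).sub
      (b.mul_left (isIntegral_natCast n)) using 1
    push_cast
    rw [← e, mul_pow, ← map_pow]
    ring
  have h2 : Nil p (x ^ m) := by simpa using a.add (Nil.of_dvd (hp.dvd_of_dvd_pow (h1.dvd hp)))
  exact ⟨IsIntegral.of_pow hm i, Ideal.mem_radical_of_pow_mem (m := m) h2.2⟩

end Bp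

variable {p : ℕ} [hp : Fact p.Prime] {H : Type*} [Group H] [Fintype H] {W : Type*} [AddCommGroup W]
  [Module (ZMod p) W] [Finite W]

/-- The semidirect product of the Heisenberg group with `H`. -/
@[ext] structure Hs (ρ : Representation (ZMod p) H W) (A : LinearMap.BilinForm (ZMod p) W) where
  v : W
  s : ZMod p
  h : H

variable {ρ : Representation (ZMod p) H W} {A : LinearMap.BilinForm (ZMod p) W}
  [hA : Fact (∀ g x y, A (ρ g x) (ρ g y) = A x y)]

namespace Hs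

instance : Mul (Hs ρ A) := ⟨fun x y => ⟨x.v + ρ x.h y.v, x.s + y.s + A x.v (ρ x.h y.v), x.h * y.h⟩⟩
instance : One (Hs ρ A) := ⟨⟨0, 0, 1⟩⟩
instance : Inv (Hs ρ A) := ⟨fun x => ⟨-ρ x.h⁻¹ x.v, -x.s + A x.v x.v, x.h⁻¹⟩⟩

@[simp] theorem mul_v (x y : Hs ρ A) : (x * y).v = x.v + ρ x.h y.v := rfl
@[simp] theorem mul_s (x y : Hs ρ A) : (x * y).s = x.s + y.s + A x.v (ρ x.h y.v) := rfl
@[simp] theorem mul_h (x y : Hs ρ A) : (x * y).h = x.h * y.h := rfl
@[simp] theorem one_v : (1 : Hs ρ A).v = 0 := rfl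
@[simp] theorem one_s : (1 : Hs ρ A).s = 0 := rfl
@[simp] theorem one_h : (1 : Hs ρ A).h = 1 := rfl
@[simp] theorem inv_v (x : Hs ρ A) : x⁻¹.v = -ρ x.h⁻¹ x.v := rfl
@[simp] theorem inv_s (x : Hs ρ A) : x⁻¹.s = -x.s + A x.v x.v := rfl
@[simp] theorem inv_h (x : Hs ρ A) : x⁻¹.h = x.h⁻¹ := rfl

instance : Group (Hs ρ A) := Group.ofLeftAxioms
  (fun x y z => by ext <;> simp [hA.out, mul_assoc, add_assoc]; ring) (fun x => by ext <;> simp)
  (fun x => by ext <;> simp [hA.out])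

/-- the projection to `H` -/
def pr : Hs ρ A →* H := ⟨⟨Hs.h, rfl⟩, fun _ _ => rfl⟩

/-- the complement -/
def sec : H →* Hs ρ A := ⟨⟨fun h => ⟨0, 0, h⟩, rfl⟩, fun _ _ => by ext <;> simp⟩

/-- the centre -/
def cen : Multiplicative (ZMod p) →* Hs ρ A := ⟨⟨fun a => ⟨0, a.toAdd, 1⟩, rfl⟩, fun _ _ => by ext <;> simp⟩

/-- the Heisenberg group as a set -/
def eqv : W × ZMod p ≃ (pr : Hs ρ A →* H).ker where
  toFun x := ⟨⟨x.1, x.2, 1⟩, rfl⟩
  invFun x := (x.1.v, x.1.s)
  left_inv _ := rfl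
  right_inv x := Subtype.ext (Hs.ext rfl rfl x.2.symm)

instance : Finite (Hs ρ A) := .of_injective (fun x => (x.v, x.s, x.h)) fun _ _ e =>
  Hs.ext (congrArg (·.1) e) (congrArg (·.2.1) e) (congrArg (·.2.2) e)

theorem comm {x : Hs ρ A} (h : x.h = 1) (h' : x.v = 0) (g : Hs ρ A) : g * x = x * g := by
  ext <;> simp [h, h', add_comm]

end Hs

open Hs in
theorem exists_weil (h2 : p ≠ 2) (hH : ¬ p ∣ Nat.card H) (ha : ∀ x, A x x = 0)
    (hn : ∀ x, (∀ y, A x y = 0) → x = 0) : ∃ (ξ : Hs ρ A → ℂ) (d : ℕ), IsCharacter _ ξ ∧ ξ 1 = d ∧ 0 < d ∧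
      d ∣ Nat.card W * p ∧ IsIrrCharacter _ (fun e : (pr : Hs ρ A →* H).ker => ξ e) ∧
      ∀ x, x.h = 1 → (x.v ≠ 0 → ξ x = 0) ∧ (x.v = 0 → ∃ ω : ℂ, ω ^ p = 1 ∧ ξ x = ω * d) := by
  let ζ : Multiplicative (ZMod p) →* (pr : Hs ρ A →* H).ker := cen.codRestrict _ fun _ => rfl
  obtain ⟨θ, hθ, hz⟩ := exists_irr_not_mem_charKer (g := ζ (.ofAdd 1)) fun e =>
    one_ne_zero (α := ZMod p) (congrArg (fun x => x.1.s) e)
  obtain ⟨d, hd0, hd⟩ := hθ.exists_nat_one
  have zc : ∀ x : (pr : Hs ρ A →* H).ker, x.1.v = 0 → x ∈ charCenter θ := fun x hx =>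
    hθ.center_le_charCenter (Subgroup.mem_center_iff.2 fun g => Subtype.ext (comm x.2 hx g))
  have v0 : ∀ x : (pr : Hs ρ A →* H).ker, x.1.v ≠ 0 → θ x = 0 := fun x hx => by
    obtain ⟨y, hy⟩ : ∃ y, A x.1.v y ≠ 0 := by
      by_contra! k
      exact hx (hn _ k)
    have e : ⁅eqv (ρ := ρ) (A := A) (y, 0), x⁆ = ζ (.ofAdd (-2 * A x.1.v y)) := by
      have x1 : x.1.h = 1 := x.2
      have := (show LinearMap.IsAlt A from ha).neg y x.1.v
      rw [commutatorElement_def, mul_inv_eq_iff_eq_mul, mul_inv_eq_iff_eq_mul]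
      ext <;> simp [eqv, ζ, cen, x1, add_comm]
      linear_combination -this
    refine hθ.isCharacter.apply_eq_zero_of_commutator (y := eqv (y, 0)) (by rw [e]; exact zc _ rfl) fun k => hz ?_
    have c0 : -2 * A x.1.v y ≠ 0 := mul_ne_zero (neg_ne_zero.2 fun k => h2
      ((Nat.prime_dvd_prime_iff_eq hp.out Nat.prime_two).1 ((ZMod.natCast_eq_zero_iff 2 p).1 (by simpa using k)))) hy
    rw [e] at k
    have := pow_mem k ((-2 * A x.1.v y)⁻¹).val
    rwa [← map_pow, ← ofAdd_nsmul, nsmul_eq_mul, ZMod.natCast_zmod_val, inv_mul_cancel₀ c0] at this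
  have cE : Nat.card (pr : Hs ρ A →* H).ker = Nat.card W * p := by
    rw [← Nat.card_congr eqv, Nat.card_prod, Nat.card_zmod]
  have iE : (pr : Hs ρ A →* H).ker.index = Nat.card H := by
    rw [Subgroup.index_ker, MonoidHom.range_eq_top.2 fun h => ⟨sec h, rfl⟩, Subgroup.card_top]
  have cop : (Nat.card H).Coprime (Nat.card (pr : Hs ρ A →* H).ker) := by
    rw [cE, card_pow (p := p) W, ← pow_succ]
    exact ((Nat.Prime.coprime_iff_not_dvd hp.out).2 hH).symm.pow_right _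
  obtain ⟨ξ, hξ, e⟩ := exists_extension_of_coprime hθ (fun g n => by
    by_cases k : n.1.v = 0
    · congr 1
      exact Subtype.ext (by simp [comm n.2 k g])
    · have n1 : n.1.h = 1 := n.2
      rw [v0 n k, v0]
      intro k'
      have : ρ g.h n.1.v = 0 := by simpa [n1, apply_inv_apply] using k'
      exact k (by rw [← inv_apply_apply (ρ := ρ) g.h n.1.v, this, map_zero])) hd
    (iE ▸ (cop.coprime_dvd_right (detOrder_dvd_card θ)).mul_right
      (cop.coprime_dvd_right (isIrr_degree_dvd_card hθ hd)))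
  refine ⟨ξ, d, hξ.isCharacter, (e 1).trans hd, hd0, cE ▸ isIrr_degree_dvd_card hθ hd, funext e ▸ hθ,
    fun x hx => ⟨fun k => (e ⟨x, hx⟩).trans (v0 _ k), fun k => ?_⟩⟩
  obtain ⟨ω, -, hω⟩ := zc ⟨x, hx⟩ k
  refine ⟨ω, ?_, by rw [e ⟨x, hx⟩, ← hd, ← hω, mul_one]⟩
  have pw : ∀ n : ℕ, θ (⟨x, hx⟩ ^ n) = ω ^ n * d := fun n => by
    induction n with
    | zero => simp [hd]
    | succ n ih => rw [pow_succ', hω, ih, pow_succ', mul_assoc]
  have := pw p
  rw [show (⟨x, hx⟩ : (pr : Hs ρ A →* H).ker) = ζ (.ofAdd x.s) from Subtype.ext (Hs.ext k rfl hx), ← map_pow,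
    ← ofAdd_nsmul, nsmul_eq_mul, ZMod.natCast_self, zero_mul, ofAdd_zero, map_one, hd] at this
  exact mul_right_cancel₀ (Nat.cast_ne_zero.2 hd0.ne') (this.symm.trans (one_mul _).symm)

open Hs in
theorem root_alt (h2 : p ≠ 2) (hH : ¬ p ∣ Nat.card H) (ha : ∀ x, A x x = 0)
    (hn : ∀ x, (∀ y, A x y = 0) → x = 0) : ∃ γ, Root p (kk ρ) γ := by
  classical
  let _ := Fintype.ofFinite W
  let _ := Fintype.ofFinite (pr : Hs ρ A →* H).ker
  obtain ⟨ξ, d, hξ, h1, d0, ⟨m, hm⟩, hirr, val⟩ := exists_weil (ρ := ρ) h2 hH ha hn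
  have d0' : (d : ℂ) ≠ 0 := Nat.cast_ne_zero.2 d0.ne'
  have p0 : (p : ℂ) ≠ 0 := Nat.cast_ne_zero.2 hp.out.ne_zero
  have avg : ∀ t b, ∑ e : (pr : Hs ρ A →* H).ker, ξ (e * t * (e : Hs ρ A)⁻¹ * b) = Nat.card W * p * ξ t * ξ b / d := by
    obtain ⟨n, τ, rfl⟩ := hξ
    intro t b
    have := isIrreducible_of_isIrrCharacter (τ.comp (pr : Hs ρ A →* H).ker.subtype) hirr
    have k := congrArg (fun T => LinearMap.trace ℂ _ (T * τ b))
      (schurAvg_sum_conj (τ.comp (pr : Hs ρ A →* H).ker.subtype) (τ t))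
    simp only [Finset.sum_mul, map_sum, smul_mul_assoc, one_mul, map_smul, smul_eq_mul] at k
    rw [← Nat.card_congr eqv, Nat.card_prod, Nat.card_zmod, Nat.cast_mul] at k
    rw [← h1, τ.char_one, mul_div_right_comm]
    simp only [Representation.character, map_mul]
    exact k
  let x : H → W → Hs ρ A := fun h u => ⟨u - ρ h u, -A u (ρ h u), h⟩
  let γ : H → ℂ := fun h => kk ρ h * ξ (sec h) / d
  have key : ∀ h b (C : Submodule (ZMod p) W), IsCompl (ker (ρ h - 1)) C → ∑ c : C, ξ (x h c * b) = γ h * ξ b := by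
    intro h b C hC
    have e1 := avg (sec h) b
    have e2 := sum_compl hC (fun u => ξ (x h u * b)) fun u r e => by
      have e3 := hA.out h r u
      have := (show LinearMap.IsAlt A from ha).neg u r
      rw [e] at e3
      congr 2
      ext <;> simp [x, e, e3, ha]
      linear_combination this
    rw [← Equiv.sum_comp eqv, Fintype.sum_prod_type, Finset.sum_congr rfl (g := fun u => p * ξ (x h u * b))
      (fun u _ => by
        rw [Finset.sum_congr rfl (g := fun _ => ξ (x h u * b)) fun a _ => by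
          congr 2
          ext <;> simp [eqv, sec, x, ha, sub_eq_add_neg]]
        simp), ← Finset.mul_sum, ← e2, ← fx_mul ρ h] at e1
    refine mul_left_cancel₀ (mul_ne_zero p0 (fx_ne ρ h)) ?_
    simp only [γ]
    push_cast at e1
    linear_combination e1
  have hB : ∀ h (j : ℕ) (b : Hs ρ A), b.h = h⁻¹ ^ j → Bp p (γ h ^ j * (ξ b / d)) := by
    intro h j
    obtain ⟨C, hC⟩ := (ker (ρ h - 1)).exists_isCompl
    induction j with
    | zero =>
      intro b hb
      rw [pow_zero] at hb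
      rw [pow_zero, one_mul]
      by_cases k : b.v = 0
      · obtain ⟨ω, a1, a2⟩ := (val b hb).2 k
        rw [a2, mul_div_cancel_right₀ _ d0']
        exact Bp.root hp.out a1
      · rw [(val b hb).1 k, zero_div]
        exact Bp.zero
    | succ j ih =>
      intro b hb
      rw [pow_succ, mul_assoc, ← mul_div_assoc, ← key h b C hC, Finset.sum_div, Finset.mul_sum]
      exact Finset.sum_induction _ (Bp p) (fun _ _ => Bp.add) Bp.zero fun c _ => ih _ (by simp [x, hb, pow_succ'])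
  have hB' : ∀ h, Bp p (γ h ^ Nat.card H) := fun h => by
    simpa [h1, d0'] using hB h (Nat.card H) 1 (by rw [pow_card_eq_one']; rfl)
  have nr : ∀ (σ : ℂ ≃+* ℂ) h, σ (γ h) * conj (σ (γ h)) = kk ρ h := fun σ h => by
    obtain ⟨C, hC⟩ := (ker (ρ h - 1)).exists_isCompl
    have e1 := key h (sec h)⁻¹ C hC
    rw [Finset.sum_eq_single 0 (fun c _ k => (val _ (by simp [x, sec])).1 fun k' => k (Subtype.ext
      (Submodule.disjoint_def.1 hC.disjoint _ ((mem_fix ρ).2 (sub_eq_zero.1 (by simpa [x, sec] using k')).symm) c.2)))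
      (by simp), show x h ((0 : C) : W) * (sec h)⁻¹ = 1 by ext <;> simp [x, sec], h1] at e1
    have e2 : σ (ξ (sec h)⁻¹) = conj (σ (ξ (sec h))) := isChar_inv (isChar_gal hξ σ.toRingHom) _
    have e3 := congrArg σ e1
    rw [map_mul, e2, map_natCast] at e3
    generalize hg : σ (γ h) = g at e3
    have e4 : conj g = kk ρ h * conj (σ (ξ (sec h))) / d := by simp [← hg, γ]
    rw [e4]
    field_simp
    linear_combination -(kk ρ h : ℂ) * e3
  refine ⟨γ, fun h => IsIntegral.of_pow Nat.card_pos (hB' h).int,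
    span_of ρ ((ISpan.of_char (hξ.comp sec)).smul (isIntegral_natCast m)) 1 fun h => ?_, fun σ h => ?_, ?_,
    fun h k => (hB' h).nil hp.out Nat.card_pos (nr (RingEquiv.refl ℂ) h) (dvd_kk ρ k)⟩
  · have e : (fx ρ h : ℂ) * kk ρ h * p = d * m := by exact_mod_cast (fx_mul ρ h).symm ▸ hm
    simp only [γ, Pi.smul_apply, smul_eq_mul]
    field_simp
    linear_combination ξ (sec h) * e
  · have := nr σ h
    rw [Complex.mul_conj, Complex.normSq_eq_norm_sq] at this
    exact_mod_cast this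
  · simp [γ, (kk_eq_one ρ (h := 1)).2 (by simp), h1, d0']

end CL.Char.RV
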