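/-
The real-vector criterion for the `k(GV)` problem: self-dual modules.
-/
import Cfsg.Agent.Char.RealVec3
import Cfsg.Agent.Grp.Cores

set_option autoImplicit false

namespace CL.Char.RV

open Cfsg LinearMap SelfDual

variable {p : ℕ} [hp : Fact p.Prime] {H : Type*} [Group H] [Fintype H] {W : Type*} [AddCommGroup W]
  [Module (ZMod p) W] [Finite W] {ρ : Representation (ZMod p) H W}

theorem root_selfDual (hH : ¬ p ∣ Nat.card H) {B : LinearMap.BilinForm (ZMod p) W} (hB : NI ρ ⊤ B) :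
    ∃ (k : H → ℕ) (γ : H → ℂ), Root p k γ ∧ (∀ h, k h = 1 → ∀ w, ρ h w = w) ∧ ∀ h, k h * fx ρ h ≤ Nat.card W := by
  have : NeZero (Nat.card H : ZMod p) := ⟨fun e => hH ((ZMod.natCast_eq_zero_iff _ _).1 e)⟩
  obtain ⟨U, T, hc, hU, hT, ⟨A, a1, a2⟩, ⟨S, s1, s2⟩, -⟩ := exists_split hB
  have ni : ∀ {X : Submodule (ZMod p) W} (hX : Inv ρ X) {C : LinearMap.BilinForm (ZMod p) W}, NI ρ X C →
      NI (ρ.subrepresentation X hX) ⊤ (C.restrict X) := fun hX C h =>
    ⟨fun g x _ y _ => h.1 g x x.2 y y.2, fun x _ k => Subtype.ext (h.2 x x.2 fun y hy => k ⟨y, hy⟩ trivial)⟩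
  obtain ⟨γ, hγ⟩ : ∃ γ, Root p (kk (ρ.subrepresentation U hU)) γ := by
    by_cases h2 : p = 2
    · subst h2
      exact root_symm hH (fun x y => ((show LinearMap.IsAlt A from a1).neg y x).symm.trans (ZMod.neg_eq_self_mod_two _))
        (ni hU a2)
    · have := Fact.mk fun g x y => (ni hU a2).1 g x trivial y trivial
      exact root_alt h2 hH (A := A.restrict U) (fun x => a1 x) fun x k => (ni hU a2).2 x trivial fun y _ => k y
  obtain ⟨γ', hγ'⟩ := root_symm hH (S := S.restrict T) (fun x y => s1 x y) (ni hT s2)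
  have dec : ∀ w : W, ∃ u ∈ U, ∃ t ∈ T, u + t = w := fun w => Submodule.mem_sup.1 (hc.sup_eq_top.ge trivial)
  refine ⟨_, _, hγ.mul hγ', fun h e w => ?_, fun h => ?_⟩
  · obtain ⟨u, hu, t, ht, rfl⟩ := dec w
    have e' := mul_eq_one.1 e
    rw [map_add]
    exact congrArg₂ (· + ·) (congrArg Subtype.val ((kk_eq_one _).1 e'.1 ⟨u, hu⟩))
      (congrArg Subtype.val ((kk_eq_one _).1 e'.2 ⟨t, ht⟩))
  · have h1 : fx ρ h ≤ fx (ρ.subrepresentation U hU) h * fx (ρ.subrepresentation T hT) h := by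
      rw [fx, fx, fx, ← Nat.card_prod]
      refine Nat.card_le_card_of_surjective (fun x => ⟨x.1.1 + x.2.1, (mem_fix ρ).2 ?_⟩) fun ⟨w, hw⟩ => ?_
      · rw [map_add]
        exact congrArg₂ (· + ·) (congrArg Subtype.val ((mem_fix _).1 x.1.2))
          (congrArg Subtype.val ((mem_fix _).1 x.2.2))
      · obtain ⟨u, hu, t, ht, rfl⟩ := dec w
        have e := (mem_fix ρ).1 hw
        rw [map_add] at e
        have e1 : ρ h u - u = t - ρ h t := by rw [sub_eq_sub_iff_add_eq_add, e, add_comm]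
        have e2 : ρ h u - u = 0 := Submodule.disjoint_def.1 hc.disjoint _ (sub_mem (hU h u hu) hu)
          (e1 ▸ sub_mem ht (hT h t ht))
        exact ⟨(⟨⟨u, hu⟩, (mem_fix _).2 (Subtype.ext (sub_eq_zero.1 e2))⟩,
          ⟨⟨t, ht⟩, (mem_fix _).2 (Subtype.ext (sub_eq_zero.1 (e1.symm.trans e2)).symm)⟩), rfl⟩
    rw [← Nat.card_congr (Submodule.prodEquivOfIsCompl U T hc).toEquiv, Nat.card_prod,
      ← fx_mul (ρ.subrepresentation U hU) h, ← fx_mul (ρ.subrepresentation T hT) h]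
    exact (Nat.mul_le_mul_left _ h1).trans (le_of_eq (by simp only [Pi.mul_apply]; ring))

theorem root_grp {A : Type*} [CommGroup A] [Finite A] (hA : ∀ a : A, a ^ p = 1) (hH : ¬ p ∣ Nat.card H)
    (φ : H →* MulAut A) (β : A → A → ZMod p) (hl : ∀ a b c, β (a * b) c = β a c + β b c)
    (hr : ∀ a b c, β a (b * c) = β a b + β a c) (hi : ∀ h a b, β (φ h a) (φ h b) = β a b)
    (hn : ∀ a, (∀ b, β a b = 0) → a = 1) : ∃ (k : H → ℕ) (γ : H → ℂ), Root p k γ ∧
      (∀ h, k h = 1 → ∀ a, φ h a = a) ∧ ∀ h, k h * Nat.card {a // φ h a = a} ≤ Nat.card A := by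
  have _ : Module (ZMod p) (Additive A) := AddCommGroup.zmodModule fun x => congrArg Additive.ofMul (hA x.toMul)
  let ρ : Representation (ZMod p) H (Additive A) :=
    { toFun := fun h => (MonoidHom.toAdditive (φ h).toMonoidHom).toZModLinearMap p
      map_one' := by rw [map_one]; rfl
      map_mul' := fun a b => by rw [map_mul]; rfl }
  let B : LinearMap.BilinForm (ZMod p) (Additive A) :=
    (AddMonoidHom.mk' (fun u : Additive A => (AddMonoidHom.mk' (fun w : Additive A => β u.toMul w.toMul) fun a b =>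
      hr _ a.toMul b.toMul).toZModLinearMap p) fun a b => LinearMap.ext fun w =>
        hl a.toMul b.toMul w.toMul).toZModLinearMap p
  obtain ⟨k, γ, hγ, h1, h2⟩ := root_selfDual (ρ := ρ) (B := B) hH
    ⟨fun g x _ y _ => hi g x.toMul y.toMul, fun x _ e => hn x.toMul fun w => e (.ofMul w) trivial⟩
  refine ⟨k, γ, hγ, fun h e a => h1 h e (.ofMul a), fun h => le_trans (le_of_eq ?_) (h2 h)⟩
  exact congrArg _ (Nat.card_congr (Additive.ofMul.subtypeEquiv fun a => (mem_fix ρ (w := .ofMul a)).symm))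

end CL.Char.RV
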