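/-
Faithful irreducible modules of abelian groups over finite fields: the field model, and self-duality.
-/
import Cfsg.Agent.Base
import Mathlib.RepresentationTheory.Basic
import Mathlib.FieldTheory.Finite.Basic
import Mathlib.RingTheory.Trace.Basic
import Mathlib.RingTheory.IntegralDomain
import Mathlib.LinearAlgebra.BilinearForm.Properties

set_option autoImplicit false

open Module

namespace CL.Char.SelfDual

universe u v

/-- An irreducible module of a finite abelian group over a finite field is a field extension on which the group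
acts by multiplication. -/
theorem exists_field_model {F : Type u} [Field F] {H : Type v} [CommGroup H] {V : Type*} [AddCommGroup V]
    [Module F V] [Nontrivial V] (ρ : Representation F H V)
    (hirr : ∀ U : Submodule F V, (∀ h : H, ∀ u ∈ U, ρ h u ∈ U) → U = ⊥ ∨ U = ⊤) :
    ∃ (K : Type (max u v)) (_ : Field K) (_ : Algebra F K) (j : H →* K) (e : K ≃ₗ[F] V),
      Submodule.span F (Set.range j) = ⊤ ∧ ∀ h x, e (j h * x) = ρ h (e x) := by
  classical
  obtain ⟨v₀, hv₀⟩ := exists_ne (0 : V)
  let φ := ρ.asAlgebraHom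
  have hφ : ∀ h, φ (MonoidAlgebra.of F H h) = ρ h := ρ.asAlgebraHom_of
  let ev : MonoidAlgebra F H →ₗ[F] V := (LinearMap.applyₗ v₀) ∘ₗ φ.toLinearMap
  have hev : ∀ a, ev a = φ a v₀ := fun a => rfl
  have hmul : ∀ a b, ev (a * b) = φ a (ev b) := fun a b => by rw [hev, map_mul]; rfl
  have hsurj : Function.Surjective ev := by
    rw [← LinearMap.range_eq_top]
    refine (hirr _ ?_).resolve_left fun h => hv₀ ?_
    · rintro h _ ⟨a, rfl⟩
      exact ⟨MonoidAlgebra.of F H h * a, by rw [hmul, hφ]⟩
    · have : v₀ ∈ LinearMap.range ev := ⟨1, by rw [hev, map_one]; rfl⟩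
      rwa [h, Submodule.mem_bot] at this
  let I : Ideal (MonoidAlgebra F H) := RingHom.ker φ
  have hI : ∀ a, a ∈ I ↔ ev a = 0 := by
    intro a
    constructor
    · intro ha
      rw [hev, (RingHom.mem_ker.1 ha : φ a = 0)]; rfl
    · intro ha
      refine RingHom.mem_ker.2 (LinearMap.ext fun v => ?_)
      obtain ⟨b, rfl⟩ := hsurj v
      change φ a (ev b) = 0
      rw [← hmul, mul_comm, hmul, ha, map_zero]
  have hmax : I.IsMaximal := by
    rw [Ideal.isMaximal_iff]
    refine ⟨fun h => hv₀ ?_, fun J a hIJ ha haJ => ?_⟩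
    · have := (hI 1).1 h
      rwa [hev, map_one] at this
    · have htop : LinearMap.range (φ a) = ⊤ := by
        refine (hirr _ ?_).resolve_left fun h => ha (RingHom.mem_ker.2 (LinearMap.range_eq_bot.1 h))
        rintro h _ ⟨w, rfl⟩
        refine ⟨ρ h w, ?_⟩
        rw [← hφ, ← Module.End.mul_apply, ← Module.End.mul_apply, ← map_mul, ← map_mul, mul_comm]
      obtain ⟨w, hw⟩ := LinearMap.range_eq_top.1 htop v₀
      obtain ⟨b, rfl⟩ := hsurj w
      have h1 : 1 - a * b ∈ I := by
        rw [hI, map_sub, hmul, hw, hev, map_one, Module.End.one_apply, sub_self]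
      have := J.add_mem (hIJ h1) (J.mul_mem_right b haJ)
      rwa [sub_add_cancel] at this
  let _ : Field (MonoidAlgebra F H ⧸ I) := Ideal.Quotient.field I
  let mk := Ideal.Quotient.mkₐ F I
  have hmk : Function.Surjective mk := Ideal.Quotient.mkₐ_surjective F I
  let l : (MonoidAlgebra F H ⧸ I) →ₗ[F] V := (I.restrictScalars F).liftQ ev (fun a ha => (hI a).1 ha)
  have hl : ∀ a, l (mk a) = ev a := fun a => rfl
  have hbij : Function.Bijective l := by
    constructor
    · rw [injective_iff_map_eq_zero]
      intro x hx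
      obtain ⟨a, rfl⟩ := hmk x
      exact Ideal.Quotient.eq_zero_iff_mem.2 ((hI a).2 hx)
    · intro v
      obtain ⟨a, rfl⟩ := hsurj v
      exact ⟨mk a, rfl⟩
  refine ⟨MonoidAlgebra F H ⧸ I, inferInstance, inferInstance,
    (mk : MonoidAlgebra F H →* _).comp (MonoidAlgebra.of F H), LinearEquiv.ofBijective l hbij, ?_, fun h x => ?_⟩
  · rw [eq_top_iff]
    rintro x -
    obtain ⟨a, rfl⟩ := hmk x
    induction a using MonoidAlgebra.induction_on with
    | of h => exact Submodule.subset_span ⟨h, rfl⟩
    | add a b ha hb => rw [map_add]; exact Submodule.add_mem _ ha hb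
    | smul c a ha => rw [map_smul]; exact Submodule.smul_mem _ c ha
  · obtain ⟨a, rfl⟩ := hmk x
    change l (mk (MonoidAlgebra.of F H h) * mk a) = ρ h (l (mk a))
    rw [← map_mul, hl, hl, hmul, hφ]

variable {F : Type*} [Field F] [Fintype F] {K : Type*} [Field K] [Algebra F K] [Finite K]
  {H : Type*} [CommGroup H] [Finite H]

theorem frob_pow_apply (i : ℕ) (x : K) :
    (FiniteField.frobeniusAlgHom F K ^ i) x = x ^ Fintype.card F ^ i := by
  rw [AlgHom.coe_pow, FiniteField.coe_frobeniusAlgHom, pow_iterate]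

theorem exists_of_form (j : H →* K) (hj : Function.Injective j) (hspan : Submodule.span F (Set.range j) = ⊤)
    (B : LinearMap.BilinForm F K) (hB : B.Nondegenerate) (hinv : ∀ h x y, B (j h * x) (j h * y) = B x y) :
    ∃ i < finrank F K, finrank F K ∣ 2 * i ∧ Nat.card H ∣ Fintype.card F ^ i + 1 ∧
      (i = 0 → finrank F K ≤ 1) := by
  have hex : ∀ a : K, ∃ b : K, ∀ x y, B (a * x) y = B x (b * y) := by
    intro a
    have ha : a ∈ Submodule.span F (Set.range j) := hspan ▸ Submodule.mem_top
    induction ha using Submodule.span_induction with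
    | mem a ha =>
      obtain ⟨h, rfl⟩ := ha
      refine ⟨j h⁻¹, fun x y => ?_⟩
      rw [← hinv h x, ← mul_assoc, ← map_mul, mul_inv_cancel, map_one, one_mul]
    | zero => exact ⟨0, fun x y => by simp⟩
    | add a a' _ _ ha ha' =>
      obtain ⟨b, hb⟩ := ha
      obtain ⟨b', hb'⟩ := ha'
      exact ⟨b + b', fun x y => by simp [add_mul, hb, hb']⟩
    | smul c a _ ha =>
      obtain ⟨b, hb⟩ := ha
      exact ⟨c • b, fun x y => by simp [hb]⟩
  choose t ht using hex
  have huniq : ∀ a b, (∀ x y, B (a * x) y = B x (b * y)) → t a = b := by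
    intro a b hb
    rw [← sub_eq_zero]
    refine hB.2 _ fun x => ?_
    have h1 := ht a x 1
    rw [hb, mul_one, mul_one] at h1
    rw [map_sub, h1, sub_self]
  let τ : K →ₐ[F] K := AlgHom.ofLinearMap
    { toFun := t
      map_add' := fun a a' => huniq _ _ fun x y => by simp [add_mul, ht]
      map_smul' := fun c a => huniq _ _ fun x y => by simp [ht] }
    (huniq _ _ fun x y => by simp)
    (fun a a' => huniq _ _ fun x y => by
      change B (a * a' * x) y = B x (t a * t a' * y)
      rw [mul_assoc, ht, ht]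
      congr 1
      ring)
  have hτ : ∀ h, τ (j h) = j h⁻¹ := fun h => huniq _ _ fun x y => by
    rw [← hinv h x, ← mul_assoc, ← map_mul, mul_inv_cancel, map_one, one_mul]
  have hτ2 : τ ^ 2 = 1 := by
    apply AlgHom.toLinearMap_injective
    refine LinearMap.ext_on_range hspan fun h => ?_
    change τ (τ (j h)) = j h
    rw [hτ, hτ, inv_inv]
  obtain ⟨⟨i, hi⟩, hiτ⟩ := (FiniteField.bijective_frobeniusAlgHom_pow F K).2 τ
  simp only at hiτ
  have hpow : ∀ h : H, h ^ (Fintype.card F ^ i + 1) = 1 := by
    intro h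
    apply hj
    rw [pow_succ, map_mul, map_pow, ← frob_pow_apply (F := F), hiτ, hτ, ← map_mul, inv_mul_cancel]
  refine ⟨i, hi, ?_, ?_, fun h0 => ?_⟩
  · rw [← FiniteField.orderOf_frobeniusAlgHom F K]
    apply orderOf_dvd_of_pow_eq_one
    rw [mul_comm, pow_mul, hiτ, hτ2]
  · have := isCyclic_of_injective_ringHom j hj
    rw [← IsCyclic.exponent_eq_card]
    exact Monoid.exponent_dvd_of_forall_pow_eq_one hpow
  · subst h0
    have hle : (⊤ : Submodule F K) ≤ Submodule.span F {1} := by
      rw [← hspan, Submodule.span_le]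
      rintro _ ⟨h, rfl⟩
      have h2 : j h ^ 2 = 1 := by
        rw [← map_pow]
        have := hpow h
        rw [pow_zero] at this
        rw [this, map_one]
      rcases sq_eq_one_iff.1 h2 with h1 | h1
      · rw [h1]; exact Submodule.subset_span rfl
      · rw [h1]; exact Submodule.neg_mem _ (Submodule.subset_span rfl)
    rw [← finrank_top F K, le_antisymm hle le_top]
    exact (finrank_span_singleton (one_ne_zero : (1 : K) ≠ 0)).le

theorem exists_form_of_dvd (j : H →* K) {m : ℕ} (hd : Nat.card H ∣ Fintype.card F ^ m + 1) :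
    ∃ B : LinearMap.BilinForm F K, B.Nondegenerate ∧ ∀ h x y, B (j h * x) (j h * y) = B x y := by
  let τ := FiniteField.frobeniusAlgHom F K ^ m
  have hτ : Function.Bijective τ := Finite.injective_iff_bijective.1 τ.toRingHom.injective
  have hT := traceForm_nondegenerate F K
  refine ⟨(Algebra.traceForm F K).comp LinearMap.id τ.toLinearMap, ⟨fun x hx => hT.1 x fun y => ?_,
    fun y hy => hτ.1 ?_⟩, fun h x y => ?_⟩
  · obtain ⟨y, rfl⟩ := hτ.2 y
    exact hx y
  · rw [map_zero]
    exact hT.2 _ fun x => hy x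
  · have h1 : j h * τ (j h) = 1 := by
      obtain ⟨c, hc⟩ := hd
      rw [frob_pow_apply, ← pow_succ', ← map_pow, hc, pow_mul, pow_card_eq_one', one_pow, map_one]
    change Algebra.trace F K (j h * x * τ (j h * y)) = Algebra.trace F K (x * τ y)
    rw [map_mul τ]
    congr 1
    linear_combination (x * τ y) * h1

end CL.Char.SelfDual
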