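/-
Brauer's splitting field theorem: every character of a finite group is afforded by matrices over any subfield of
`ℂ` containing the roots of unity of order dividing the exponent.
-/
import Cfsg.Agent.Char.MGroup
import Cfsg.Agent.Char.Orth2

set_option autoImplicit false

open Cfsg Module Representation
open scoped ComplexConjugate

namespace CL.Char

variable {G : Type*} [Group G]

/-- `χ` is the trace function of a matrix representation over the subfield `K` of `ℂ`. -/
def IsRealizableOver (K : Subfield ℂ) (χ : G → ℂ) : Prop :=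
  ∃ (n : ℕ) (A : G →* Matrix (Fin n) (Fin n) K), ∀ g, χ g = ((A g).trace : K)

variable {K : Subfield ℂ}

theorem isRealizableOver_character {V : Type*} [AddCommGroup V] [Module K V] [FiniteDimensional K V]
    (ρ : Representation K G V) : IsRealizableOver K (fun g => (ρ.character g : ℂ)) := by
  let b := Module.finBasis K V
  refine ⟨finrank K V, (LinearMap.toMatrixAlgEquiv b).toMonoidHom.comp ρ, fun g => ?_⟩
  have h1 : ((LinearMap.toMatrixAlgEquiv b).toMonoidHom.comp ρ) g = LinearMap.toMatrix b b (ρ g) := rfl
  rw [h1, ← LinearMap.trace_eq_matrix_trace K b]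
  rfl

theorem IsRealizableOver.exists_rep {χ : G → ℂ} (h : IsRealizableOver K χ) :
    ∃ (n : ℕ) (ρ : Representation K G (Fin n → K)), χ = fun g => (ρ.character g : ℂ) := by
  obtain ⟨n, A, hA⟩ := h
  refine ⟨n, (Matrix.toLinAlgEquiv' (R := K) (n := Fin n)).toMonoidHom.comp A, funext fun g => ?_⟩
  have h1 : ((Matrix.toLinAlgEquiv' (R := K) (n := Fin n)).toMonoidHom.comp A) g = Matrix.toLin' (A g) := rfl
  rw [hA, Representation.character, h1, Matrix.trace_toLin'_eq]

theorem IsRealizableOver.exists_matrix {χ : G → ℂ} (h : IsRealizableOver K χ) :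
    ∃ (n : ℕ) (B : G →* Matrix (Fin n) (Fin n) ℂ), (∀ g i j, B g i j ∈ K) ∧ ∀ g, χ g = (B g).trace := by
  obtain ⟨n, A, hA⟩ := h
  refine ⟨n, (K.subtype.mapMatrix (m := Fin n)).toMonoidHom.comp A, fun g i j => (A g i j).2, fun g => ?_⟩
  rw [hA]
  exact AddMonoidHom.map_trace K.subtype (A g)

theorem IsRealizableOver.isCharacter {χ : G → ℂ} (h : IsRealizableOver K χ) : IsCharacter G χ := by
  obtain ⟨n, B, -, hB⟩ := h.exists_matrix
  rw [funext hB]
  exact isCharacter_trace_matrixRep B

theorem isRealizableOver_of_matrix {n : Type*} [Fintype n] [DecidableEq n] (B : G →* Matrix n n ℂ)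
    (hB : ∀ g i j, B g i j ∈ K) : IsRealizableOver K (fun g => (B g).trace) := by
  have hinj : Function.Injective (K.subtype.mapMatrix (m := n)) := fun M N h => by
    ext i j
    exact congrFun (congrFun h i) j
  let a : G → Matrix n n K := fun g => Matrix.of fun i j => ⟨B g i j, hB g i j⟩
  have ha : ∀ g, K.subtype.mapMatrix (a g) = B g := fun g => rfl
  let A : G →* Matrix n n K :=
    { toFun := a
      map_one' := hinj (by rw [ha, map_one, map_one])
      map_mul' := fun x y => hinj (by rw [map_mul, ha, ha, ha, map_mul]) }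
  have := isRealizableOver_character (K := K)
    ((Matrix.toLinAlgEquiv' (R := K) (n := n)).toMonoidHom.comp A)
  convert this using 2 with g
  have h1 : ((Matrix.toLinAlgEquiv' (R := K) (n := n)).toMonoidHom.comp A) g = Matrix.toLin' (A g) := rfl
  rw [Representation.character, h1, Matrix.trace_toLin'_eq, ← ha]
  exact (AddMonoidHom.map_trace K.subtype (A g)).symm

theorem character_eq_add_of_isCompl' {k V : Type*} [Field k] [AddCommGroup V] [Module k V]
    [FiniteDimensional k V] (ρ : Representation k G V) (U W : Subrepresentation ρ) (h : IsCompl U W) :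
    ρ.character = U.toRepresentation.character + W.toRepresentation.character := by
  have hc : IsCompl U.toSubmodule W.toSubmodule := by
    constructor
    · rw [disjoint_iff, ← Subrepresentation.toSubmodule_inf, h.inf_eq_bot]; rfl
    · rw [codisjoint_iff, ← Subrepresentation.toSubmodule_sup, h.sup_eq_top]; rfl
  have h1 : (U.toRepresentation.prod W.toRepresentation).character =
      U.toRepresentation.character + W.toRepresentation.character := by
    funext g
    exact LinearMap.trace_prodMap' _ _
  rw [← h1]
  refine (char_iso (Representation.Equiv.mk (Submodule.prodEquivOfIsCompl _ _ hc) fun g => ?_)).symm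
  apply LinearMap.ext
  rintro ⟨u, w⟩
  simp [Representation.prod, Subrepresentation.toRepresentation]

theorem IsRealizableOver.add {χ ψ : G → ℂ} (h : IsRealizableOver K χ) (h' : IsRealizableOver K ψ) :
    IsRealizableOver K (χ + ψ) := by
  obtain ⟨n, ρ, rfl⟩ := h.exists_rep
  obtain ⟨m, σ, rfl⟩ := h'.exists_rep
  convert isRealizableOver_character (ρ.prod σ) using 1
  funext g
  have : (ρ.prod σ).character g = ρ.character g + σ.character g := LinearMap.trace_prodMap' _ _
  rw [this]
  simp

theorem isRealizableOver_zero : IsRealizableOver K (0 : G → ℂ) :=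
  ⟨0, 1, fun _ => by simp⟩

variable [Fintype G]

theorem isRealizableOver_of_add_eq (n : ℕ) : ∀ (V W : Type) [AddCommGroup V] [Module K V]
    [FiniteDimensional K V] [AddCommGroup W] [Module K W] [FiniteDimensional K W] (ρ : Representation K G V)
    (σ : Representation K G W) (χ : G → ℂ), finrank K W = n → IsCharacter G χ →
    (χ + fun g => (σ.character g : ℂ)) = (fun g => (ρ.character g : ℂ)) → IsRealizableOver K χ := by
  induction n using Nat.strong_induction_on with
  | _ n ih =>
  intro V W _ _ _ _ _ _ ρ σ χ hn hχ h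
  have hG : (Nat.card G : K) ≠ 0 := by exact_mod_cast Nat.card_pos.ne'
  have : NeZero (Nat.card G : K) := ⟨hG⟩
  let _ : Invertible (Nat.card G : K) := invertibleOfNonzero hG
  have hσ := (isRealizableOver_character σ).isCharacter
  by_cases h0 : (fun g => (σ.character g : ℂ)) = 0
  · rw [h0, add_zero] at h
    rw [h]
    exact isRealizableOver_character ρ
  have hne : classInner (fun g => (ρ.character g : ℂ)) (fun g => (σ.character g : ℂ)) ≠ 0 := by
    rw [← h, add_comm]
    exact classInner_ne_zero_of_add_left hσ hχ hσ (fun h' => h0 (classInner_self_eq_zero.1 h'))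
  have hrank : finrank K (IntertwiningMap σ ρ) ≠ 0 := by
    intro h'
    apply hne
    have h1 := card_inv_mul_sum_char_mul_char_eq_finrank σ ρ
    rw [h', Nat.cast_zero] at h1
    have h2 := congrArg K.subtype h1
    rw [map_mul, map_inv₀, map_sum, map_natCast, map_zero] at h2
    rw [classInner_def, ← h2]
    congr 1
    refine Finset.sum_congr rfl fun g _ => ?_
    rw [map_mul, hσ.conj_apply]
    rfl
  have : Nontrivial (IntertwiningMap σ ρ) := by
    by_contra h'
    rw [not_nontrivial_iff_subsingleton] at h'
    exact hrank Module.finrank_zero_of_subsingleton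
  obtain ⟨f, hf⟩ := exists_ne (0 : IntertwiningMap σ ρ)
  obtain ⟨V', hV'⟩ := exists_isCompl f.range
  obtain ⟨W', hW'⟩ := exists_isCompl f.ker
  have e1 := character_eq_add_of_isCompl' ρ _ _ hV'
  have e2 := character_eq_add_of_isCompl' σ _ _ hW'
  have hc : IsCompl f.ker.toSubmodule W'.toSubmodule := by
    constructor
    · rw [disjoint_iff, ← Subrepresentation.toSubmodule_inf, hW'.inf_eq_bot]; rfl
    · rw [codisjoint_iff, ← Subrepresentation.toSubmodule_sup, hW'.sup_eq_top]; rfl
  let l : W'.toSubmodule →ₗ[K] f.range.toSubmodule :=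
    (f.toLinearMap.comp W'.toSubmodule.subtype).codRestrict _ (fun w => ⟨w, rfl⟩)
  have hl : Function.Bijective l := by
    constructor
    · rw [injective_iff_map_eq_zero]
      intro w hw
      have h1 : (w : W) ∈ f.ker.toSubmodule := congrArg Subtype.val hw
      exact Subtype.ext ((Submodule.disjoint_def.1 hc.disjoint) _ h1 w.2)
    · rintro ⟨_, w, rfl⟩
      obtain ⟨a, ha, b, hb, rfl⟩ := Submodule.mem_sup.1 (hc.sup_eq_top ▸ Submodule.mem_top (x := w))
      refine ⟨⟨b, hb⟩, Subtype.ext ?_⟩
      have ha' : f.toLinearMap a = 0 := ha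
      change f.toLinearMap b = f.toLinearMap (a + b)
      rw [map_add, ha', zero_add]
  have e3 : W'.toRepresentation.character = f.range.toRepresentation.character := by
    refine char_iso (Representation.Equiv.mk (LinearEquiv.ofBijective l hl) fun g => ?_)
    apply LinearMap.ext
    intro w
    apply Subtype.ext
    exact IntertwiningMap.isIntertwining σ ρ f g (w : W)
  have hlt : finrank K f.ker.toSubmodule < n := by
    rw [← hn]
    apply Submodule.finrank_lt
    intro htop
    apply hf
    ext w
    have : w ∈ f.ker.toSubmodule := htop ▸ Submodule.mem_top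
    exact this
  refine ih _ hlt V'.toSubmodule f.ker.toSubmodule V'.toRepresentation f.ker.toRepresentation χ rfl hχ ?_
  funext g
  have := congrFun h g
  rw [e1, e2, e3] at this
  simp only [Pi.add_apply] at this ⊢
  push_cast at this
  linear_combination this

theorem IsRealizableOver.of_add_eq {χ a b : G → ℂ} (hχ : IsCharacter G χ) (ha : IsRealizableOver K a)
    (hb : IsRealizableOver K b) (h : χ + b = a) : IsRealizableOver K χ := by
  obtain ⟨n, ρ, rfl⟩ := ha.exists_rep
  obtain ⟨m, σ, rfl⟩ := hb.exists_rep
  exact isRealizableOver_of_add_eq _ _ _ ρ σ χ rfl hχ h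

theorem isRealizableOver_indFun_linear {H : Subgroup G} (lam : H →* ℂˣ) (hK : ∀ h, (lam h : ℂ) ∈ K) :
    IsRealizableOver K (indFun H (fun h => (lam h : ℂ))) := by
  classical
  let A : H →* Matrix Unit Unit ℂ :=
    (Matrix.scalar Unit).toMonoidHom.comp ((Units.coeHom ℂ).comp lam)
  have hA : ∀ h i j, A h i j = lam h := fun h i j => by simp [A]
  have h1 := isRealizableOver_of_matrix (K := K) (indMat H A)
    (fun g a b => indMat_entry_mem A (S := (K : Set ℂ)) K.zero_mem (fun h i j => by rw [hA]; exact hK h) g a b)
  convert h1 using 1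
  funext g
  rw [trace_indMat_eq_indFun]
  congr 1
  funext h
  simp [Matrix.trace, hA]

/-- Brauer's splitting field theorem. -/
theorem isRealizableOver_of_roots (hK : ∀ z : ℂ, z ^ Monoid.exponent G = 1 → z ∈ K) {χ : G → ℂ}
    (hχ : IsCharacter G χ) : IsRealizableOver K χ := by
  have key : ∀ f ∈ linSpan (fun E : Subgroup G => ∃ p : ℕ, p.Prime ∧ IsElementary p E),
      ∃ a b, IsRealizableOver K a ∧ IsRealizableOver K b ∧ f + b = a := by
    intro f hf
    refine AddSubgroup.closure_induction (fun f hf => ?_)
      ⟨0, 0, isRealizableOver_zero, isRealizableOver_zero, add_zero _⟩ ?_ ?_ hf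
    · obtain ⟨H, -, lam, rfl⟩ := hf
      refine ⟨_, 0, isRealizableOver_indFun_linear lam fun h => hK _ ?_, isRealizableOver_zero, add_zero _⟩
      have : h ^ Monoid.exponent G = 1 := Subtype.ext (Monoid.pow_exponent_eq_one (h : G))
      rw [← Units.val_pow_eq_pow_val, ← map_pow, this, map_one, Units.val_one]
    · rintro f f' - - ⟨a, b, ha, hb, h⟩ ⟨a', b', ha', hb', h'⟩
      exact ⟨a + a', b + b', ha.add ha', hb.add hb', by rw [← h, ← h']; abel⟩
    · rintro f - ⟨a, b, ha, hb, h⟩
      exact ⟨b, a, hb, ha, by rw [← h]; abel⟩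
  obtain ⟨a, b, ha, hb, h⟩ := key χ (mem_linSpan_elementary hχ.isGeneralizedCharacter)
  exact IsRealizableOver.of_add_eq hχ ha hb h

end CL.Char
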