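/-
Winter's theorem on solvable irreducible linear groups with a non-normal Sylow subgroup.
-/
import Cfsg.Agent.Char.GoingDown2
import Cfsg.Agent.Char.Triple
import Cfsg.Agent.Char.LinGrp1
import Cfsg.Agent.Char.Faithful
import Cfsg.Agent.Grp.Hall2
import Cfsg.Agent.Grp.Supersolv3
import Cfsg.Agent.Grp.SylowIn

set_option autoImplicit false
set_option linter.style.haveILetI false

open Module Cfsg
open scoped ComplexConjugate Pointwise commutatorElement

namespace CL.Char

universe u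

/-- No prime power divisor of `n` is congruent to `-1`, `0` or `1` modulo `p`. -/
def WinterGood (p n : ℕ) : Prop :=
  ∀ q : ℕ, IsPrimePow q → q ∣ n →
    ¬ ((q : ℤ) ≡ -1 [ZMOD p] ∨ (q : ℤ) ≡ 0 [ZMOD p] ∨ (q : ℤ) ≡ 1 [ZMOD p])

theorem WinterGood.of_dvd {p m n : ℕ} (h : WinterGood p n) (hm : m ∣ n) : WinterGood p m :=
  fun q hq hqm => h q hq (hqm.trans hm)

theorem WinterGood.not_dvd {p n : ℕ} (hp : p.Prime) (h : WinterGood p n) : ¬ p ∣ n :=
  fun hd => h p hp.isPrimePow hd (Or.inr (Or.inl (by simp [Int.modEq_zero_iff_dvd])))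

theorem WinterGood.not_sq {p n e : ℕ} (hp : p.Prime) (h : WinterGood p n) (he : e ∣ n)
    (h1 : IsPrimePow (e ^ 2)) (h2 : e ^ 2 ≡ 1 [MOD p]) : False := by
  refine h e ((isPrimePow_pow_iff two_ne_zero).mp h1) he ?_
  have h3 : (p : ℤ) ∣ (e - 1) * (e + 1) := by
    have h4 : (p : ℤ) ∣ ((e ^ 2 : ℕ) : ℤ) - (1 : ℕ) := (Nat.modEq_iff_dvd.mp h2.symm)
    convert h4 using 1
    push_cast
    ring
  rcases (Nat.prime_iff_prime_int.mp hp).dvd_or_dvd h3 with h4 | h4
  · exact Or.inr (Or.inr (Int.modEq_iff_dvd.mpr h4).symm)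
  · exact Or.inl (Int.modEq_iff_dvd.mpr (by simpa using h4)).symm

variable {G : Type u} [Group G]

theorem sylow_normal_of_forall_sup [Finite G] {p : ℕ} [Fact p.Prime] (P : Sylow p G)
    (h : ∀ g : G, g ≠ 1 → ∃ N : Subgroup G, N.Normal ∧ g ∉ N ∧ ((P : Subgroup G) ⊔ N).Normal) :
    (P : Subgroup G).Normal := by
  let D : Subgroup G := ⨅ N : {N : Subgroup G // N.Normal ∧ ((P : Subgroup G) ⊔ N).Normal},
    (P : Subgroup G) ⊔ N
  have hD : D.Normal := Subgroup.normal_iInf_normal fun N => N.2.2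
  obtain ⟨k, hk⟩ := IsPGroup.iff_card.mp P.2
  have hp : IsPGroup p D := by
    intro x
    refine ⟨k, Subtype.ext ?_⟩
    by_contra hne
    obtain ⟨N, hN, hx, hPN⟩ := h _ hne
    obtain ⟨y, hy, z, hz, e⟩ := Subgroup.mem_sup_of_normal_right.mp
      (Subgroup.mem_iInf.mp x.2 ⟨N, hN, hPN⟩)
    apply hx
    rw [← QuotientGroup.eq_one_iff, Subgroup.coe_pow, ← e, QuotientGroup.mk_pow,
      QuotientGroup.mk_mul, (QuotientGroup.eq_one_iff z).mpr hz, mul_one, ← QuotientGroup.mk_pow,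
      ← hk]
    have : y ^ Nat.card (P : Subgroup G) = 1 :=
      congrArg Subtype.val (pow_card_eq_one' (x := (⟨y, hy⟩ : (P : Subgroup G))))
    rw [this, QuotientGroup.mk_one]
  have := P.3 hp (le_iInf fun N => le_sup_left)
  exact this ▸ hD

/-- The end of the proof of Winter's theorem. -/
theorem sylow_normal_of_res_irr [Finite G] {p : ℕ} [Fact p.Prime] (P : Sylow p G) {χ : G → ℂ}
    (hχ : IsIrrCharacter G χ) (hker : charKer χ = ⊥) {L : Subgroup G} [hL : L.Normal]
    (hres : IsIrrCharacter L (fun x : L => χ x)) (h0 : ((P : Subgroup G) ⊓ L).Normal)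
    (hn : L ≤ Subgroup.normalizer ((P : Subgroup G) : Set G))
    (hab : ∀ x ∈ (P : Subgroup G), ∀ y ∈ (P : Subgroup G), x * y = y * x) :
    (P : Subgroup G).Normal := by
  set P₀ := (P : Subgroup G) ⊓ L with hP₀
  -- the stability group of the chain `1 ≤ P₀ ≤ L`
  let D : Subgroup G :=
    { carrier := {g | (∀ u ∈ P₀, g * u * g⁻¹ = u) ∧ ∀ l ∈ L, g * l * g⁻¹ * l⁻¹ ∈ P₀}
      one_mem' := ⟨fun u _ => by group, fun l _ => by simp⟩
      mul_mem' := by
        rintro a b ⟨ha, ha'⟩ ⟨hb, hb'⟩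
        refine ⟨fun u hu => ?_, fun l hl => ?_⟩
        · calc a * b * u * (a * b)⁻¹ = a * (b * u * b⁻¹) * a⁻¹ := by group
            _ = u := by rw [hb u hu, ha u hu]
        · have : a * b * l * (a * b)⁻¹ * l⁻¹ =
              a * (b * l * b⁻¹ * l⁻¹) * a⁻¹ * (a * l * a⁻¹ * l⁻¹) := by group
          rw [this, ha _ (hb' l hl)]
          exact P₀.mul_mem (hb' l hl) (ha' l hl)
      inv_mem' := by
        rintro a ⟨ha, ha'⟩
        refine ⟨fun u hu => ?_, fun l hl => ?_⟩
        · conv_lhs => rw [← ha u hu]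
          group
        · have : a⁻¹ * l * a⁻¹⁻¹ * l⁻¹ = a⁻¹ * (a * l * a⁻¹ * l⁻¹)⁻¹ * a⁻¹⁻¹ := by group
          rw [this]
          exact h0.conj_mem _ (P₀.inv_mem (ha' l hl)) _ }
  have hD : D.Normal := ⟨by
    rintro a ⟨ha, ha'⟩ g
    refine ⟨fun u hu => ?_, fun l hl => ?_⟩
    · calc g * a * g⁻¹ * u * (g * a * g⁻¹)⁻¹ = g * (a * (g⁻¹ * u * g⁻¹⁻¹) * a⁻¹) * g⁻¹ := by group
        _ = u := by rw [ha _ (h0.conj_mem u hu g⁻¹)]; group
    · have : g * a * g⁻¹ * l * (g * a * g⁻¹)⁻¹ * l⁻¹ =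
          g * (a * (g⁻¹ * l * g⁻¹⁻¹) * a⁻¹ * (g⁻¹ * l * g⁻¹⁻¹)⁻¹) * g⁻¹ := by group
      rw [this]
      exact h0.conj_mem _ (ha' _ (hL.conj_mem l hl g⁻¹)) g⟩
  have hPD : (P : Subgroup G) ≤ D := by
    intro x hx
    refine ⟨fun u hu => by rw [hab x hx u hu.1, mul_inv_cancel_right], fun l hl => ⟨?_, ?_⟩⟩
    · rw [mul_assoc x, mul_assoc x]
      exact (P : Subgroup G).mul_mem hx
        ((Subgroup.mem_normalizer_iff.mp (hn hl) _).mp ((P : Subgroup G).inv_mem hx))
    · exact L.mul_mem (hL.conj_mem l hl x) (L.inv_mem hl)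
  obtain ⟨k, hk⟩ := IsPGroup.iff_card.mp P.2
  have hpow : ∀ x ∈ D, x ^ p ^ k ∈ Subgroup.center G := by
    rintro x ⟨hx, hx'⟩
    have h1 : ∀ l ∈ L, ∀ m : ℕ, x ^ m * l * (x ^ m)⁻¹ = (x * l * x⁻¹ * l⁻¹) ^ m * l := by
      intro l hl m
      induction m with
      | zero => simp
      | succ m ih =>
        calc x ^ (m + 1) * l * (x ^ (m + 1))⁻¹ = x * (x ^ m * l * (x ^ m)⁻¹) * x⁻¹ := by group
          _ = x * (x * l * x⁻¹ * l⁻¹) ^ m * x⁻¹ * (x * l * x⁻¹ * l⁻¹) * l := by rw [ih]; group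
          _ = _ := by rw [hx _ (P₀.pow_mem (hx' l hl) m), ← pow_succ]
    have h2 : ∀ l ∈ L, x ^ p ^ k * l = l * x ^ p ^ k := by
      intro l hl
      have h3 : (x * l * x⁻¹ * l⁻¹) ^ p ^ k = 1 := by
        rw [← hk]
        exact congrArg Subtype.val (pow_card_eq_one' (x := (⟨_, (hx' l hl).1⟩ : (P : Subgroup G))))
      have h4 := h1 l hl (p ^ k)
      rwa [h3, one_mul, mul_inv_eq_iff_eq_mul] at h4
    rw [← hχ.charCenter_eq_center hker]
    obtain ⟨n, ρ, -, rfl⟩ := hχ
    haveI := isIrreducible_of_isIrrCharacter (ρ.comp L.subtype) hres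
    rw [mem_charCenter_character]
    exact exists_scalar_of_commute (ρ.comp L.subtype) _ fun l => by
      change ρ _ * ρ l = ρ l * ρ _
      rw [← map_mul, ← map_mul, h2 l l.2]
  have hDZ : D ≤ (P : Subgroup G) ⊔ Subgroup.center G := by
    let π := QuotientGroup.mk' (Subgroup.center G)
    have h1 : IsPGroup p (D.map π) := by
      rintro ⟨_, x, hx, rfl⟩
      exact ⟨k, Subtype.ext (by
        rw [Subgroup.coe_pow, ← map_pow]
        exact (QuotientGroup.eq_one_iff _).mpr (hpow x hx))⟩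
    have h2 := (P.mapSurjective (QuotientGroup.mk'_surjective (Subgroup.center G))).3 h1
      (Subgroup.map_mono hPD)
    have h3 := Subgroup.le_comap_map π D
    rwa [h2, Sylow.coe_mapSurjective, Subgroup.comap_map_eq, QuotientGroup.ker_mk'] at h3
  have hDN : D ≤ Subgroup.normalizer ((P : Subgroup G) : Set G) :=
    hDZ.trans (sup_le Subgroup.le_normalizer (Subgroup.center_le_normalizer _))
  refine ⟨fun x hx g => ?_⟩
  have h4 : ((g • P : Sylow p G) : Subgroup G) ≤ Subgroup.normalizer ((P : Subgroup G) : Set G) := by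
    rintro _ ⟨w, hw, rfl⟩
    exact hDN (hD.conj_mem w (hPD hw) g)
  have h5 := P.3 (IsPGroup.to_sup_of_normal_left' P.2 (g • P).2 h4) le_sup_left
  rw [← h5]
  exact Subgroup.mem_sup_right ⟨x, hx, rfl⟩

theorem winter_aux {p : ℕ} [hp : Fact p.Prime] (m : ℕ) : ∀ (G : Type u) [Group G] [Finite G]
    [Group.IsSolvable G], Nat.card G = m →
    (∀ g : G, g ≠ 1 → ∃ χ, IsIrrCharacter G χ ∧ WinterGood p (charDegree χ) ∧ g ∉ charKer χ) →
    ∀ P : Sylow p G, (P : Subgroup G).Normal := by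
  induction m using Nat.strong_induction_on with
  | _ m ih =>
  intro G _ _ _ hm h P
  classical
  haveI := Fintype.ofFinite G
  by_cases hf : ∃ χ, IsIrrCharacter G χ ∧ WinterGood p (charDegree χ) ∧ charKer χ = ⊥
  swap
  · refine sylow_normal_of_forall_sup P fun g hg => ?_
    obtain ⟨χ, hχ, hgood, hgχ⟩ := h g hg
    haveI := hχ.charKer_normal
    refine ⟨charKer χ, inferInstance, hgχ, ?_⟩
    obtain ⟨ψ, hψ, e⟩ := hχ.exists_quotient (charKer χ) le_rfl
    have hne : charKer χ ≠ ⊥ := fun e => hf ⟨χ, hχ, hgood, e⟩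
    have hlt : Nat.card (G ⧸ charKer χ) < m := by
      rw [← hm, ← (charKer χ).index_mul_card]
      exact lt_mul_of_one_lt_right (Nat.pos_of_ne_zero Subgroup.index_ne_zero_of_finite)
        ((Subgroup.one_lt_card_iff_ne_bot _).mpr hne)
    have h1 := ih _ hlt (G ⧸ charKer χ) rfl (fun x hx => ⟨ψ, hψ, by
      have : charDegree χ = charDegree ψ := congrArg (fun z : ℂ => ⌊z.re⌋₊) (congrFun e 1)
      rwa [← this], fun hxψ => by
      obtain ⟨x, rfl⟩ := QuotientGroup.mk_surjective x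
      refine hx ((QuotientGroup.eq_one_iff x).mpr (hχ.mem_charKer.mpr ?_))
      exact (congrFun e x).trans ((hψ.mem_charKer.mp hxψ).trans (congrFun e 1).symm)⟩)
      (P.mapSurjective (QuotientGroup.mk'_surjective (charKer χ)))
    have h2 := h1.comap (QuotientGroup.mk' (charKer χ))
    rwa [Sylow.coe_mapSurjective, Subgroup.comap_map_eq, QuotientGroup.ker_mk'] at h2
  obtain ⟨χ, hχ, hgood, hker⟩ := hf
  have hcard : ∀ M : Subgroup G, M ≠ ⊤ → Nat.card M < m := fun M hM => by
    rw [← hm]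
    exact lt_of_le_of_ne (Subgroup.card_le_card_group M)
      (fun e => hM (Subgroup.eq_top_of_card_eq M e))
  have hkerM : ∀ (M : Subgroup G) (x : M), x ∈ charKer (fun y : M => χ y) → x = 1 := by
    intro M x hx
    have h1 : (x : G) ∈ charKer χ := hχ.mem_charKer.mpr
      (apply_eq_one_of_mem_charKer (χ := fun y : M => χ y) hx)
    rw [hker] at h1
    exact Subtype.ext h1
  -- proper normal subgroups
  have hnorm : ∀ M : Subgroup G, M.Normal → M ≠ ⊤ → ((P : Subgroup G) ⊓ M).Normal := by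
    intro M hM hne
    have hS := Grp.isSylowIn_inf_normal P M
    have h1 := ih _ (hcard M hne) M rfl (fun x hx => by
      by_contra hcon
      push Not at hcon
      refine hx (hkerM M x ((hχ.isCharacter.restrict M).mem_charKer_iff_forall.mpr
        fun ψ hψ hne => hcon ψ hψ (hgood.of_dvd ?_)))
      exact degree_dvd_of_classInner_res_ne_zero M hχ hψ hne) hS.toSylow
    haveI := Sylow.characteristic_of_normal _ h1
    rw [← hS.map_toSylow]
    infer_instance
  rcases subsingleton_or_nontrivial G with hG | hG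
  · exact ⟨fun x hx g => by rwa [Subsingleton.elim (g * x * g⁻¹) x]⟩
  obtain ⟨r, K, hr, hK, -, hKr⟩ := exists_normal_index_prime_of_commutator_ne_top
    (G := G) (Group.IsSolvable.commutator_lt_top_of_nontrivial G).ne
  have hKtop : K ≠ ⊤ := fun e => hr.ne_one (by rw [← hKr, e, Subgroup.index_top])
  by_cases hPK : (P : Subgroup G) ≤ K
  · have := hnorm K hK hKtop
    rwa [inf_eq_left.mpr hPK] at this
  have hKP : K ⊔ P = ⊤ := by
    refine Subgroup.index_eq_one.mp ((hr.eq_one_or_self_of_dvd _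
      (hKr ▸ Subgroup.index_dvd_of_le le_sup_left)).resolve_right fun e => hPK ?_)
    have h1 := Subgroup.relIndex_mul_index (le_sup_left : K ≤ K ⊔ P)
    rw [e, hKr, Nat.mul_eq_right hr.ne_zero, Subgroup.relIndex_eq_one] at h1
    exact le_sup_right.trans h1
  obtain rfl : r = p := by
    have h1 : r ∣ Nat.card (P : Subgroup G) := by
      rw [← hKr, ← Subgroup.relIndex_top_right, ← hKP, Subgroup.relIndex_sup_left]
      exact Subgroup.relIndex_dvd_card _ _
    obtain ⟨k, hk⟩ := IsPGroup.iff_card.mp P.2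
    exact (Nat.prime_dvd_prime_iff_eq hr hp.out).mp (hr.dvd_of_dvd_pow (hk ▸ h1))
  haveI h0 := hnorm K hK hKtop
  rcases (inf_le_right : (P : Subgroup G) ⊓ K ≤ K).eq_or_lt with e | hlt
  · rw [sup_eq_right.mpr (e.ge.trans inf_le_left)] at hKP
    rw [hKP]
    infer_instance
  obtain ⟨L, hL, h0L, hLK, hchief⟩ := exists_chief_below hlt
  have hab := commutator_le_of_chief hLK.le hchief
  have hPL : (P : Subgroup G) ⊓ L = (P : Subgroup G) ⊓ K :=
    le_antisymm (inf_le_inf_left _ hLK.le) (le_inf inf_le_left h0L)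
  set E := L ⊔ (P : Subgroup G) with hE
  have hEK : E ⊓ K = L := by
    refine le_antisymm ?_ (le_inf le_sup_left hLK.le)
    rintro x ⟨hx, hxK⟩
    obtain ⟨l, hl, y, hy, rfl⟩ := Subgroup.mem_sup_of_normal_left.mp hx
    exact L.mul_mem hl (h0L ⟨hy, (K.mul_mem_cancel_left (hLK.le hl)).mp hxK⟩)
  have hEtop : E ≠ ⊤ := fun e => hLK.ne (by rw [← hEK, e, top_inf_eq])
  by_cases hEn : E.Normal
  · have := hnorm E hEn hEtop
    rwa [inf_eq_left.mpr le_sup_right] at this
  have hcoatom : IsCoatom E := by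
    refine ⟨hEtop, fun M hM => ?_⟩
    have h1 : (M ⊓ K).Normal := by
      rw [← Subgroup.normalizer_eq_top_iff, eq_top_iff, ← hKP]
      refine sup_le (fun k hk => Subgroup.mem_normalizer_fintype fun x hx => ⟨?_, ?_⟩)
        (fun y hy => Subgroup.mem_normalizer_fintype fun x hx => ⟨?_, ?_⟩)
      · have h2 : k * x * k⁻¹ = ⁅k, x⁆ * x := by rw [commutatorElement_def]; group
        rw [h2]
        exact M.mul_mem (hM.le (Subgroup.mem_sup_left
          (hab (Subgroup.commutator_mem_commutator hk hx.2)))) hx.1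
      · exact hK.conj_mem x hx.2 k
      · have h2 : y ∈ M := hM.le (Subgroup.mem_sup_right hy)
        exact M.mul_mem (M.mul_mem h2 hx.1) (M.inv_mem h2)
      · exact hK.conj_mem x hx.2 y
    rcases hchief _ h1 (le_inf (le_sup_left.trans hM.le) hLK.le) inf_le_right with e | e
    · refine absurd ?_ hM.not_ge
      intro x hx
      obtain ⟨k, hk, y, hy, rfl⟩ := Subgroup.mem_sup_of_normal_left.mp
        (hKP ▸ Subgroup.mem_top x : x ∈ K ⊔ (P : Subgroup G))
      have h2 : k ∈ M ⊓ K :=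
        ⟨(M.mul_mem_cancel_right (hM.le (Subgroup.mem_sup_right hy))).mp hx, hk⟩
      exact E.mul_mem (Subgroup.mem_sup_left (e ▸ h2)) (Subgroup.mem_sup_right hy)
    · rw [eq_top_iff, ← hKP]
      exact sup_le (inf_eq_right.mp e) (le_sup_right.trans hM.le)
  have hNE : Subgroup.normalizer ((P : Subgroup G) : Set G) ≤ E := by
    by_contra hcon
    apply hEn
    rw [← Subgroup.normalizer_eq_top_iff, eq_top_iff,
      ← hcoatom.2 (E ⊔ Subgroup.normalizer ((P : Subgroup G) : Set G)) (left_lt_sup.mpr hcon)]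
    refine sup_le Subgroup.le_normalizer fun g hg => Subgroup.mem_normalizer_fintype fun x hx => ?_
    obtain ⟨l, hl, y, hy, rfl⟩ := Subgroup.mem_sup_of_normal_left.mp hx
    have h2 : g * (l * y) * g⁻¹ = g * l * g⁻¹ * (g * y * g⁻¹) := by group
    rw [h2]
    exact E.mul_mem (Subgroup.mem_sup_left (hL.conj_mem l hl g))
      (Subgroup.mem_sup_right ((Subgroup.mem_normalizer_iff.mp hg y).mp hy))
  have hidx : L.relIndex K = E.index := by
    have h1 : L.relIndex E = K.index := by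
      rw [← hEK, Subgroup.inf_relIndex_left, ← Subgroup.relIndex_top_right,
        ← Subgroup.relIndex_sup_left, eq_top_iff.mpr
          (hKP.ge.trans (sup_le_sup_left le_sup_right K) : ⊤ ≤ K ⊔ E)]
    have h2 := Subgroup.relIndex_mul_index hLK.le
    rw [← Subgroup.relIndex_mul_index (le_sup_left : L ≤ E), h1, mul_comm] at h2
    exact Nat.eq_of_mul_eq_mul_left (hKr ▸ hr.pos) h2
  have hpp := Grp.isPrimePow_index_of_isCoatom hcoatom
  have hmod := Grp.index_modEq_one_of_normalizer_le P hNE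
  rw [← hidx] at hpp hmod
  have hθ : IsIrrCharacter K (fun x : K => χ x) :=
    isIrrCharacter_restrict_of_coprime hχ hχ.cast_charDegree.symm
      (hKr ▸ (hr.coprime_iff_not_dvd.mpr (hgood.not_dvd hr)).symm)
  obtain ⟨φ, hφ, hne⟩ := exists_irr_constituent_restrict L hχ
  have hres : IsIrrCharacter L (fun x : L => χ x) := by
    rcases going_down hLK.le hchief hab hθ (fun g n => hχ.isClassFunction n g) hφ hne with
      e | ⟨e, he, he2⟩ | ⟨-, e⟩
    · exact e ▸ hφ
    · exfalso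
      refine hgood.not_sq hr (e := e) ⟨charDegree φ, ?_⟩ (he2 ▸ hpp) (he2 ▸ hmod)
      have h1 : χ 1 = e * φ 1 := congrFun he 1
      rw [← hχ.cast_charDegree, ← hφ.cast_charDegree] at h1
      exact_mod_cast h1
    · exfalso
      refine hgood _ hpp ⟨charDegree φ, ?_⟩ (Or.inr (Or.inr (Int.natCast_modEq_iff.mpr hmod)))
      have h1 := congrFun e 1
      rw [indFun_one] at h1
      change (L.relIndex K : ℂ) * φ 1 = χ 1 at h1
      rw [← hχ.cast_charDegree, ← hφ.cast_charDegree] at h1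
      exact_mod_cast h1.symm
  have hχE : IsIrrCharacter E (fun x : E => χ x) :=
    isIrrCharacter_of_comp (hχ.isCharacter.restrict E) (Subgroup.inclusion le_sup_left) hres
  have hPE := ih _ (hcard E hEtop) E rfl
    (fun x hx => ⟨_, hχE, hgood, fun hx' => hx (hkerM E x hx')⟩) (P.subtype le_sup_right)
  have hEN : E ≤ Subgroup.normalizer ((P : Subgroup G) : Set G) :=
    (Subgroup.normal_subgroupOf_iff_le_normalizer le_sup_right).mp hPE
  refine sylow_normal_of_res_irr P hχ hker hres (hPL ▸ h0) (le_sup_left.trans hEN) ?_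
  have h1 := ((hχE.isCharacter.restrict ((P : Subgroup G).subgroupOf E))).commutator_le_charKer
    (fun ψ hψ hne => by
      by_contra h1
      haveI : ((P : Subgroup G).subgroupOf E).Normal := hPE
      exact hgood.not_dvd hr ((hψ.prime_dvd_charDegree (P.subtype le_sup_right).2 h1).trans
        (degree_dvd_of_classInner_res_ne_zero _ hχE hψ hne)))
  intro x hx y hy
  have h2 := apply_eq_one_of_mem_charKer (h1 (Subgroup.commutator_mem_commutator
    (Subgroup.mem_top ⟨⟨x, Subgroup.mem_sup_right hx⟩, hx⟩)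
    (Subgroup.mem_top ⟨⟨y, Subgroup.mem_sup_right hy⟩, hy⟩)))
  have h3 : ⁅x, y⁆ ∈ charKer χ := hχ.mem_charKer.mpr h2
  rw [hker] at h3
  exact commutatorElement_eq_one_iff_mul_comm.mp h3

/-- **Winter's theorem**. -/
theorem winter [Finite G] [Group.IsSolvable G] {χ : G → ℂ} (hχ : IsIrrCharacter G χ)
    (hker : charKer χ = ⊥) {p : ℕ} [Fact p.Prime] (hgood : WinterGood p (charDegree χ))
    (P : Sylow p G) : (P : Subgroup G).Normal :=
  winter_aux _ G rfl (fun g hg => ⟨χ, hχ, hgood, by rwa [hker]⟩) P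

end CL.Char
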